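import Cfsg.Agent.Helper64.UCDefs

/-!
# CALL S2107 (helper64): torus-free universality of the Steinberg cover in simply laced types with
enough room (Stein / Milnor style) -- definitions

`RSys`: relations (R1), (R2) and injectivity of the root maps.  `Cert2 D` is the table certificate
used to lift the relations to a central extension without torus elements (so over every field):
all commutator formulas have at most one term `(k; 1, 1)` with constant `± 1`, every commuting pair
`(r, s)` has a decomposition `r = a + b` with `x_a`, `x_b` commuting with `x_s`, and every root `k`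
has a decomposition `k = a + b` to which every other decomposition is linked by one move.
-/

set_option autoImplicit false

namespace Cfsg.Agent.Helper64.UC2

open Cfsg Cfsg.Lie Cfsg.Agent.Helper36 Cfsg.Agent.Helper64.UC

/-- Relations (R1), (R2) and injectivity of the root maps. -/
structure RSys (D : ChevalleyDatum) {K : Type*} [Field K] {Γ : Type*} [Group Γ]
    (x : ℕ → K → Γ) : Prop where
  add : ∀ (r : ℕ) (t u : K), x r t * x r u = x r (t + u)
  comm : ∀ r < D.nroots, ∀ s < D.nroots, s ≠ r → s ≠ D.neg r → ∀ t u : K,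
    x s u * x r t = x r t * x s u * sW x (D.commWord K r s t u)
  inj : ∀ r < D.nroots, ∀ t : K, x r t = 1 → t = 0

/-- `(r, s)` is a valid pair whose commutator formula is the single term `(k, C, 1, 1)`, `C = ± 1`:
`x_s(u)⁻¹ x_r(t)⁻¹ x_s(u) x_r(t) = x_k(C (-t) u)`. -/
def T1 (D : ChevalleyDatum) (r s k : ℕ) (C : ℤ) : Prop :=
  VP D r s ∧ k < D.nroots ∧ (C = 1 ∨ C = -1) ∧ D.commTerms r s = [(k, C, 1, 1)]

/-- The decomposition `k = p + q` (first root `q`) is linked to the decomposition `k = a + b`
(first root `b`) by one move through a root `c` with `q + c = b`, `c + a = p`. -/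
def Gen1 (D : ChevalleyDatum) (k a b q p : ℕ) : Prop :=
  ∃ c : ℕ, ∃ C1 C2 : ℤ, T1 D c q b C1 ∧ T1 D a c p C2 ∧ Is0 D q a ∧ Is0 D b p ∧ Is0 D b k

/-- Every decomposition `(p, q)` of `k` is the chosen one `(a, b)`, its transpose, or linked to
one of them by one move. -/
def Link (D : ChevalleyDatum) (k a b p q : ℕ) : Prop :=
  (q = b ∧ p = a) ∨ (q = a ∧ p = b) ∨ Gen1 D k a b q p ∨ Gen1 D k b a q p

/-- The table certificate for the torus-free lifting of the relations. -/
structure Cert2 (D : ChevalleyDatum) : Prop where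
  shape : ∀ r < D.nroots, ∀ s < D.nroots, s ≠ r → s ≠ D.neg r →
    D.commTerms r s = [] ∨ ∃ k : ℕ, ∃ C : ℤ, T1 D r s k C
  czero : ∀ r s : ℕ, Is0 D r s → ∃ a b : ℕ, ∃ C : ℤ, T1 D a b r C ∧ Is0 D a s ∧ Is0 D b s
  dec : ∀ k < D.nroots, ∃ a b : ℕ, ∃ C : ℤ, T1 D a b k C ∧ Is0 D a k ∧
    (∃ q p : ℕ, Gen1 D k a b q p) ∧
    ∀ p q : ℕ, ∀ C' : ℤ, T1 D p q k C' → Link D k a b p q

end Cfsg.Agent.Helper64.UC2
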