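import Cfsg.Agent.Helper36.StCenter
import Cfsg.Agent.Helper36.G2Triv
import Cfsg.Agent.Helper64.UC2Defs

/-!
# CALL MR (helper64), rows S2105 / S2106: minuscule representations of the groups presented by
(R1), (R2) of types `E₆` (dimension 27) and `E₇` (dimension 56) — definitions

An `SRep` describes operators `e_r` (one for each root `r`) on the vectors `ℕ → K` by sparse rows:
row `ν` of `e_r` has at most one entry, `(e_r f) ν = sg r ν * f (src r ν)` when `ν < N` and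
`src r ν < N`, and `(e_r f) ν = 0` otherwise.  The root element `x_r(t)` acts as `1 + t e_r`.
-/

set_option autoImplicit false

namespace Cfsg.Agent.Helper64.MR

open Cfsg Cfsg.Lie Cfsg.Agent.Helper64.UC

/-- Sparse rows of the operators `e_r`. -/
structure SRep where
  N : ℕ
  src : ℕ → ℕ → ℕ
  sg : ℕ → ℕ → ℤ

/-- Row `ν` of `e_r`: `some (μ, a)` means `(e_r f) ν = a * f μ`; `none` means `(e_r f) ν = 0`. -/
def SRep.term1 (R : SRep) (r ν : ℕ) : Option (ℕ × ℤ) :=
  if ν < R.N ∧ R.src r ν < R.N then some (R.src r ν, R.sg r ν) else none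

/-- Row `ν` of `e_r ∘ e_s`. -/
def SRep.term2 (R : SRep) (r s ν : ℕ) : Option (ℕ × ℤ) :=
  (R.term1 r ν).bind fun p => (R.term1 s p.1).map fun q => (q.1, p.2 * q.2)

/-- The rows `o₁` of `e_r e_s`, `o₂` of `e_s e_r`, `o₃` of `e_k` satisfy `o₁ - o₂ = C o₃`. -/
def brk (o₁ o₂ o₃ : Option (ℕ × ℤ)) (C : ℤ) : Prop :=
  (o₁ = none ∧ o₂ = none ∧ o₃ = none) ∨
  (∃ μ a b, o₁ = some (μ, a) ∧ o₂ = none ∧ o₃ = some (μ, b) ∧ a = C * b) ∨
  (∃ μ a b, o₁ = none ∧ o₂ = some (μ, a) ∧ o₃ = some (μ, b) ∧ -a = C * b)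

/-- The value of a row on a vector. -/
def rowVal {K : Type*} [Field K] (o : Option (ℕ × ℤ)) (f : ℕ → K) : K :=
  o.elim 0 (fun p => (p.2 : K) * f p.1)

theorem rowVal_none {K : Type*} [Field K] (f : ℕ → K) : rowVal none f = 0 := rfl

theorem rowVal_some {K : Type*} [Field K] (p : ℕ × ℤ) (f : ℕ → K) :
    rowVal (some p) f = (p.2 : K) * f p.1 := rfl

theorem rowVal_add {K : Type*} [Field K] (o : Option (ℕ × ℤ)) (f g : ℕ → K) :
    rowVal o (f + g) = rowVal o f + rowVal o g := by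
  cases o with
  | none => simp [rowVal_none]
  | some p => simp [rowVal_some, mul_add]

theorem rowVal_smul {K : Type*} [Field K] (o : Option (ℕ × ℤ)) (c : K) (f : ℕ → K) :
    rowVal o (c • f) = c * rowVal o f := by
  cases o with
  | none => simp [rowVal_none]
  | some p => simp [rowVal_some, mul_left_comm]

/-- The operator `e_r` on `ℕ → K`. -/
noncomputable def SRep.op (R : SRep) (K : Type*) [Field K] (r : ℕ) : Module.End K (ℕ → K) where
  toFun f := fun ν => rowVal (R.term1 r ν) f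
  map_add' f g := by
    funext ν
    exact rowVal_add _ f g
  map_smul' c f := by
    funext ν
    exact rowVal_smul _ c f

theorem SRep.op_apply (R : SRep) (K : Type*) [Field K] (r : ℕ) (f : ℕ → K) (ν : ℕ) :
    R.op K r f ν = rowVal (R.term1 r ν) f := rfl

/-- Rows of a composition: `(e_r (e_s f)) ν`. -/
theorem SRep.op_op_apply (R : SRep) (K : Type*) [Field K] (r s : ℕ) (f : ℕ → K) (ν : ℕ) :
    R.op K r (R.op K s f) ν = rowVal (R.term2 r s ν) f := by
  rw [SRep.op_apply]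
  unfold SRep.term2
  cases h : R.term1 r ν with
  | none => rfl
  | some p =>
    rw [rowVal_some, SRep.op_apply, Option.bind_some]
    cases h' : R.term1 s p.1 with
    | none => simp [rowVal_none]
    | some q => simp [rowVal_some, mul_assoc]

theorem SRep.term1_none_of_le (R : SRep) (r : ℕ) {ν : ℕ} (h : R.N ≤ ν) : R.term1 r ν = none := by
  unfold SRep.term1
  rw [if_neg]
  intro h'
  exact absurd h'.1 (not_lt.mpr h)

theorem SRep.term2_none_of_le (R : SRep) (r s : ℕ) {ν : ℕ} (h : R.N ≤ ν) :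
    R.term2 r s ν = none := by
  unfold SRep.term2
  rw [R.term1_none_of_le r h]
  rfl

theorem unit_aux1 {K : Type*} [Field K] {A : Type*} [Ring A] [Algebra K A] {e : A}
    (h : e * e = 0) (t : K) : (1 + t • e) * (1 - t • e) = 1 := by
  rw [mul_sub, mul_one, add_mul, one_mul, smul_mul_smul_comm, h, smul_zero, add_zero]
  abel

theorem unit_aux2 {K : Type*} [Field K] {A : Type*} [Ring A] [Algebra K A] {e : A}
    (h : e * e = 0) (t : K) : (1 - t • e) * (1 + t • e) = 1 := by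
  rw [mul_add, mul_one, sub_mul, one_mul, smul_mul_smul_comm, h, smul_zero, sub_zero]
  abel

open Classical in
/-- The root element `x_r(t) ↦ 1 + t e_r`, as a unit (`1` if `r` is out of range). -/
noncomputable def SRep.y (R : SRep) (D : ChevalleyDatum) (K : Type*) [Field K] (r : ℕ) (t : K) :
    (Module.End K (ℕ → K))ˣ :=
  if h : r < D.nroots ∧ R.op K r * R.op K r = 0 then
    ⟨1 + t • R.op K r, 1 - t • R.op K r, unit_aux1 h.2 t, unit_aux2 h.2 t⟩
  else 1

theorem SRep.y_val (R : SRep) (D : ChevalleyDatum) (K : Type*) [Field K] {r : ℕ}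
    (hr : r < D.nroots) (hsq : R.op K r * R.op K r = 0) (t : K) :
    ((R.y D K r t : (Module.End K (ℕ → K))ˣ) : Module.End K (ℕ → K)) = 1 + t • R.op K r := by
  unfold SRep.y
  rw [dif_pos ⟨hr, hsq⟩]

theorem SRep.y_of_not_lt (R : SRep) (D : ChevalleyDatum) (K : Type*) [Field K] {r : ℕ}
    (hr : ¬ r < D.nroots) (t : K) : R.y D K r t = 1 := by
  unfold SRep.y
  rw [dif_neg (fun h => hr h.1)]

/-- The relations of the operators: `e_r² = 0`; `e_r e_s = e_s e_r` when the root elements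
commute; `[e_r, e_s] = C e_k`, `e_r e_k = 0`, `e_s e_k = 0` when `[x_s, x_r] = x_k(C ..)`. -/
structure SRep.Ok (R : SRep) (D : ChevalleyDatum) : Prop where
  sq : ∀ r < D.nroots, ∀ ν < R.N, R.term2 r r ν = none
  c0 : ∀ r < D.nroots, ∀ s < D.nroots, s ≠ r → s ≠ D.neg r → D.commTerms r s = [] →
    ∀ ν < R.N, R.term2 r s ν = R.term2 s r ν
  c1 : ∀ r < D.nroots, ∀ s < D.nroots, s ≠ r → s ≠ D.neg r → ∀ (k : ℕ) (C : ℤ),
    D.commTerms r s = [(k, C, 1, 1)] → ∀ ν < R.N,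
      brk (R.term2 r s ν) (R.term2 s r ν) (R.term1 k ν) C ∧ R.term2 r k ν = none ∧
        R.term2 s k ν = none

/-- The highest weight vector `v₀ = e_{μ₀}` and `v₁ = e_{μ₁}`: every `e_{α_i}` kills `v₀`, every
`e_{-α_i}` with `i ≠ i₀` kills `v₀`, and for `α = α_{i₀}`: `e_{-α} v₀ = v₁`, `e_α v₁ = v₀`,
`e_{-α} v₁ = 0`.  (Column `μ` of `e_r` is read off the rows: `term1 r ν = some (μ, _)`.) -/
structure SRep.Top (R : SRep) (D : ChevalleyDatum) (i₀ μ₀ μ₁ : ℕ) : Prop where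
  hμ₀ : μ₀ < R.N
  hμ₁ : μ₁ < R.N
  hne : μ₀ ≠ μ₁
  pos : ∀ i < D.rank, ∀ ν < R.N, ∀ p, R.term1 (D.simple i) ν = some p → p.1 ≠ μ₀
  neg : ∀ i < D.rank, i ≠ i₀ → ∀ ν < R.N, ∀ p,
    R.term1 (D.neg (D.simple i)) ν = some p → p.1 ≠ μ₀
  dn : R.term1 (D.neg (D.simple i₀)) μ₁ = some (μ₀, 1) ∧ ∀ ν < R.N, ν ≠ μ₁ → ∀ p,
    R.term1 (D.neg (D.simple i₀)) ν = some p → p.1 ≠ μ₀
  upw : R.term1 (D.simple i₀) μ₀ = some (μ₁, 1) ∧ ∀ ν < R.N, ν ≠ μ₀ → ∀ p,
    R.term1 (D.simple i₀) ν = some p → p.1 ≠ μ₁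
  dnw : ∀ ν < R.N, ∀ p, R.term1 (D.neg (D.simple i₀)) ν = some p → p.1 ≠ μ₁

/-- An `SRep` given by tables. -/
def ofTables (N : ℕ) (S : List (List ℕ)) (G : List (List ℤ)) : SRep where
  N := N
  src := fun r ν => (S.getD r []).getD ν N
  sg := fun r ν => (G.getD r []).getD ν 0

/-- Lattice certificate: the solutions `t` of `∏_i t_i ^ ⟨α_j, α_i^∨⟩ = 1` (all `j`) are the
`t_k = ζ ^ c_k` with `ζ ^ m = 1` (`ζ = t_{i₀}`). -/
structure LatCert (D : ChevalleyDatum) (m i₀ : ℕ) (c : ℕ → ℤ) : Prop where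
  hi₀ : i₀ < D.rank
  hc : c i₀ = 1
  mat : ∃ M : ℕ → ℕ → ℤ, ∀ i < D.rank, ∀ k < D.rank,
    ((List.range D.rank).map fun j => D.pairing (D.simple i) (D.simple j) * M j k).sum =
      (if i = k then 1 else 0) - (if i = i₀ then c k else 0)
  vec : ∃ v : ℕ → ℤ, ∀ i < D.rank,
    ((List.range D.rank).map fun j => D.pairing (D.simple i) (D.simple j) * v j).sum =
      if i = i₀ then (m : ℤ) else 0
  root : ∀ s < D.nroots,
    (m : ℤ) ∣ ((List.range D.rank).map fun i => c i * D.pairing (D.simple i) s).sum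

end Cfsg.Agent.Helper64.MR
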