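import Mathlib
import Cfsg.Prelude.Def_SteinbergCover
import Cfsg.Prelude.Def_LieTypes
import Cfsg.Prelude.Def_ChevB2
import Cfsg.Prelude.Def_ChevAutomorphisms
import Cfsg.Agent.Helper36.StBasic

/-!
# CALL S2100 / S2398 (helper64): Steinberg's universality theorem — definitions

`Γ` is a group with "root elements" `x r t` satisfying Steinberg's relations (R1), (R2) of a
Chevalley datum `D` (`GSys`), `ψ : E →* Γ` a central extension, and `y r t` lifts of the `x r t`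
(`LSys`).  `Good D y r s` is relation (R2) for the lifts.  `Shape D r s` is a decidable description
of the commutator formula of the pair `(r, s)` and of the pairs inside it.
-/

set_option autoImplicit false

namespace Cfsg.Agent.Helper64.UC

open Cfsg Cfsg.Lie Cfsg.Agent.Helper36

section

variable {K : Type*} [Field K] {Γ : Type*} [Group Γ] {E : Type*} [Group E]

/-- `h` acts on the root elements through `χ`: `h x_s(u) h⁻¹ = x_s(χ_s u)`. -/
def Diag (n : ℕ) (x : ℕ → K → Γ) (h : Γ) (χ : ℕ → K) : Prop :=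
  ∀ s < n, ∀ u : K, h * x s u * h⁻¹ = x s (χ s * u)

/-- A group with Steinberg's relations (R1), (R2), perfect, with injective root maps and a torus. -/
structure GSys (D : ChevalleyDatum) (x : ℕ → K → Γ) : Prop where
  add : ∀ (r : ℕ) (t u : K), x r t * x r u = x r (t + u)
  comm : ∀ r < D.nroots, ∀ s < D.nroots, s ≠ r → s ≠ D.neg r → ∀ t u : K,
    x s u * x r t = x r t * x s u * sW x (D.commWord K r s t u)
  gen : Subgroup.closure {g : Γ | ∃ r < D.nroots, ∃ t : K, g = x r t} = ⊤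
  perf : commutator Γ = ⊤
  inj : ∀ r < D.nroots, ∀ t : K, x r t = 1 → t = 0
  tor : ∀ γ < D.nroots, ∀ a : K, a ≠ 0 →
    ∃ h : Γ, Diag D.nroots x h (fun s => a ^ D.pairing γ s)

/-- Table facts on the pairing `⟨s, γ^∨⟩ = D.pairing γ s`. -/
structure DFacts (D : ChevalleyDatum) : Prop where
  padd : ∀ γ < D.nroots, ∀ r < D.nroots, ∀ s < D.nroots, ∀ c ∈ D.commTerms r s,
    c.1 < D.nroots ∧
      D.pairing γ c.1 = (c.2.2.1 : ℤ) * D.pairing γ r + (c.2.2.2 : ℤ) * D.pairing γ s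
  pself : ∀ r < D.nroots, D.pairing r r = 2

/-- Lifts `y r t` of the root elements to a central extension `ψ : E →* Γ`: they map to the
`x r t`, are equivariant under the lifts of the torus elements, and additive. -/
structure LSys (D : ChevalleyDatum) (x : ℕ → K → Γ) (ψ : E →* Γ) (y : ℕ → K → E) : Prop where
  map : ∀ r < D.nroots, ∀ t : K, ψ (y r t) = x r t
  equiv : ∀ (h : Γ) (χ : ℕ → K), Diag D.nroots x h χ → ∀ e : E, ψ e = h →
    ∀ r < D.nroots, ∀ t : K, e * y r t * e⁻¹ = y r (χ r * t)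
  add : ∀ (r : ℕ) (t u : K), y r t * y r u = y r (t + u)

/-- Relation (R2) for the pair `(r, s)`, for the elements `y`. -/
def Good (D : ChevalleyDatum) (y : ℕ → K → E) (r s : ℕ) : Prop :=
  ∀ t u : K, y s u * y r t = y r t * y s u * sW y (D.commWord K r s t u)

end

/-! ### Shapes of the commutator formula -/

/-- `(p, q)` is a pair of roots with `q ≠ ± p`. -/
def VP (D : ChevalleyDatum) (p q : ℕ) : Prop :=
  p < D.nroots ∧ q < D.nroots ∧ q ≠ p ∧ q ≠ D.neg p

/-- The roots and exponents `(k, i, j)` (`k = i p + j q`) of the commutator formula of `(p, q)`. -/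
def sig (D : ChevalleyDatum) (p q : ℕ) : List (ℕ × ℕ × ℕ) :=
  (D.commTerms p q).map fun c => (c.1, c.2.2.1, c.2.2.2)

/-- The `i`-th root of the commutator formula of `(p, q)`. -/
def kk (D : ChevalleyDatum) (p q i : ℕ) : ℕ := ((D.commTerms p q).map Prod.fst).getD i 0

/-- `(p, q)` is a valid pair whose root elements commute. -/
def Is0 (D : ChevalleyDatum) (p q : ℕ) : Prop := VP D p q ∧ D.commTerms p q = []

/-- `(p, q)` is a valid pair with `[x_q, x_p] = x_k(± ..)` and `x_k` commutes with `x_q`. -/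
def Is1 (D : ChevalleyDatum) (p q k : ℕ) : Prop :=
  VP D p q ∧ sig D p q = [(k, 1, 1)] ∧ Is0 D q k

/-- Shape 1: one term `(k; 1, 1)`. -/
def Sh1 (D : ChevalleyDatum) (r s : ℕ) : Prop :=
  sig D r s = [(kk D r s 0, 1, 1)] ∧ Is0 D s (kk D r s 0)

/-- Shape 2a: terms `(k₁; 1, 1), (k₂; 2, 1)`. -/
def Sh2a (D : ChevalleyDatum) (r s : ℕ) : Prop :=
  sig D r s = [(kk D r s 0, 1, 1), (kk D r s 1, 2, 1)] ∧
    Is0 D s (kk D r s 0) ∧ Is0 D s (kk D r s 1) ∧ Is0 D (kk D r s 0) (kk D r s 1)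

/-- Shape 2b: terms `(k₁; 1, 1), (k₂; 1, 2)`. -/
def Sh2b (D : ChevalleyDatum) (r s : ℕ) : Prop :=
  sig D r s = [(kk D r s 0, 1, 1), (kk D r s 1, 1, 2)] ∧
    Is0 D r (kk D r s 0) ∧ Is0 D r (kk D r s 1) ∧ Is0 D (kk D r s 0) (kk D r s 1)

/-- Shape 3 (type G₂, two short roots): terms `(k₁; 1, 1), (k₂; 2, 1), (k₃; 1, 2)`. -/
def Sh3 (D : ChevalleyDatum) (r s : ℕ) : Prop :=
  sig D r s = [(kk D r s 0, 1, 1), (kk D r s 1, 2, 1), (kk D r s 2, 1, 2)] ∧
    Is1 D s (kk D r s 0) (kk D r s 2) ∧ Is0 D s (kk D r s 1) ∧ Is0 D s (kk D r s 2) ∧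
    Is0 D (kk D r s 0) (kk D r s 1) ∧ Is0 D (kk D r s 0) (kk D r s 2) ∧
    Is0 D (kk D r s 1) (kk D r s 2)

/-- Shape 4a (type G₂, `r` short, `s` long): terms `(1,1), (2,1), (3,1), (3,2)`. -/
def Sh4a (D : ChevalleyDatum) (r s : ℕ) : Prop :=
  sig D r s = [(kk D r s 0, 1, 1), (kk D r s 1, 2, 1), (kk D r s 2, 3, 1), (kk D r s 3, 3, 2)] ∧
    Is1 D s (kk D r s 2) (kk D r s 3) ∧ Is1 D (kk D r s 0) (kk D r s 1) (kk D r s 3) ∧
    Is0 D s (kk D r s 0) ∧ Is0 D s (kk D r s 1) ∧ Is0 D s (kk D r s 3) ∧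
    Is0 D (kk D r s 0) (kk D r s 2) ∧ Is0 D (kk D r s 0) (kk D r s 3) ∧
    Is0 D (kk D r s 1) (kk D r s 2) ∧ Is0 D (kk D r s 1) (kk D r s 3) ∧
    Is0 D (kk D r s 2) (kk D r s 3)

/-- Shape 4b (type G₂, `r` long, `s` short): terms `(1,1), (1,2), (1,3), (2,3)`. -/
def Sh4b (D : ChevalleyDatum) (r s : ℕ) : Prop :=
  sig D r s = [(kk D r s 0, 1, 1), (kk D r s 1, 1, 2), (kk D r s 2, 1, 3), (kk D r s 3, 2, 3)] ∧
    Is1 D r (kk D r s 2) (kk D r s 3) ∧ Is1 D (kk D r s 0) (kk D r s 1) (kk D r s 3) ∧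
    Is0 D r (kk D r s 0) ∧ Is0 D r (kk D r s 1) ∧ Is0 D r (kk D r s 3) ∧
    Is0 D (kk D r s 0) (kk D r s 2) ∧ Is0 D (kk D r s 0) (kk D r s 3) ∧
    Is0 D (kk D r s 1) (kk D r s 2) ∧ Is0 D (kk D r s 1) (kk D r s 3) ∧
    Is0 D (kk D r s 2) (kk D r s 3)

/-- The seven shapes of a commutator formula, with the commutation facts used to lift it. -/
def Shape (D : ChevalleyDatum) (r s : ℕ) : Prop :=
  sig D r s = [] ∨ Sh1 D r s ∨ Sh2a D r s ∨ Sh2b D r s ∨ Sh3 D r s ∨ Sh4a D r s ∨ Sh4b D r s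

instance (D : ChevalleyDatum) (p q : ℕ) : Decidable (VP D p q) := by
  unfold VP; infer_instance

instance (D : ChevalleyDatum) (p q : ℕ) : Decidable (Is0 D p q) := by
  unfold Is0; infer_instance

instance (D : ChevalleyDatum) (p q k : ℕ) : Decidable (Is1 D p q k) := by
  unfold Is1; infer_instance

instance (D : ChevalleyDatum) (r s : ℕ) : Decidable (Sh1 D r s) := by
  unfold Sh1; infer_instance

instance (D : ChevalleyDatum) (r s : ℕ) : Decidable (Sh2a D r s) := by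
  unfold Sh2a; infer_instance

instance (D : ChevalleyDatum) (r s : ℕ) : Decidable (Sh2b D r s) := by
  unfold Sh2b; infer_instance

instance (D : ChevalleyDatum) (r s : ℕ) : Decidable (Sh3 D r s) := by
  unfold Sh3; infer_instance

instance (D : ChevalleyDatum) (r s : ℕ) : Decidable (Sh4a D r s) := by
  unfold Sh4a; infer_instance

instance (D : ChevalleyDatum) (r s : ℕ) : Decidable (Sh4b D r s) := by
  unfold Sh4b; infer_instance

instance (D : ChevalleyDatum) (r s : ℕ) : Decidable (Shape D r s) := by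
  unfold Shape; infer_instance

/-- The root `r` is `2a + b` for a pair `(a, b)` with formula `x_{a+b}(..) x_{2a+b}(± t² u)`, and
`x_r` commutes with `x_a`, `x_b`, `x_{a+b}` (the long roots of type `B₂`). -/
def SpecP (D : ChevalleyDatum) (r : ℕ) : Prop :=
  ∃ a < D.nroots, ∃ b < D.nroots, ∃ p < D.nroots, ∃ C1 C2 : ℤ, VP D a b ∧
    D.commTerms a b = [(p, C1, 1, 1), (r, C2, 2, 1)] ∧ (C2 = 1 ∨ C2 = -1) ∧
    Is0 D r a ∧ Is0 D r b ∧ Is0 D r p

/-- The table certificate of a datum: shapes of all pairs, and enough torus elements. -/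
structure Cert (D : ChevalleyDatum) : Prop where
  shape : ∀ r < D.nroots, ∀ s < D.nroots, s ≠ r → s ≠ D.neg r → Shape D r s
  orth : ∀ r < D.nroots, ∀ s < D.nroots, s ≠ r → s ≠ D.neg r →
    ∃ γ < D.nroots, D.pairing γ r = 0 ∧ D.pairing γ s ≠ 0 ∧ (D.pairing γ s).natAbs ≤ 3
  full : ∀ r < D.nroots,
    (∃ γ < D.nroots, D.pairing γ r = 1 ∨ D.pairing γ r = -1) ∨ SpecP D r

end Cfsg.Agent.Helper64.UC
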