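-- helper64: definitions for S1083 (B_2(F) ≅ PΩ_5(F)): the quadratic form x0^2 + x1 x2 + x3 x4 on
-- F^5 (coordinates e0, e1, f1, e2, f2), explicit root elements of its isometry group satisfying
-- Steinberg's relations for the datum chevB2 (root indices 0..7 = -e1-e2, -e1, -e2, -e1+e2,
-- e1-e2, e2, e1, e1+e2), the isometry group O5 and the group G5 generated by the root elements.
import Mathlib
import Cfsg.Prelude.Def_Steinberg
import Cfsg.Prelude.Def_ChevB2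
import Cfsg.Prelude.Def_Classical

set_option autoImplicit false
open Matrix

namespace Cfsg.Agent.Helper64.B2

variable {F : Type*} [Field F]

/-- The quadratic form `x0^2 + x1 x2 + x3 x4`. -/
def Q5 (v : Fin 5 → F) : F := v 0 ^ 2 + v 1 * v 2 + v 3 * v 4

/-- Its polar form. -/
def B5 (u v : Fin 5 → F) : F := 2 * u 0 * v 0 + u 1 * v 2 + u 2 * v 1 + u 3 * v 4 + u 4 * v 3

theorem B5_eq (u v : Fin 5 → F) : B5 u v = Q5 (u + v) - Q5 u - Q5 v := by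
  simp only [B5, Q5, Pi.add_apply]
  ring

/-- The root element `x_r(t)` as a `5 × 5` matrix (identity for `r ≥ 8`). -/
def xm (r : ℕ) (t : F) : Matrix (Fin 5) (Fin 5) F :=
  match r with
  | 0 => !![1, 0, 0, 0, 0; 0, 1, 0, 0, 0; 0, 0, 1, t, 0; 0, 0, 0, 1, 0; 0, -t, 0, 0, 1]
  | 1 => !![1, -t, 0, 0, 0; 0, 1, 0, 0, 0; 2 * t, -t ^ 2, 1, 0, 0; 0, 0, 0, 1, 0; 0, 0, 0, 0, 1]
  | 2 => !![1, 0, 0, t, 0; 0, 1, 0, 0, 0; 0, 0, 1, 0, 0; 0, 0, 0, 1, 0; -(2 * t), 0, 0, -t ^ 2, 1]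
  | 3 => !![1, 0, 0, 0, 0; 0, 1, 0, 0, 0; 0, 0, 1, 0, t; 0, -t, 0, 1, 0; 0, 0, 0, 0, 1]
  | 4 => !![1, 0, 0, 0, 0; 0, 1, 0, -t, 0; 0, 0, 1, 0, 0; 0, 0, 0, 1, 0; 0, 0, t, 0, 1]
  | 5 => !![1, 0, 0, 0, -t; 0, 1, 0, 0, 0; 0, 0, 1, 0, 0; 2 * t, 0, 0, 1, -t ^ 2; 0, 0, 0, 0, 1]
  | 6 => !![1, 0, t, 0, 0; -(2 * t), 1, -t ^ 2, 0, 0; 0, 0, 1, 0, 0; 0, 0, 0, 1, 0; 0, 0, 0, 0, 1]
  | 7 => !![1, 0, 0, 0, 0; 0, 1, 0, 0, -t; 0, 0, 1, 0, 0; 0, 0, t, 1, 0; 0, 0, 0, 0, 1]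
  | _ => 1

theorem xm_of_ge (r : ℕ) (hr : 8 ≤ r) (t : F) : xm r t = 1 := by
  unfold xm
  split <;> first | omega | rfl

theorem xm_mulVec_0 (t : F) (v : Fin 5 → F) : xm 0 t *ᵥ v = ![v 0, v 1, v 2 + t * v 3, v 3, v 4 - t * v 1] := by
  funext i; fin_cases i <;> simp [xm, Matrix.mulVec, dotProduct, Fin.sum_univ_five] <;> ring
theorem xm_mulVec_1 (t : F) (v : Fin 5 → F) : xm 1 t *ᵥ v = ![v 0 - t * v 1, v 1, v 2 + 2 * t * v 0 - t ^ 2 * v 1, v 3, v 4] := by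
  funext i; fin_cases i <;> simp [xm, Matrix.mulVec, dotProduct, Fin.sum_univ_five] <;> ring
theorem xm_mulVec_2 (t : F) (v : Fin 5 → F) : xm 2 t *ᵥ v = ![v 0 + t * v 3, v 1, v 2, v 3, v 4 - 2 * t * v 0 - t ^ 2 * v 3] := by
  funext i; fin_cases i <;> simp [xm, Matrix.mulVec, dotProduct, Fin.sum_univ_five] <;> ring
theorem xm_mulVec_3 (t : F) (v : Fin 5 → F) : xm 3 t *ᵥ v = ![v 0, v 1, v 2 + t * v 4, v 3 - t * v 1, v 4] := by
  funext i; fin_cases i <;> simp [xm, Matrix.mulVec, dotProduct, Fin.sum_univ_five] <;> ring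
theorem xm_mulVec_4 (t : F) (v : Fin 5 → F) : xm 4 t *ᵥ v = ![v 0, v 1 - t * v 3, v 2, v 3, v 4 + t * v 2] := by
  funext i; fin_cases i <;> simp [xm, Matrix.mulVec, dotProduct, Fin.sum_univ_five] <;> ring
theorem xm_mulVec_5 (t : F) (v : Fin 5 → F) : xm 5 t *ᵥ v = ![v 0 - t * v 4, v 1, v 2, v 3 + 2 * t * v 0 - t ^ 2 * v 4, v 4] := by
  funext i; fin_cases i <;> simp [xm, Matrix.mulVec, dotProduct, Fin.sum_univ_five] <;> ring
theorem xm_mulVec_6 (t : F) (v : Fin 5 → F) : xm 6 t *ᵥ v = ![v 0 + t * v 2, v 1 - 2 * t * v 0 - t ^ 2 * v 2, v 2, v 3, v 4] := by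
  funext i; fin_cases i <;> simp [xm, Matrix.mulVec, dotProduct, Fin.sum_univ_five] <;> ring
theorem xm_mulVec_7 (t : F) (v : Fin 5 → F) : xm 7 t *ᵥ v = ![v 0, v 1 - t * v 4, v 2, v 3 + t * v 2, v 4] := by
  funext i; fin_cases i <;> simp [xm, Matrix.mulVec, dotProduct, Fin.sum_univ_five] <;> ring

/-- Root elements preserve the quadratic form. -/
theorem xm_Q5 (r : ℕ) (t : F) (v : Fin 5 → F) : Q5 (xm r t *ᵥ v) = Q5 v := by
  by_cases hr : 8 ≤ r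
  · rw [xm_of_ge r hr, Matrix.one_mulVec]
  · have h8 : r < 8 := by omega
    interval_cases r
    · rw [xm_mulVec_0]; simp only [Q5, Matrix.cons_val]; ring
    · rw [xm_mulVec_1]; simp only [Q5, Matrix.cons_val]; ring
    · rw [xm_mulVec_2]; simp only [Q5, Matrix.cons_val]; ring
    · rw [xm_mulVec_3]; simp only [Q5, Matrix.cons_val]; ring
    · rw [xm_mulVec_4]; simp only [Q5, Matrix.cons_val]; ring
    · rw [xm_mulVec_5]; simp only [Q5, Matrix.cons_val]; ring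
    · rw [xm_mulVec_6]; simp only [Q5, Matrix.cons_val]; ring
    · rw [xm_mulVec_7]; simp only [Q5, Matrix.cons_val]; ring

theorem xm_zero (r : ℕ) : xm r (0 : F) = 1 := by
  by_cases hr : 8 ≤ r
  · exact xm_of_ge r hr 0
  · have h8 : r < 8 := by omega
    interval_cases r <;>
    · ext i j
      fin_cases i <;> fin_cases j <;> simp [xm]

theorem xm_add (r : ℕ) (t u : F) : xm r t * xm r u = xm r (t + u) := by
  by_cases hr : 8 ≤ r
  · rw [xm_of_ge r hr, xm_of_ge r hr, xm_of_ge r hr, Matrix.one_mul]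
  · have h8 : r < 8 := by omega
    interval_cases r <;>
    · ext i j
      fin_cases i <;> fin_cases j <;> simp [xm, Matrix.mul_apply, Fin.sum_univ_five] <;> ring

/-- The root element `x_r(t)` in the general linear group. -/
def xg (r : ℕ) (t : F) : GL (Fin 5) F :=
  ⟨xm r t, xm r (-t), by rw [xm_add, add_neg_cancel, xm_zero], by rw [xm_add, neg_add_cancel, xm_zero]⟩

theorem xg_val (r : ℕ) (t : F) : ((xg r t : GL (Fin 5) F) : Matrix (Fin 5) (Fin 5) F) = xm r t := rfl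

theorem xg_add (r : ℕ) (t u : F) : xg r t * xg r u = xg r (t + u) := by
  apply Units.ext
  rw [Units.val_mul, xg_val, xg_val, xg_val, xm_add]

theorem xg_zero (r : ℕ) : xg r (0 : F) = 1 := by
  apply Units.ext
  rw [xg_val, xm_zero, Units.val_one]

theorem xg_inv (r : ℕ) (t : F) : (xg r t)⁻¹ = xg r (-t) := by
  apply inv_eq_of_mul_eq_one_right
  rw [xg_add, add_neg_cancel, xg_zero]

theorem xg_of_ge (r : ℕ) (hr : 8 ≤ r) (t : F) : xg r t = 1 := by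
  apply Units.ext
  rw [xg_val, xm_of_ge r hr, Units.val_one]

/-- The isometry group of `Q5` inside `GL_5(F)`. -/
def O5 (F : Type*) [Field F] : Subgroup (GL (Fin 5) F) where
  carrier := {g | ∀ v, Q5 ((g : Matrix (Fin 5) (Fin 5) F) *ᵥ v) = Q5 v}
  mul_mem' := by
    intro a b ha hb v
    rw [Units.val_mul, ← Matrix.mulVec_mulVec, ha, hb]
  one_mem' := by
    intro v
    rw [Units.val_one, Matrix.one_mulVec]
  inv_mem' := by
    intro a ha v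
    have h := ha (((a⁻¹ : GL (Fin 5) F) : Matrix (Fin 5) (Fin 5) F) *ᵥ v)
    rw [Matrix.mulVec_mulVec, ← Units.val_mul, mul_inv_cancel, Units.val_one, Matrix.one_mulVec] at h
    exact h.symm

theorem mem_O5 (g : GL (Fin 5) F) :
    g ∈ O5 F ↔ ∀ v, Q5 ((g : Matrix (Fin 5) (Fin 5) F) *ᵥ v) = Q5 v := Iff.rfl

/-- Isometries preserve the polar form. -/
theorem O5_B5 (g : GL (Fin 5) F) (hg : g ∈ O5 F) (u v : Fin 5 → F) :
    B5 ((g : Matrix (Fin 5) (Fin 5) F) *ᵥ u) ((g : Matrix (Fin 5) (Fin 5) F) *ᵥ v) = B5 u v := by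
  rw [B5_eq, B5_eq, ← Matrix.mulVec_add, hg, hg, hg]

theorem xg_mem_O5 (r : ℕ) (t : F) : xg r t ∈ O5 F := fun v => xm_Q5 r t v

/-- The group generated by the root elements. -/
def G5 (F : Type*) [Field F] : Subgroup (GL (Fin 5) F) :=
  Subgroup.closure {g | ∃ r < 8, ∃ t : F, g = xg r t}

theorem xg_mem_G5 (r : ℕ) (t : F) : xg r t ∈ G5 F := by
  by_cases hr : 8 ≤ r
  · rw [xg_of_ge r hr]
    exact Subgroup.one_mem _
  · exact Subgroup.subset_closure ⟨r, by omega, t, rfl⟩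

theorem G5_le_O5 : G5 F ≤ O5 F := by
  unfold G5
  rw [Subgroup.closure_le]
  rintro g ⟨r, -, t, rfl⟩
  exact xg_mem_O5 r t

/-- The diagonal matrix `diag(e, a, a⁻¹, b, b⁻¹)` as an element of `GL_5(F)`. -/
def dg (e a b : Fˣ) : GL (Fin 5) F :=
  ⟨Matrix.diagonal ![(e : F), (a : F), ((a⁻¹ : Fˣ) : F), (b : F), ((b⁻¹ : Fˣ) : F)],
    Matrix.diagonal ![((e⁻¹ : Fˣ) : F), ((a⁻¹ : Fˣ) : F), (a : F), ((b⁻¹ : Fˣ) : F), (b : F)],
    by
      rw [Matrix.diagonal_mul_diagonal, ← Matrix.diagonal_one]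
      congr 1
      funext i
      fin_cases i <;> simp,
    by
      rw [Matrix.diagonal_mul_diagonal, ← Matrix.diagonal_one]
      congr 1
      funext i
      fin_cases i <;> simp⟩

theorem dg_val (e a b : Fˣ) : ((dg e a b : GL (Fin 5) F) : Matrix (Fin 5) (Fin 5) F)
    = Matrix.diagonal ![(e : F), (a : F), ((a⁻¹ : Fˣ) : F), (b : F), ((b⁻¹ : Fˣ) : F)] := rfl

theorem dg_mulVec (e a b : Fˣ) (v : Fin 5 → F) :
    ((dg e a b : GL (Fin 5) F) : Matrix (Fin 5) (Fin 5) F) *ᵥ v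
      = ![(e : F) * v 0, (a : F) * v 1, ((a⁻¹ : Fˣ) : F) * v 2, (b : F) * v 3,
          ((b⁻¹ : Fˣ) : F) * v 4] := by
  rw [dg_val]
  funext i
  rw [Matrix.mulVec_diagonal]
  fin_cases i <;> rfl

theorem dg_mem_O5 (e a b : Fˣ) (he : (e : F) ^ 2 = 1) : dg e a b ∈ O5 F := by
  intro v
  rw [dg_mulVec]
  simp only [Q5, Matrix.cons_val]
  have ha : (a : F) * ((a⁻¹ : Fˣ) : F) = 1 := by rw [← Units.val_mul, mul_inv_cancel, Units.val_one]
  have hb : (b : F) * ((b⁻¹ : Fˣ) : F) = 1 := by rw [← Units.val_mul, mul_inv_cancel, Units.val_one]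
  calc ((e : F) * v 0) ^ 2 + (a : F) * v 1 * (((a⁻¹ : Fˣ) : F) * v 2)
        + (b : F) * v 3 * (((b⁻¹ : Fˣ) : F) * v 4)
      = (e : F) ^ 2 * v 0 ^ 2 + ((a : F) * ((a⁻¹ : Fˣ) : F)) * (v 1 * v 2)
        + ((b : F) * ((b⁻¹ : Fˣ) : F)) * (v 3 * v 4) := by ring
    _ = v 0 ^ 2 + v 1 * v 2 + v 3 * v 4 := by rw [he, ha, hb]; ring

theorem dg_mul (e a b e' a' b' : Fˣ) : dg e a b * dg e' a' b' = dg (e * e') (a * a') (b * b') := by
  apply Units.ext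
  rw [Units.val_mul, dg_val, dg_val, dg_val, Matrix.diagonal_mul_diagonal]
  congr 1
  funext i
  fin_cases i <;> simp [mul_comm]

theorem dg_one : dg (1 : Fˣ) 1 1 = 1 := by
  apply Units.ext
  rw [dg_val]
  have h : (![((1 : Fˣ) : F), ((1 : Fˣ) : F), (((1 : Fˣ)⁻¹ : Fˣ) : F), ((1 : Fˣ) : F),
      (((1 : Fˣ)⁻¹ : Fˣ) : F)] : Fin 5 → F) = fun _ => 1 := by
    funext i
    fin_cases i <;> simp
  rw [h, Matrix.diagonal_one]
  rfl

theorem dg_inv (e a b : Fˣ) : (dg e a b)⁻¹ = dg e⁻¹ a⁻¹ b⁻¹ := by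
  apply inv_eq_of_mul_eq_one_right
  rw [dg_mul, mul_inv_cancel, mul_inv_cancel, mul_inv_cancel, dg_one]

/-- The element `h_r(t) = n_r(t) n_r(-1)` with `n_r(t) = x_r(t) x_{-r}(-t⁻¹) x_r(t)`; the index
of `-r` is `7 - r`. -/
def hx (r : ℕ) (t : F) : GL (Fin 5) F :=
  xg r t * xg (7 - r) (-t⁻¹) * xg r t * (xg r (-1) * xg (7 - r) (-(-1 : F)⁻¹) * xg r (-1))

theorem hx_mem_G5 (r : ℕ) (t : F) : hx r t ∈ G5 F := by
  unfold hx
  exact Subgroup.mul_mem _ (Subgroup.mul_mem _ (Subgroup.mul_mem _ (xg_mem_G5 _ _) (xg_mem_G5 _ _))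
    (xg_mem_G5 _ _)) (Subgroup.mul_mem _ (Subgroup.mul_mem _ (xg_mem_G5 _ _) (xg_mem_G5 _ _))
    (xg_mem_G5 _ _))

end Cfsg.Agent.Helper64.B2
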