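import Mathlib
import Cfsg.Agent.Lead.LWDefs

/-!
# Definitions for the Livingstone–Wagner rows S0745, S0746, S0748 (helper64)

Elementwise homogeneity of a permutation group, in the style of `Cfsg.Agent.Lead.LW`.
-/

set_option autoImplicit false
set_option linter.unusedSectionVars false

namespace Cfsg.Agent.Helper64.LW2

open Cfsg.Agent.Lead.LW

variable {α : Type*} [Fintype α] [DecidableEq α]

/-- Elementwise `j`-homogeneity: any `j`-set is mapped onto any other by an element of `G`. -/
def Homog (G : Subgroup (Equiv.Perm α)) (j : ℕ) : Prop :=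
  ∀ S T : Finset α, S.card = j → T.card = j → ∃ g ∈ G, ∀ a, g a ∈ T ↔ a ∈ S

end Cfsg.Agent.Helper64.LW2
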