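-- helper64: base library for the small-field exceptions of SU_3(q): concrete models of GF(9) and
-- GF(25), transfer of explicit 3x3 matrices to an arbitrary field of the same size, stabilisers of
-- finite sets of projective points, and the orders of GU_3(3), GU_3(5).
import Cfsg.Agent.Helper97.UPrimeDim
import Cfsg.Agent.Helper5.UnitCard

set_option autoImplicit false
open Cfsg Cfsg.Geo Matrix

namespace Cfsg.Agent.Helper64.SU3

open Cfsg.Agent.Helper97

/-! ### Concrete fields -/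

instance su3_fact_K9 : Fact (∀ r : ZMod 3, r ^ 2 ≠ -1 + 0 * r) := ⟨by decide⟩

/-- The field with nine elements: `ZMod 3` with a square root of `-1` adjoined. -/
abbrev K9 : Type := QuadraticAlgebra (ZMod 3) (-1) 0

instance su3_fintype_K9 : Fintype K9 :=
  Fintype.ofEquiv (ZMod 3 × ZMod 3) (QuadraticAlgebra.equivProd (-1 : ZMod 3) 0).symm

theorem su3_card_K9 : Fintype.card K9 = 9 := by
  rw [Fintype.card_congr (QuadraticAlgebra.equivProd (-1 : ZMod 3) 0), Fintype.card_prod, ZMod.card]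

instance su3_fact_five : Fact (Nat.Prime 5) := ⟨by norm_num⟩

instance su3_fact_K25 : Fact (∀ r : ZMod 5, r ^ 2 ≠ -1 + (-1) * r) := ⟨by decide⟩

/-- The field with 25 elements: `ZMod 5` with a primitive cube root of unity adjoined. -/
abbrev K25 : Type := QuadraticAlgebra (ZMod 5) (-1) (-1)

instance su3_fintype_K25 : Fintype K25 :=
  Fintype.ofEquiv (ZMod 5 × ZMod 5) (QuadraticAlgebra.equivProd (-1 : ZMod 5) (-1)).symm

theorem su3_card_K25 : Fintype.card K25 = 25 := by
  rw [Fintype.card_congr (QuadraticAlgebra.equivProd (-1 : ZMod 5) (-1)), Fintype.card_prod,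
    ZMod.card]

/-- Instance check: both models are fields. -/
example : Field K9 := inferInstance

example : Field K25 := inferInstance

variable {F : Type*} [Field F] {K : Type*} [Field K]

/-! ### Transfer of matrices -/

section transfer

variable (ψ : K →+* F)

theorem su3_map_mul (A B : Matrix (Fin 3) (Fin 3) K) : (A * B).map ψ = A.map ψ * B.map ψ :=
  Matrix.map_mul

theorem su3_map_one : (1 : Matrix (Fin 3) (Fin 3) K).map ψ = 1 :=
  Matrix.map_one ψ (map_zero ψ) (map_one ψ)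

theorem su3_map_pow (A : Matrix (Fin 3) (Fin 3) K) (n : ℕ) : (A ^ n).map ψ = (A.map ψ) ^ n := by
  induction n with
  | zero => rw [pow_zero, pow_zero, su3_map_one]
  | succ n ih => rw [pow_succ, pow_succ, su3_map_mul, ih]

theorem su3_map_inj {A B : Matrix (Fin 3) (Fin 3) K} (h : A.map ψ = B.map ψ) : A = B :=
  Matrix.map_injective ψ.injective h

/-- The element of `GL` attached to a matrix over `K` with a given inverse. -/
def su3GL (A B : Matrix (Fin 3) (Fin 3) K) (h : B * A = 1) : GL (Fin 3) F :=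
  ⟨A.map ψ, B.map ψ, by rw [← su3_map_mul, mul_eq_one_comm.mpr h, su3_map_one],
    by rw [← su3_map_mul, h, su3_map_one]⟩

theorem su3GL_val (A B : Matrix (Fin 3) (Fin 3) K) (h : B * A = 1) :
    ((su3GL ψ A B h : GL (Fin 3) F) : Matrix (Fin 3) (Fin 3) F) = A.map ψ := rfl

theorem su3GL_pow (A B : Matrix (Fin 3) (Fin 3) K) (h : B * A = 1) (n : ℕ) (hn : A ^ n = 1) :
    su3GL ψ A B h ^ n = 1 := by
  apply Units.ext
  rw [Units.val_pow_eq_pow_val, su3GL_val, ← su3_map_pow, hn, su3_map_one, Units.val_one]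

theorem su3GL_ne_one (A B : Matrix (Fin 3) (Fin 3) K) (h : B * A = 1) (hA : A ≠ 1) :
    su3GL ψ A B h ≠ 1 := by
  intro h1
  have h2 := congrArg Units.val h1
  rw [su3GL_val, Units.val_one, ← su3_map_one ψ] at h2
  exact hA (su3_map_inj ψ h2)

theorem su3GL_mul (A B A' B' C D : Matrix (Fin 3) (Fin 3) K) (h : B * A = 1) (h' : B' * A' = 1)
    (hD : D * C = 1) (hC : A * A' = C) : su3GL ψ A B h * su3GL ψ A' B' h' = su3GL ψ C D hD := by
  apply Units.ext
  rw [Units.val_mul, su3GL_val, su3GL_val, su3GL_val, ← su3_map_mul, hC]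

theorem su3GL_mem_GU {q : ℕ} {σ : F ≃+* F} (hσ : IsSigma q σ) (A B : Matrix (Fin 3) (Fin 3) K)
    (h : B * A = 1) (hu : A.transpose * A.map (fun x => x ^ q) = 1) :
    su3GL ψ A B h ∈ GU 3 F q := by
  have e1 : (A.map ψ).map σ = (A.map (fun x => x ^ q)).map ψ := by
    ext i j
    simp only [Matrix.map_apply, hσ.pow, map_pow]
  have key : (A.map ψ)ᵀ * (A.map ψ).map σ = 1 := by
    rw [e1, ← Matrix.transpose_map, ← su3_map_mul, hu, su3_map_one]
  intro a b
  have := hσ.isSesq.similar_of_gram (A.map ψ) 1 (by rw [hσ.gram_herm, mul_one, one_smul]; exact key) a b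
  rw [one_mul] at this
  exact this

theorem su3GL_mem_SL (A B : Matrix (Fin 3) (Fin 3) K) (h : B * A = 1) (hd : A.det = 1) :
    su3GL ψ A B h ∈ specialLinear (Fin 3) F := by
  rw [specialLinear, MonoidHom.mem_ker]
  apply Units.ext
  rw [Matrix.GeneralLinearGroup.val_det_apply, su3GL_val, Units.val_one]
  have := RingHom.map_det ψ A
  rw [hd, map_one] at this
  exact this.symm

end transfer

/-! ### Stabilisers of sets of vectors -/

/-- The stabiliser in `GL` of a set of vectors. -/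
def su3Stab (S : Set (Fin 3 → F)) : Subgroup (GL (Fin 3) F) where
  carrier := {g | ∀ v, v ∈ S ↔ (g : Matrix (Fin 3) (Fin 3) F) *ᵥ v ∈ S}
  mul_mem' := by
    intro a b ha hb v
    rw [Units.val_mul, ← Matrix.mulVec_mulVec, ← ha, ← hb]
  one_mem' := by
    intro v
    simp
  inv_mem' := by
    intro a ha v
    rw [ha (((a⁻¹ : GL (Fin 3) F) : Matrix (Fin 3) (Fin 3) F) *ᵥ v), Matrix.mulVec_mulVec,
      ← Units.val_mul, mul_inv_cancel, Units.val_one, Matrix.one_mulVec]

theorem su3Stab_of_pow (S : Set (Fin 3 → F)) (g : GL (Fin 3) F) (n : ℕ) (hn : 0 < n)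
    (hg : g ^ n = 1) (hS : ∀ v ∈ S, (g : Matrix (Fin 3) (Fin 3) F) *ᵥ v ∈ S) :
    g ∈ su3Stab S := by
  have hk : ∀ k : ℕ, ∀ v ∈ S, ((g ^ k : GL (Fin 3) F) : Matrix (Fin 3) (Fin 3) F) *ᵥ v ∈ S := by
    intro k
    induction k with
    | zero =>
      intro v hv
      simpa using hv
    | succ k ih =>
      intro v hv
      rw [pow_succ', Units.val_mul, ← Matrix.mulVec_mulVec]
      exact hS _ (ih v hv)
  intro v
  constructor
  · exact hS v
  · intro h
    have h1 := hk (n - 1) _ h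
    rw [Matrix.mulVec_mulVec, ← Units.val_mul, ← pow_succ, Nat.sub_add_cancel hn, hg, Units.val_one,
      Matrix.one_mulVec] at h1
    exact h1

/-- The set of non-zero multiples of the images of the first `n` vectors of a family over `K`: a
set of projective points. -/
def su3Pts (ψ : K →+* F) (sig : ℕ → Fin 3 → K) (n : ℕ) : Set (Fin 3 → F) :=
  {v | ∃ i, i < n ∧ ∃ c : F, c ≠ 0 ∧ v = c • (fun j => ψ (sig i j))}

theorem su3Pts_smul (ψ : K →+* F) (sig : ℕ → Fin 3 → K) (n : ℕ) (c : F) (hc : c ≠ 0)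
    (v : Fin 3 → F) (hv : v ∈ su3Pts ψ sig n) : c • v ∈ su3Pts ψ sig n := by
  obtain ⟨i, hi, d, hd, rfl⟩ := hv
  exact ⟨i, hi, c * d, mul_ne_zero hc hd, by rw [smul_smul]⟩

/-- A matrix over `K` permuting the points (data: target indices and scalars) maps the point set
into itself. -/
theorem su3GL_maps (ψ : K →+* F) (A B : Matrix (Fin 3) (Fin 3) K) (h : B * A = 1)
    (sig : ℕ → Fin 3 → K) (n : ℕ) (pL : List ℕ) (cL : List K)
    (hp : ∀ i < n, pL.getD i 0 < n ∧ cL.getD i 0 ≠ 0 ∧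
      Matrix.mulVec A (sig i) = cL.getD i 0 • sig (pL.getD i 0)) :
    ∀ v ∈ su3Pts ψ sig n,
      ((su3GL ψ A B h : GL (Fin 3) F) : Matrix (Fin 3) (Fin 3) F) *ᵥ v ∈ su3Pts ψ sig n := by
  rintro v ⟨i, hi, c, hc, rfl⟩
  obtain ⟨h1, h2, h3⟩ := hp i hi
  refine ⟨pL.getD i 0, h1, c * ψ (cL.getD i 0), mul_ne_zero hc ((map_ne_zero ψ).mpr h2), ?_⟩
  rw [Matrix.mulVec_smul, su3GL_val]
  have e : (A.map ψ) *ᵥ (fun j => ψ (sig i j)) = fun j => ψ ((A *ᵥ sig i) j) := by
    funext j
    exact (RingHom.map_mulVec ψ A (sig i) j).symm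
  rw [e, h3, mul_smul]
  congr 1
  funext j
  simp only [Pi.smul_apply, smul_eq_mul, map_mul]

/-- Membership in the stabiliser of the point set, for a matrix of finite order. -/
theorem su3GL_mem_stab (ψ : K →+* F) (A B : Matrix (Fin 3) (Fin 3) K) (h : B * A = 1)
    (sig : ℕ → Fin 3 → K) (n : ℕ) (pL : List ℕ) (cL : List K)
    (hp : ∀ i < n, pL.getD i 0 < n ∧ cL.getD i 0 ≠ 0 ∧
      Matrix.mulVec A (sig i) = cL.getD i 0 • sig (pL.getD i 0))
    (m : ℕ) (hm : 0 < m) (hA : A ^ m = 1) :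
    su3GL ψ A B h ∈ su3Stab (su3Pts ψ sig n) :=
  su3Stab_of_pow _ _ m hm (su3GL_pow ψ A B h m hA) (su3GL_maps ψ A B h sig n pL cL hp)

/-- Non-membership in the stabiliser of the point set: the image of one point is not a multiple
of any point. -/
theorem su3GL_not_mem_stab (ψ : K →+* F) (hψ : Function.Surjective ψ)
    (A B : Matrix (Fin 3) (Fin 3) K) (h : B * A = 1)
    (sig : ℕ → Fin 3 → K) (n : ℕ) (i₀ : ℕ) (hi₀ : i₀ < n)
    (hnot : ∀ j < n, ∀ c : K, Matrix.mulVec A (sig i₀) ≠ c • sig j) :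
    su3GL ψ A B h ∉ su3Stab (su3Pts ψ sig n) := by
  intro hg
  have h0 : (fun j => ψ (sig i₀ j)) ∈ su3Pts ψ sig n :=
    ⟨i₀, hi₀, 1, one_ne_zero, by rw [one_smul]⟩
  obtain ⟨j, hj, c, -, hjeq⟩ := (hg _).mp h0
  obtain ⟨c₀, rfl⟩ := hψ c
  apply hnot j hj c₀
  funext k
  have h1 := congrFun hjeq k
  rw [su3GL_val] at h1
  have e : ((A.map ψ) *ᵥ (fun j => ψ (sig i₀ j))) k = ψ ((A *ᵥ sig i₀) k) :=
    (RingHom.map_mulVec ψ A (sig i₀) k).symm
  rw [e] at h1
  apply ψ.injective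
  rw [h1]
  simp only [Pi.smul_apply, smul_eq_mul, map_mul]

/-- Scalar matrices stabilise every point set. -/
theorem su3_scalar_mem_stab (ψ : K →+* F) (sig : ℕ → Fin 3 → K) (n : ℕ) (g : GL (Fin 3) F)
    (c : F) (hc : c ≠ 0) (hg : (g : Matrix (Fin 3) (Fin 3) F) = c • (1 : Matrix (Fin 3) (Fin 3) F)) :
    g ∈ su3Stab (su3Pts ψ sig n) := by
  intro v
  rw [hg, Matrix.smul_mulVec, Matrix.one_mulVec]
  constructor
  · exact su3Pts_smul ψ sig n c hc v
  · intro h
    have := su3Pts_smul ψ sig n c⁻¹ (inv_ne_zero hc) _ h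
    rwa [smul_smul, inv_mul_cancel₀ hc, one_smul] at this

/-! ### Maximality -/

/-- A maximal subgroup `H` of `G` is not contained in a subgroup `L` that contains an element of
`G` outside `H` and misses an element of `G`. -/
theorem su3_not_max {Γ : Type*} [Group Γ] (G H L : Subgroup Γ) (h : IsMaximalIn G H)
    (hHL : H ≤ L) (z : Γ) (hzG : z ∈ G) (hzL : z ∈ L) (hzH : z ∉ H) (w : Γ) (hwG : w ∈ G)
    (hwL : w ∉ L) : False := by
  rcases h.2 (L ⊓ G) (le_inf hHL h.1.le) inf_le_right with h1 | h1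
  · exact hzH (h1 ▸ (⟨hzL, hzG⟩ : z ∈ L ⊓ G))
  · have h2 : w ∈ L ⊓ G := by
      rw [h1]
      exact hwG
    exact hwL h2.1

/-- Maximality is invariant under conjugation by an element normalising the big group. -/
theorem su3_max_conj {Γ : Type*} [Group Γ] (G H : Subgroup Γ) (h : IsMaximalIn G H) (g : Γ)
    (hg : ∀ x ∈ G, g * x * g⁻¹ ∈ G) (hg' : ∀ x ∈ G, g⁻¹ * x * g ∈ G) :
    IsMaximalIn G (H.map (MulAut.conj g).toMonoidHom) := by
  have hGmap : G.map (MulAut.conj g).toMonoidHom = G := by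
    apply le_antisymm
    · rintro _ ⟨x, hx, rfl⟩
      exact hg x hx
    · intro x hx
      refine ⟨g⁻¹ * x * g, hg' x hx, ?_⟩
      simp [MulAut.conj_apply, mul_assoc]
  have hinj : Function.Injective (MulAut.conj g).toMonoidHom := (MulAut.conj g).injective
  constructor
  · rw [← hGmap]
    exact (Subgroup.map_lt_map_iff_of_injective hinj).mpr h.1
  · intro M hHM hMG
    have h1 : H ≤ M.comap (MulAut.conj g).toMonoidHom := Subgroup.map_le_iff_le_comap.mp hHM
    have h2 : M.comap (MulAut.conj g).toMonoidHom ≤ G := by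
      intro x hx
      have h3 : g * x * g⁻¹ ∈ G := hMG hx
      have h4 := hg' _ h3
      simpa [mul_assoc] using h4
    have hsurj : Function.Surjective (MulAut.conj g).toMonoidHom := (MulAut.conj g).surjective
    rcases h.2 _ h1 h2 with h3 | h3
    · left
      rw [← h3, Subgroup.map_comap_eq_self_of_surjective hsurj]
    · right
      rw [← hGmap, ← h3, Subgroup.map_comap_eq_self_of_surjective hsurj]

/-- Conjugation by a unitary matrix preserves the special unitary group. -/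
theorem su3_conj_mem_SU {q : ℕ} (g : GL (Fin 3) F) (hg : g ∈ GU 3 F q) (x : GL (Fin 3) F)
    (hx : x ∈ GU 3 F q ⊓ specialLinear (Fin 3) F) :
    g * x * g⁻¹ ∈ GU 3 F q ⊓ specialLinear (Fin 3) F := by
  refine ⟨(GU 3 F q).mul_mem ((GU 3 F q).mul_mem hg hx.1) ((GU 3 F q).inv_mem hg), ?_⟩
  have h1 : x ∈ specialLinear (Fin 3) F := hx.2
  show g * x * g⁻¹ ∈ specialLinear (Fin 3) F
  rw [specialLinear, MonoidHom.mem_ker] at h1 ⊢
  rw [map_mul, map_mul, h1, mul_one, map_inv, mul_inv_cancel]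

/-! ### Orders -/

theorem su3_card_GU_three [Fintype F] (hF : Fintype.card F = 3 ^ 2) :
    Nat.card (GU 3 F 3) = 24192 := by
  rw [Cfsg.Agent.Helper5.card_GU hF 3]
  simp [Finset.prod_range_succ]

theorem su3_card_GU_five [Fintype F] (hF : Fintype.card F = 5 ^ 2) :
    Nat.card (GU 3 F 5) = 2268000 := by
  rw [Cfsg.Agent.Helper5.card_GU hF 3]
  simp [Finset.prod_range_succ]

theorem su3_h49_three [Fintype F] (hF : Fintype.card F = 3 ^ 2) :
    ¬ 49 ∣ Nat.card ↥(GU 3 F 3 ⊓ specialLinear (Fin 3) F) := by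
  intro h
  have h1 : Nat.card ↥(GU 3 F 3 ⊓ specialLinear (Fin 3) F) ∣ Nat.card ↥(GU 3 F 3) :=
    Subgroup.card_dvd_of_le inf_le_left
  rw [su3_card_GU_three hF] at h1
  have h2 : 49 ∣ 24192 := h.trans h1
  revert h2
  decide

theorem su3_h49_five [Fintype F] (hF : Fintype.card F = 5 ^ 2) :
    ¬ 49 ∣ Nat.card ↥(GU 3 F 5 ⊓ specialLinear (Fin 3) F) := by
  intro h
  have h1 : Nat.card ↥(GU 3 F 5 ⊓ specialLinear (Fin 3) F) ∣ Nat.card ↥(GU 3 F 5) :=
    Subgroup.card_dvd_of_le inf_le_left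
  rw [su3_card_GU_five hF] at h1
  have h2 : 49 ∣ 2268000 := h.trans h1
  revert h2
  decide

end Cfsg.Agent.Helper64.SU3
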