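-- helper64: Steinberg's commutator relations for the explicit root elements of O_5 (S1083); machine generated.
import Cfsg.Agent.Helper64.B2Defs

set_option autoImplicit false
open Matrix Cfsg Cfsg.Lie

namespace Cfsg.Agent.Helper64.B2

variable {F : Type*} [Field F]

theorem ct_2_0 : chevB2.commTerms 2 0 = [] := by decide
theorem rel_2_0 (t u : F) : xg 0 u * xg 2 t = xg 2 t * xg 0 u * ((chevB2.commWord F 2 0 t u).map fun p => xg p.1 p.2).prod := by
  rw [ChevalleyDatum.commWord, ct_2_0]
  simp only [List.map_cons, List.map_nil, List.prod_cons, List.prod_nil]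
  apply Units.ext
  simp only [Units.val_mul, xg_val, Units.val_one]
  ext i j
  fin_cases i <;> fin_cases j <;> simp [xm, Matrix.mul_apply, Fin.sum_univ_five] <;> ring
theorem ct_2_1 : chevB2.commTerms 2 1 = [(0, -2, 1, 1)] := by decide
theorem rel_2_1 (t u : F) : xg 1 u * xg 2 t = xg 2 t * xg 1 u * ((chevB2.commWord F 2 1 t u).map fun p => xg p.1 p.2).prod := by
  rw [ChevalleyDatum.commWord, ct_2_1]
  simp only [List.map_cons, List.map_nil, List.prod_cons, List.prod_nil]
  apply Units.ext
  simp only [Units.val_mul, xg_val, Units.val_one]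
  ext i j
  fin_cases i <;> fin_cases j <;> simp [xm, Matrix.mul_apply, Fin.sum_univ_five] <;> ring
theorem ct_2_3 : chevB2.commTerms 2 3 = [(1, 1, 1, 1), (0, -1, 2, 1)] := by decide
theorem rel_2_3 (t u : F) : xg 3 u * xg 2 t = xg 2 t * xg 3 u * ((chevB2.commWord F 2 3 t u).map fun p => xg p.1 p.2).prod := by
  rw [ChevalleyDatum.commWord, ct_2_3]
  simp only [List.map_cons, List.map_nil, List.prod_cons, List.prod_nil]
  apply Units.ext
  simp only [Units.val_mul, xg_val, Units.val_one]
  ext i j
  fin_cases i <;> fin_cases j <;> simp [xm, Matrix.mul_apply, Fin.sum_univ_five] <;> ring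
theorem ct_2_4 : chevB2.commTerms 2 4 = [] := by decide
theorem rel_2_4 (t u : F) : xg 4 u * xg 2 t = xg 2 t * xg 4 u * ((chevB2.commWord F 2 4 t u).map fun p => xg p.1 p.2).prod := by
  rw [ChevalleyDatum.commWord, ct_2_4]
  simp only [List.map_cons, List.map_nil, List.prod_cons, List.prod_nil]
  apply Units.ext
  simp only [Units.val_mul, xg_val, Units.val_one]
  ext i j
  fin_cases i <;> fin_cases j <;> simp [xm, Matrix.mul_apply, Fin.sum_univ_five] <;> ring
theorem ct_2_6 : chevB2.commTerms 2 6 = [(4, -2, 1, 1)] := by decide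
theorem rel_2_6 (t u : F) : xg 6 u * xg 2 t = xg 2 t * xg 6 u * ((chevB2.commWord F 2 6 t u).map fun p => xg p.1 p.2).prod := by
  rw [ChevalleyDatum.commWord, ct_2_6]
  simp only [List.map_cons, List.map_nil, List.prod_cons, List.prod_nil]
  apply Units.ext
  simp only [Units.val_mul, xg_val, Units.val_one]
  ext i j
  fin_cases i <;> fin_cases j <;> simp [xm, Matrix.mul_apply, Fin.sum_univ_five] <;> ring
theorem ct_2_7 : chevB2.commTerms 2 7 = [(6, 1, 1, 1), (4, -1, 2, 1)] := by decide
theorem rel_2_7 (t u : F) : xg 7 u * xg 2 t = xg 2 t * xg 7 u * ((chevB2.commWord F 2 7 t u).map fun p => xg p.1 p.2).prod := by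
  rw [ChevalleyDatum.commWord, ct_2_7]
  simp only [List.map_cons, List.map_nil, List.prod_cons, List.prod_nil]
  apply Units.ext
  simp only [Units.val_mul, xg_val, Units.val_one]
  ext i j
  fin_cases i <;> fin_cases j <;> simp [xm, Matrix.mul_apply, Fin.sum_univ_five] <;> ring
theorem ct_3_0 : chevB2.commTerms 3 0 = [] := by decide
theorem rel_3_0 (t u : F) : xg 0 u * xg 3 t = xg 3 t * xg 0 u * ((chevB2.commWord F 3 0 t u).map fun p => xg p.1 p.2).prod := by
  rw [ChevalleyDatum.commWord, ct_3_0]
  simp only [List.map_cons, List.map_nil, List.prod_cons, List.prod_nil]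
  apply Units.ext
  simp only [Units.val_mul, xg_val, Units.val_one]
  ext i j
  fin_cases i <;> fin_cases j <;> simp [xm, Matrix.mul_apply, Fin.sum_univ_five] <;> ring
theorem ct_3_1 : chevB2.commTerms 3 1 = [] := by decide
theorem rel_3_1 (t u : F) : xg 1 u * xg 3 t = xg 3 t * xg 1 u * ((chevB2.commWord F 3 1 t u).map fun p => xg p.1 p.2).prod := by
  rw [ChevalleyDatum.commWord, ct_3_1]
  simp only [List.map_cons, List.map_nil, List.prod_cons, List.prod_nil]
  apply Units.ext
  simp only [Units.val_mul, xg_val, Units.val_one]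
  ext i j
  fin_cases i <;> fin_cases j <;> simp [xm, Matrix.mul_apply, Fin.sum_univ_five] <;> ring
theorem ct_3_2 : chevB2.commTerms 3 2 = [(1, -1, 1, 1), (0, -1, 1, 2)] := by decide
theorem rel_3_2 (t u : F) : xg 2 u * xg 3 t = xg 3 t * xg 2 u * ((chevB2.commWord F 3 2 t u).map fun p => xg p.1 p.2).prod := by
  rw [ChevalleyDatum.commWord, ct_3_2]
  simp only [List.map_cons, List.map_nil, List.prod_cons, List.prod_nil]
  apply Units.ext
  simp only [Units.val_mul, xg_val, Units.val_one]
  ext i j
  fin_cases i <;> fin_cases j <;> simp [xm, Matrix.mul_apply, Fin.sum_univ_five] <;> ring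
theorem ct_3_5 : chevB2.commTerms 3 5 = [] := by decide
theorem rel_3_5 (t u : F) : xg 5 u * xg 3 t = xg 3 t * xg 5 u * ((chevB2.commWord F 3 5 t u).map fun p => xg p.1 p.2).prod := by
  rw [ChevalleyDatum.commWord, ct_3_5]
  simp only [List.map_cons, List.map_nil, List.prod_cons, List.prod_nil]
  apply Units.ext
  simp only [Units.val_mul, xg_val, Units.val_one]
  ext i j
  fin_cases i <;> fin_cases j <;> simp [xm, Matrix.mul_apply, Fin.sum_univ_five] <;> ring
theorem ct_3_6 : chevB2.commTerms 3 6 = [(5, 1, 1, 1), (7, 1, 1, 2)] := by decide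
theorem rel_3_6 (t u : F) : xg 6 u * xg 3 t = xg 3 t * xg 6 u * ((chevB2.commWord F 3 6 t u).map fun p => xg p.1 p.2).prod := by
  rw [ChevalleyDatum.commWord, ct_3_6]
  simp only [List.map_cons, List.map_nil, List.prod_cons, List.prod_nil]
  apply Units.ext
  simp only [Units.val_mul, xg_val, Units.val_one]
  ext i j
  fin_cases i <;> fin_cases j <;> simp [xm, Matrix.mul_apply, Fin.sum_univ_five] <;> ring
theorem ct_3_7 : chevB2.commTerms 3 7 = [] := by decide
theorem rel_3_7 (t u : F) : xg 7 u * xg 3 t = xg 3 t * xg 7 u * ((chevB2.commWord F 3 7 t u).map fun p => xg p.1 p.2).prod := by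
  rw [ChevalleyDatum.commWord, ct_3_7]
  simp only [List.map_cons, List.map_nil, List.prod_cons, List.prod_nil]
  apply Units.ext
  simp only [Units.val_mul, xg_val, Units.val_one]
  ext i j
  fin_cases i <;> fin_cases j <;> simp [xm, Matrix.mul_apply, Fin.sum_univ_five] <;> ring

end Cfsg.Agent.Helper64.B2
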