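-- helper64: Steinberg's commutator relations for the explicit root elements of O_5 (S1083); machine generated.
import Cfsg.Agent.Helper64.B2RelA
import Cfsg.Agent.Helper64.B2RelB
import Cfsg.Agent.Helper64.B2RelC
import Cfsg.Agent.Helper64.B2RelD

set_option autoImplicit false
open Matrix Cfsg Cfsg.Lie

namespace Cfsg.Agent.Helper64.B2

variable {F : Type*} [Field F]

theorem neg_eq : ∀ r < 8, chevB2.neg r = 7 - r := by decide

/-- Steinberg's commutator relations (R2) for the explicit root elements. -/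
theorem xg_comm_rel (r : ℕ) (hr : r < 8) (s : ℕ) (hs : s < 8) (h1 : s ≠ r) (h2 : s ≠ chevB2.neg r) (t u : F) :
    xg s u * xg r t = xg r t * xg s u * ((chevB2.commWord F r s t u).map fun p => xg p.1 p.2).prod := by
  rw [neg_eq r hr] at h2
  interval_cases r <;> interval_cases s
  · exact absurd rfl h1
  · exact rel_0_1 t u
  · exact rel_0_2 t u
  · exact rel_0_3 t u
  · exact rel_0_4 t u
  · exact rel_0_5 t u
  · exact rel_0_6 t u
  · exact absurd rfl h2
  · exact rel_1_0 t u
  · exact absurd rfl h1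
  · exact rel_1_2 t u
  · exact rel_1_3 t u
  · exact rel_1_4 t u
  · exact rel_1_5 t u
  · exact absurd rfl h2
  · exact rel_1_7 t u
  · exact rel_2_0 t u
  · exact rel_2_1 t u
  · exact absurd rfl h1
  · exact rel_2_3 t u
  · exact rel_2_4 t u
  · exact absurd rfl h2
  · exact rel_2_6 t u
  · exact rel_2_7 t u
  · exact rel_3_0 t u
  · exact rel_3_1 t u
  · exact rel_3_2 t u
  · exact absurd rfl h1
  · exact absurd rfl h2
  · exact rel_3_5 t u
  · exact rel_3_6 t u
  · exact rel_3_7 t u
  · exact rel_4_0 t u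
  · exact rel_4_1 t u
  · exact rel_4_2 t u
  · exact absurd rfl h2
  · exact absurd rfl h1
  · exact rel_4_5 t u
  · exact rel_4_6 t u
  · exact rel_4_7 t u
  · exact rel_5_0 t u
  · exact rel_5_1 t u
  · exact absurd rfl h2
  · exact rel_5_3 t u
  · exact rel_5_4 t u
  · exact absurd rfl h1
  · exact rel_5_6 t u
  · exact rel_5_7 t u
  · exact rel_6_0 t u
  · exact absurd rfl h2
  · exact rel_6_2 t u
  · exact rel_6_3 t u
  · exact rel_6_4 t u
  · exact rel_6_5 t u
  · exact absurd rfl h1
  · exact rel_6_7 t u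
  · exact absurd rfl h2
  · exact rel_7_1 t u
  · exact rel_7_2 t u
  · exact rel_7_3 t u
  · exact rel_7_4 t u
  · exact rel_7_5 t u
  · exact rel_7_6 t u
  · exact absurd rfl h1

end Cfsg.Agent.Helper64.B2
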