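-- helper64: the homomorphism from Steinberg's presented group of type B2 onto the explicit group G5 ≤ O5 (S1083).
import Cfsg.Agent.Helper64.B2Rel
import Cfsg.Agent.Helper39.B2H
import Cfsg.Prelude.Def_Steinberg

set_option autoImplicit false
open Matrix Cfsg Cfsg.Lie

namespace Cfsg.Agent.Helper64.B2

variable {F : Type*} [Field F]

/-- The homomorphism from the free group on the symbols `x̄_r(t)` to `GL_5(F)`. -/
noncomputable def b2Lift (F : Type*) [Field F] : FreeGroup (Fin chevB2.nroots × F) →* GL (Fin 5) F :=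
  FreeGroup.lift (fun p => xg p.1.val p.2)

theorem b2_nroots : chevB2.nroots = 8 := by decide

theorem b2Lift_stX (r : ℕ) (t : F) : b2Lift F (chevB2.stX r t) = xg r t := by
  unfold ChevalleyDatum.stX
  by_cases h : r < chevB2.nroots
  · rw [dif_pos h]
    unfold b2Lift
    rw [FreeGroup.lift_apply_of]
  · rw [dif_neg h, map_one]
    rw [b2_nroots] at h
    exact (xg_of_ge r (by omega) t).symm

theorem b2Lift_stWord (w : List (ℕ × F)) :
    b2Lift F (chevB2.stWord w) = (w.map fun p => xg p.1 p.2).prod := by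
  unfold ChevalleyDatum.stWord
  rw [map_list_prod, List.map_map]
  congr 1
  apply List.map_congr_left
  intro p _
  exact b2Lift_stX p.1 p.2

theorem b2Lift_stH (r : ℕ) (hr : r < 8) (t : F) : b2Lift F (chevB2.stH r t) = hx r t := by
  unfold ChevalleyDatum.stH
  rw [b2Lift_stWord]
  unfold ChevalleyDatum.hWord ChevalleyDatum.nWord hx
  rw [neg_eq r hr]
  simp only [List.map_cons, List.map_nil, List.cons_append, List.nil_append, List.prod_cons,
    List.prod_nil, mul_one, mul_assoc]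

theorem b2Lift_rel : ∀ g ∈ chevB2.steinbergRels F, b2Lift F g = 1 := by
  rintro g ((⟨r, t₁, t₂, hr, rfl⟩ | ⟨r, s, t, u, hr, hs, h1, h2, rfl⟩) | ⟨r, t₁, t₂, hr, ht₁, ht₂, rfl⟩)
  · rw [map_mul, map_mul, map_inv, b2Lift_stX, b2Lift_stX, b2Lift_stX, xg_add, mul_inv_cancel]
  · rw [map_mul, map_mul, map_mul, map_mul, map_inv, map_inv, map_inv, b2Lift_stX, b2Lift_stX,
      b2Lift_stWord]
    rw [b2_nroots] at hr hs
    have hcf := xg_comm_rel r hr s hs h1 h2 t u
    have h3 : ((chevB2.commWord F r s t u).map fun p => xg p.1 p.2).prod =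
        (xg s u)⁻¹ * (xg r t)⁻¹ * xg s u * xg r t := by
      have : (xg s u)⁻¹ * (xg r t)⁻¹ * (xg s u * xg r t) =
          ((chevB2.commWord F r s t u).map fun p => xg p.1 p.2).prod := by
        rw [hcf]; group
      rw [← this]; group
    rw [h3]; group
  · rw [b2_nroots] at hr
    rw [map_mul, map_mul, map_inv, b2Lift_stH r hr, b2Lift_stH r hr, b2Lift_stH r hr,
      Cfsg.Agent.Helper39.b2_hx_mul r hr t₁ t₂ ht₁ ht₂, mul_inv_cancel]

/-- The homomorphism `x̄_r(t) ↦ xg r t` from Steinberg's presented group of type `B₂` to `GL_5(F)`. -/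
noncomputable def b2Phi (F : Type*) [Field F] : chevB2.SteinbergGroup F →* GL (Fin 5) F :=
  PresentedGroup.toGroup (rels := chevB2.steinbergRels F)
    (f := fun p : Fin chevB2.nroots × F => xg p.1.val p.2) b2Lift_rel

theorem b2Phi_stGen (r : ℕ) (t : F) : b2Phi F (chevB2.stGen F r t) = xg r t := by
  unfold b2Phi ChevalleyDatum.stGen
  exact b2Lift_stX r t

theorem b2_stGen_closure :
    Subgroup.closure {g : chevB2.SteinbergGroup F | ∃ r < 8, ∃ t : F, g = chevB2.stGen F r t} = ⊤ := by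
  rw [eq_top_iff]
  intro a _
  apply PresentedGroup.generated_by
  rintro ⟨r, t⟩
  apply Subgroup.subset_closure
  refine ⟨r.val, lt_of_lt_of_eq r.isLt b2_nroots, t, ?_⟩
  unfold ChevalleyDatum.stGen ChevalleyDatum.stX
  rw [dif_pos r.isLt]
  rfl

theorem b2Phi_range : (b2Phi F).range = G5 F := by
  rw [MonoidHom.range_eq_map, ← b2_stGen_closure, MonoidHom.map_closure]
  unfold G5
  congr 1
  ext g
  constructor
  · rintro ⟨_, ⟨r, hr, t, rfl⟩, rfl⟩
    exact ⟨r, hr, t, b2Phi_stGen r t⟩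
  · rintro ⟨r, hr, t, rfl⟩
    exact ⟨_, ⟨r, hr, t, rfl⟩, b2Phi_stGen r t⟩

theorem b2Phi_nonabelian : ∃ a b : chevB2.SteinbergGroup F, b2Phi F a * b2Phi F b ≠ b2Phi F b * b2Phi F a := by
  refine ⟨chevB2.stGen F 0 1, chevB2.stGen F 7 1, ?_⟩
  rw [b2Phi_stGen, b2Phi_stGen]
  intro h
  have h2 := congrArg (fun g : GL (Fin 5) F => (g : Matrix (Fin 5) (Fin 5) F) *ᵥ ![0, 1, 0, 0, 0]) h
  simp only [Units.val_mul, xg_val, ← Matrix.mulVec_mulVec, xm_mulVec_0, xm_mulVec_7] at h2
  have h3 := congrFun h2 1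
  simp at h3

end Cfsg.Agent.Helper64.B2
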