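-- helper64: the diagonal elements normalise the root subgroups of O8+ (piece of CALL S1082, owner helper17); machine generated.
import Cfsg.Agent.Helper17.D4Defs

set_option autoImplicit false
set_option linter.unusedSimpArgs false
set_option linter.unnecessarySeqFocus false
set_option linter.unusedTactic false
set_option linter.unreachableTactic false
open Matrix Cfsg Cfsg.Lie

namespace Cfsg.Agent.Helper64
open Cfsg.Agent.Helper17.D4

variable {F : Type*} [Field F]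

theorem d4N_conj_0 (a b c d : Fˣ) (t : F) :
    dg a b c d * xg 0 t * (dg a b c d)⁻¹ = xg 0 (((a⁻¹ : Fˣ) : F) * ((b⁻¹ : Fˣ) : F) * t) := by
  apply Units.ext
  apply mat_ext_mulVec
  intro v
  rw [dg_inv]
  simp only [Units.val_mul, ← Matrix.mulVec_mulVec, dg_mulVec, xg_val, xm_mulVec_0]
  have ha : (a : F) ≠ 0 := a.ne_zero
  have hb : (b : F) ≠ 0 := b.ne_zero
  have hc : (c : F) ≠ 0 := c.ne_zero
  have hd : (d : F) ≠ 0 := d.ne_zero
  funext i
  fin_cases i <;> simp [Units.val_inv_eq_inv_val] <;> field_simp <;> ring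

theorem d4N_conj_1 (a b c d : Fˣ) (t : F) :
    dg a b c d * xg 1 t * (dg a b c d)⁻¹ = xg 1 (((a⁻¹ : Fˣ) : F) * ((c⁻¹ : Fˣ) : F) * t) := by
  apply Units.ext
  apply mat_ext_mulVec
  intro v
  rw [dg_inv]
  simp only [Units.val_mul, ← Matrix.mulVec_mulVec, dg_mulVec, xg_val, xm_mulVec_1]
  have ha : (a : F) ≠ 0 := a.ne_zero
  have hb : (b : F) ≠ 0 := b.ne_zero
  have hc : (c : F) ≠ 0 := c.ne_zero
  have hd : (d : F) ≠ 0 := d.ne_zero
  funext i
  fin_cases i <;> simp [Units.val_inv_eq_inv_val] <;> field_simp <;> ring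

theorem d4N_conj_2 (a b c d : Fˣ) (t : F) :
    dg a b c d * xg 2 t * (dg a b c d)⁻¹ = xg 2 ((d : F) * ((a⁻¹ : Fˣ) : F) * t) := by
  apply Units.ext
  apply mat_ext_mulVec
  intro v
  rw [dg_inv]
  simp only [Units.val_mul, ← Matrix.mulVec_mulVec, dg_mulVec, xg_val, xm_mulVec_2]
  have ha : (a : F) ≠ 0 := a.ne_zero
  have hb : (b : F) ≠ 0 := b.ne_zero
  have hc : (c : F) ≠ 0 := c.ne_zero
  have hd : (d : F) ≠ 0 := d.ne_zero
  funext i
  fin_cases i <;> simp [Units.val_inv_eq_inv_val] <;> field_simp <;> ring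

theorem d4N_conj_3 (a b c d : Fˣ) (t : F) :
    dg a b c d * xg 3 t * (dg a b c d)⁻¹ = xg 3 (((a⁻¹ : Fˣ) : F) * ((d⁻¹ : Fˣ) : F) * t) := by
  apply Units.ext
  apply mat_ext_mulVec
  intro v
  rw [dg_inv]
  simp only [Units.val_mul, ← Matrix.mulVec_mulVec, dg_mulVec, xg_val, xm_mulVec_3]
  have ha : (a : F) ≠ 0 := a.ne_zero
  have hb : (b : F) ≠ 0 := b.ne_zero
  have hc : (c : F) ≠ 0 := c.ne_zero
  have hd : (d : F) ≠ 0 := d.ne_zero
  funext i
  fin_cases i <;> simp [Units.val_inv_eq_inv_val] <;> field_simp <;> ring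

theorem d4N_conj_4 (a b c d : Fˣ) (t : F) :
    dg a b c d * xg 4 t * (dg a b c d)⁻¹ = xg 4 ((c : F) * ((a⁻¹ : Fˣ) : F) * t) := by
  apply Units.ext
  apply mat_ext_mulVec
  intro v
  rw [dg_inv]
  simp only [Units.val_mul, ← Matrix.mulVec_mulVec, dg_mulVec, xg_val, xm_mulVec_4]
  have ha : (a : F) ≠ 0 := a.ne_zero
  have hb : (b : F) ≠ 0 := b.ne_zero
  have hc : (c : F) ≠ 0 := c.ne_zero
  have hd : (d : F) ≠ 0 := d.ne_zero
  funext i
  fin_cases i <;> simp [Units.val_inv_eq_inv_val] <;> field_simp <;> ring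

theorem d4N_conj_5 (a b c d : Fˣ) (t : F) :
    dg a b c d * xg 5 t * (dg a b c d)⁻¹ = xg 5 ((b : F) * ((a⁻¹ : Fˣ) : F) * t) := by
  apply Units.ext
  apply mat_ext_mulVec
  intro v
  rw [dg_inv]
  simp only [Units.val_mul, ← Matrix.mulVec_mulVec, dg_mulVec, xg_val, xm_mulVec_5]
  have ha : (a : F) ≠ 0 := a.ne_zero
  have hb : (b : F) ≠ 0 := b.ne_zero
  have hc : (c : F) ≠ 0 := c.ne_zero
  have hd : (d : F) ≠ 0 := d.ne_zero
  funext i
  fin_cases i <;> simp [Units.val_inv_eq_inv_val] <;> field_simp <;> ring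

theorem d4N_conj_6 (a b c d : Fˣ) (t : F) :
    dg a b c d * xg 6 t * (dg a b c d)⁻¹ = xg 6 (((b⁻¹ : Fˣ) : F) * ((c⁻¹ : Fˣ) : F) * t) := by
  apply Units.ext
  apply mat_ext_mulVec
  intro v
  rw [dg_inv]
  simp only [Units.val_mul, ← Matrix.mulVec_mulVec, dg_mulVec, xg_val, xm_mulVec_6]
  have ha : (a : F) ≠ 0 := a.ne_zero
  have hb : (b : F) ≠ 0 := b.ne_zero
  have hc : (c : F) ≠ 0 := c.ne_zero
  have hd : (d : F) ≠ 0 := d.ne_zero
  funext i
  fin_cases i <;> simp [Units.val_inv_eq_inv_val] <;> field_simp <;> ring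

theorem d4N_conj_7 (a b c d : Fˣ) (t : F) :
    dg a b c d * xg 7 t * (dg a b c d)⁻¹ = xg 7 ((d : F) * ((b⁻¹ : Fˣ) : F) * t) := by
  apply Units.ext
  apply mat_ext_mulVec
  intro v
  rw [dg_inv]
  simp only [Units.val_mul, ← Matrix.mulVec_mulVec, dg_mulVec, xg_val, xm_mulVec_7]
  have ha : (a : F) ≠ 0 := a.ne_zero
  have hb : (b : F) ≠ 0 := b.ne_zero
  have hc : (c : F) ≠ 0 := c.ne_zero
  have hd : (d : F) ≠ 0 := d.ne_zero
  funext i
  fin_cases i <;> simp [Units.val_inv_eq_inv_val] <;> field_simp <;> ring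

theorem d4N_conj_8 (a b c d : Fˣ) (t : F) :
    dg a b c d * xg 8 t * (dg a b c d)⁻¹ = xg 8 (((b⁻¹ : Fˣ) : F) * ((d⁻¹ : Fˣ) : F) * t) := by
  apply Units.ext
  apply mat_ext_mulVec
  intro v
  rw [dg_inv]
  simp only [Units.val_mul, ← Matrix.mulVec_mulVec, dg_mulVec, xg_val, xm_mulVec_8]
  have ha : (a : F) ≠ 0 := a.ne_zero
  have hb : (b : F) ≠ 0 := b.ne_zero
  have hc : (c : F) ≠ 0 := c.ne_zero
  have hd : (d : F) ≠ 0 := d.ne_zero
  funext i
  fin_cases i <;> simp [Units.val_inv_eq_inv_val] <;> field_simp <;> ring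

theorem d4N_conj_9 (a b c d : Fˣ) (t : F) :
    dg a b c d * xg 9 t * (dg a b c d)⁻¹ = xg 9 ((c : F) * ((b⁻¹ : Fˣ) : F) * t) := by
  apply Units.ext
  apply mat_ext_mulVec
  intro v
  rw [dg_inv]
  simp only [Units.val_mul, ← Matrix.mulVec_mulVec, dg_mulVec, xg_val, xm_mulVec_9]
  have ha : (a : F) ≠ 0 := a.ne_zero
  have hb : (b : F) ≠ 0 := b.ne_zero
  have hc : (c : F) ≠ 0 := c.ne_zero
  have hd : (d : F) ≠ 0 := d.ne_zero
  funext i
  fin_cases i <;> simp [Units.val_inv_eq_inv_val] <;> field_simp <;> ring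

theorem d4N_conj_10 (a b c d : Fˣ) (t : F) :
    dg a b c d * xg 10 t * (dg a b c d)⁻¹ = xg 10 ((d : F) * ((c⁻¹ : Fˣ) : F) * t) := by
  apply Units.ext
  apply mat_ext_mulVec
  intro v
  rw [dg_inv]
  simp only [Units.val_mul, ← Matrix.mulVec_mulVec, dg_mulVec, xg_val, xm_mulVec_10]
  have ha : (a : F) ≠ 0 := a.ne_zero
  have hb : (b : F) ≠ 0 := b.ne_zero
  have hc : (c : F) ≠ 0 := c.ne_zero
  have hd : (d : F) ≠ 0 := d.ne_zero
  funext i
  fin_cases i <;> simp [Units.val_inv_eq_inv_val] <;> field_simp <;> ring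

theorem d4N_conj_11 (a b c d : Fˣ) (t : F) :
    dg a b c d * xg 11 t * (dg a b c d)⁻¹ = xg 11 (((c⁻¹ : Fˣ) : F) * ((d⁻¹ : Fˣ) : F) * t) := by
  apply Units.ext
  apply mat_ext_mulVec
  intro v
  rw [dg_inv]
  simp only [Units.val_mul, ← Matrix.mulVec_mulVec, dg_mulVec, xg_val, xm_mulVec_11]
  have ha : (a : F) ≠ 0 := a.ne_zero
  have hb : (b : F) ≠ 0 := b.ne_zero
  have hc : (c : F) ≠ 0 := c.ne_zero
  have hd : (d : F) ≠ 0 := d.ne_zero
  funext i
  fin_cases i <;> simp [Units.val_inv_eq_inv_val] <;> field_simp <;> ring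

theorem d4N_conj_12 (a b c d : Fˣ) (t : F) :
    dg a b c d * xg 12 t * (dg a b c d)⁻¹ = xg 12 ((c : F) * (d : F) * t) := by
  apply Units.ext
  apply mat_ext_mulVec
  intro v
  rw [dg_inv]
  simp only [Units.val_mul, ← Matrix.mulVec_mulVec, dg_mulVec, xg_val, xm_mulVec_12]
  have ha : (a : F) ≠ 0 := a.ne_zero
  have hb : (b : F) ≠ 0 := b.ne_zero
  have hc : (c : F) ≠ 0 := c.ne_zero
  have hd : (d : F) ≠ 0 := d.ne_zero
  funext i
  fin_cases i <;> simp [Units.val_inv_eq_inv_val] <;> field_simp <;> ring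

theorem d4N_conj_13 (a b c d : Fˣ) (t : F) :
    dg a b c d * xg 13 t * (dg a b c d)⁻¹ = xg 13 ((c : F) * ((d⁻¹ : Fˣ) : F) * t) := by
  apply Units.ext
  apply mat_ext_mulVec
  intro v
  rw [dg_inv]
  simp only [Units.val_mul, ← Matrix.mulVec_mulVec, dg_mulVec, xg_val, xm_mulVec_13]
  have ha : (a : F) ≠ 0 := a.ne_zero
  have hb : (b : F) ≠ 0 := b.ne_zero
  have hc : (c : F) ≠ 0 := c.ne_zero
  have hd : (d : F) ≠ 0 := d.ne_zero
  funext i
  fin_cases i <;> simp [Units.val_inv_eq_inv_val] <;> field_simp <;> ring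

theorem d4N_conj_14 (a b c d : Fˣ) (t : F) :
    dg a b c d * xg 14 t * (dg a b c d)⁻¹ = xg 14 ((b : F) * ((c⁻¹ : Fˣ) : F) * t) := by
  apply Units.ext
  apply mat_ext_mulVec
  intro v
  rw [dg_inv]
  simp only [Units.val_mul, ← Matrix.mulVec_mulVec, dg_mulVec, xg_val, xm_mulVec_14]
  have ha : (a : F) ≠ 0 := a.ne_zero
  have hb : (b : F) ≠ 0 := b.ne_zero
  have hc : (c : F) ≠ 0 := c.ne_zero
  have hd : (d : F) ≠ 0 := d.ne_zero
  funext i
  fin_cases i <;> simp [Units.val_inv_eq_inv_val] <;> field_simp <;> ring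

theorem d4N_conj_15 (a b c d : Fˣ) (t : F) :
    dg a b c d * xg 15 t * (dg a b c d)⁻¹ = xg 15 ((b : F) * (d : F) * t) := by
  apply Units.ext
  apply mat_ext_mulVec
  intro v
  rw [dg_inv]
  simp only [Units.val_mul, ← Matrix.mulVec_mulVec, dg_mulVec, xg_val, xm_mulVec_15]
  have ha : (a : F) ≠ 0 := a.ne_zero
  have hb : (b : F) ≠ 0 := b.ne_zero
  have hc : (c : F) ≠ 0 := c.ne_zero
  have hd : (d : F) ≠ 0 := d.ne_zero
  funext i
  fin_cases i <;> simp [Units.val_inv_eq_inv_val] <;> field_simp <;> ring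

theorem d4N_conj_16 (a b c d : Fˣ) (t : F) :
    dg a b c d * xg 16 t * (dg a b c d)⁻¹ = xg 16 ((b : F) * ((d⁻¹ : Fˣ) : F) * t) := by
  apply Units.ext
  apply mat_ext_mulVec
  intro v
  rw [dg_inv]
  simp only [Units.val_mul, ← Matrix.mulVec_mulVec, dg_mulVec, xg_val, xm_mulVec_16]
  have ha : (a : F) ≠ 0 := a.ne_zero
  have hb : (b : F) ≠ 0 := b.ne_zero
  have hc : (c : F) ≠ 0 := c.ne_zero
  have hd : (d : F) ≠ 0 := d.ne_zero
  funext i
  fin_cases i <;> simp [Units.val_inv_eq_inv_val] <;> field_simp <;> ring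

theorem d4N_conj_17 (a b c d : Fˣ) (t : F) :
    dg a b c d * xg 17 t * (dg a b c d)⁻¹ = xg 17 ((b : F) * (c : F) * t) := by
  apply Units.ext
  apply mat_ext_mulVec
  intro v
  rw [dg_inv]
  simp only [Units.val_mul, ← Matrix.mulVec_mulVec, dg_mulVec, xg_val, xm_mulVec_17]
  have ha : (a : F) ≠ 0 := a.ne_zero
  have hb : (b : F) ≠ 0 := b.ne_zero
  have hc : (c : F) ≠ 0 := c.ne_zero
  have hd : (d : F) ≠ 0 := d.ne_zero
  funext i
  fin_cases i <;> simp [Units.val_inv_eq_inv_val] <;> field_simp <;> ring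

theorem d4N_conj_18 (a b c d : Fˣ) (t : F) :
    dg a b c d * xg 18 t * (dg a b c d)⁻¹ = xg 18 ((a : F) * ((b⁻¹ : Fˣ) : F) * t) := by
  apply Units.ext
  apply mat_ext_mulVec
  intro v
  rw [dg_inv]
  simp only [Units.val_mul, ← Matrix.mulVec_mulVec, dg_mulVec, xg_val, xm_mulVec_18]
  have ha : (a : F) ≠ 0 := a.ne_zero
  have hb : (b : F) ≠ 0 := b.ne_zero
  have hc : (c : F) ≠ 0 := c.ne_zero
  have hd : (d : F) ≠ 0 := d.ne_zero
  funext i
  fin_cases i <;> simp [Units.val_inv_eq_inv_val] <;> field_simp <;> ring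

theorem d4N_conj_19 (a b c d : Fˣ) (t : F) :
    dg a b c d * xg 19 t * (dg a b c d)⁻¹ = xg 19 ((a : F) * ((c⁻¹ : Fˣ) : F) * t) := by
  apply Units.ext
  apply mat_ext_mulVec
  intro v
  rw [dg_inv]
  simp only [Units.val_mul, ← Matrix.mulVec_mulVec, dg_mulVec, xg_val, xm_mulVec_19]
  have ha : (a : F) ≠ 0 := a.ne_zero
  have hb : (b : F) ≠ 0 := b.ne_zero
  have hc : (c : F) ≠ 0 := c.ne_zero
  have hd : (d : F) ≠ 0 := d.ne_zero
  funext i
  fin_cases i <;> simp [Units.val_inv_eq_inv_val] <;> field_simp <;> ring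

theorem d4N_conj_20 (a b c d : Fˣ) (t : F) :
    dg a b c d * xg 20 t * (dg a b c d)⁻¹ = xg 20 ((a : F) * (d : F) * t) := by
  apply Units.ext
  apply mat_ext_mulVec
  intro v
  rw [dg_inv]
  simp only [Units.val_mul, ← Matrix.mulVec_mulVec, dg_mulVec, xg_val, xm_mulVec_20]
  have ha : (a : F) ≠ 0 := a.ne_zero
  have hb : (b : F) ≠ 0 := b.ne_zero
  have hc : (c : F) ≠ 0 := c.ne_zero
  have hd : (d : F) ≠ 0 := d.ne_zero
  funext i
  fin_cases i <;> simp [Units.val_inv_eq_inv_val] <;> field_simp <;> ring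

theorem d4N_conj_21 (a b c d : Fˣ) (t : F) :
    dg a b c d * xg 21 t * (dg a b c d)⁻¹ = xg 21 ((a : F) * ((d⁻¹ : Fˣ) : F) * t) := by
  apply Units.ext
  apply mat_ext_mulVec
  intro v
  rw [dg_inv]
  simp only [Units.val_mul, ← Matrix.mulVec_mulVec, dg_mulVec, xg_val, xm_mulVec_21]
  have ha : (a : F) ≠ 0 := a.ne_zero
  have hb : (b : F) ≠ 0 := b.ne_zero
  have hc : (c : F) ≠ 0 := c.ne_zero
  have hd : (d : F) ≠ 0 := d.ne_zero
  funext i
  fin_cases i <;> simp [Units.val_inv_eq_inv_val] <;> field_simp <;> ring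

theorem d4N_conj_22 (a b c d : Fˣ) (t : F) :
    dg a b c d * xg 22 t * (dg a b c d)⁻¹ = xg 22 ((a : F) * (c : F) * t) := by
  apply Units.ext
  apply mat_ext_mulVec
  intro v
  rw [dg_inv]
  simp only [Units.val_mul, ← Matrix.mulVec_mulVec, dg_mulVec, xg_val, xm_mulVec_22]
  have ha : (a : F) ≠ 0 := a.ne_zero
  have hb : (b : F) ≠ 0 := b.ne_zero
  have hc : (c : F) ≠ 0 := c.ne_zero
  have hd : (d : F) ≠ 0 := d.ne_zero
  funext i
  fin_cases i <;> simp [Units.val_inv_eq_inv_val] <;> field_simp <;> ring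

theorem d4N_conj_23 (a b c d : Fˣ) (t : F) :
    dg a b c d * xg 23 t * (dg a b c d)⁻¹ = xg 23 ((a : F) * (b : F) * t) := by
  apply Units.ext
  apply mat_ext_mulVec
  intro v
  rw [dg_inv]
  simp only [Units.val_mul, ← Matrix.mulVec_mulVec, dg_mulVec, xg_val, xm_mulVec_23]
  have ha : (a : F) ≠ 0 := a.ne_zero
  have hb : (b : F) ≠ 0 := b.ne_zero
  have hc : (c : F) ≠ 0 := c.ne_zero
  have hd : (d : F) ≠ 0 := d.ne_zero
  funext i
  fin_cases i <;> simp [Units.val_inv_eq_inv_val] <;> field_simp <;> ring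

/-- PIECE N of CALL S1082. -/
theorem d4_dg_conj (a b c d : Fˣ) (r : ℕ) (hr : r < 24) (t : F) :
    ∃ t' : F, dg a b c d * xg r t * (dg a b c d)⁻¹ = xg r t' := by
  interval_cases r
  · exact ⟨_, d4N_conj_0 a b c d t⟩
  · exact ⟨_, d4N_conj_1 a b c d t⟩
  · exact ⟨_, d4N_conj_2 a b c d t⟩
  · exact ⟨_, d4N_conj_3 a b c d t⟩
  · exact ⟨_, d4N_conj_4 a b c d t⟩
  · exact ⟨_, d4N_conj_5 a b c d t⟩
  · exact ⟨_, d4N_conj_6 a b c d t⟩
  · exact ⟨_, d4N_conj_7 a b c d t⟩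
  · exact ⟨_, d4N_conj_8 a b c d t⟩
  · exact ⟨_, d4N_conj_9 a b c d t⟩
  · exact ⟨_, d4N_conj_10 a b c d t⟩
  · exact ⟨_, d4N_conj_11 a b c d t⟩
  · exact ⟨_, d4N_conj_12 a b c d t⟩
  · exact ⟨_, d4N_conj_13 a b c d t⟩
  · exact ⟨_, d4N_conj_14 a b c d t⟩
  · exact ⟨_, d4N_conj_15 a b c d t⟩
  · exact ⟨_, d4N_conj_16 a b c d t⟩
  · exact ⟨_, d4N_conj_17 a b c d t⟩
  · exact ⟨_, d4N_conj_18 a b c d t⟩
  · exact ⟨_, d4N_conj_19 a b c d t⟩
  · exact ⟨_, d4N_conj_20 a b c d t⟩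
  · exact ⟨_, d4N_conj_21 a b c d t⟩
  · exact ⟨_, d4N_conj_22 a b c d t⟩
  · exact ⟨_, d4N_conj_23 a b c d t⟩

end Cfsg.Agent.Helper64
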