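-- helper64: the swap of e4 and f4 permutes the root subgroups of O8+ (piece of CALL S1082, owner helper17); machine generated.
import Cfsg.Agent.Helper17.D4Defs

set_option autoImplicit false
set_option linter.unusedSimpArgs false
set_option linter.unnecessarySeqFocus false
set_option linter.unusedTactic false
set_option linter.unreachableTactic false
open Matrix Cfsg Cfsg.Lie

namespace Cfsg.Agent.Helper64
open Cfsg.Agent.Helper17.D4

variable {F : Type*} [Field F]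

theorem d4S_conj_0 (t : F) : (sw : GL (Fin 8) F) * xg 0 t * sw⁻¹ = xg 0 t := by
  apply Units.ext
  apply mat_ext_mulVec
  intro v
  rw [sw_inv]
  simp only [Units.val_mul, ← Matrix.mulVec_mulVec, sw_mulVec, xg_val, xm_mulVec_0, xm_mulVec_0]
  funext i
  fin_cases i <;> simp <;> ring

theorem d4S_conj_1 (t : F) : (sw : GL (Fin 8) F) * xg 1 t * sw⁻¹ = xg 1 t := by
  apply Units.ext
  apply mat_ext_mulVec
  intro v
  rw [sw_inv]
  simp only [Units.val_mul, ← Matrix.mulVec_mulVec, sw_mulVec, xg_val, xm_mulVec_1, xm_mulVec_1]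
  funext i
  fin_cases i <;> simp <;> ring

theorem d4S_conj_2 (t : F) : (sw : GL (Fin 8) F) * xg 2 t * sw⁻¹ = xg 3 t := by
  apply Units.ext
  apply mat_ext_mulVec
  intro v
  rw [sw_inv]
  simp only [Units.val_mul, ← Matrix.mulVec_mulVec, sw_mulVec, xg_val, xm_mulVec_2, xm_mulVec_3]
  funext i
  fin_cases i <;> simp <;> ring

theorem d4S_conj_3 (t : F) : (sw : GL (Fin 8) F) * xg 3 t * sw⁻¹ = xg 2 t := by
  apply Units.ext
  apply mat_ext_mulVec
  intro v
  rw [sw_inv]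
  simp only [Units.val_mul, ← Matrix.mulVec_mulVec, sw_mulVec, xg_val, xm_mulVec_3, xm_mulVec_2]
  funext i
  fin_cases i <;> simp <;> ring

theorem d4S_conj_4 (t : F) : (sw : GL (Fin 8) F) * xg 4 t * sw⁻¹ = xg 4 t := by
  apply Units.ext
  apply mat_ext_mulVec
  intro v
  rw [sw_inv]
  simp only [Units.val_mul, ← Matrix.mulVec_mulVec, sw_mulVec, xg_val, xm_mulVec_4, xm_mulVec_4]
  funext i
  fin_cases i <;> simp <;> ring

theorem d4S_conj_5 (t : F) : (sw : GL (Fin 8) F) * xg 5 t * sw⁻¹ = xg 5 t := by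
  apply Units.ext
  apply mat_ext_mulVec
  intro v
  rw [sw_inv]
  simp only [Units.val_mul, ← Matrix.mulVec_mulVec, sw_mulVec, xg_val, xm_mulVec_5, xm_mulVec_5]
  funext i
  fin_cases i <;> simp <;> ring

theorem d4S_conj_6 (t : F) : (sw : GL (Fin 8) F) * xg 6 t * sw⁻¹ = xg 6 t := by
  apply Units.ext
  apply mat_ext_mulVec
  intro v
  rw [sw_inv]
  simp only [Units.val_mul, ← Matrix.mulVec_mulVec, sw_mulVec, xg_val, xm_mulVec_6, xm_mulVec_6]
  funext i
  fin_cases i <;> simp <;> ring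

theorem d4S_conj_7 (t : F) : (sw : GL (Fin 8) F) * xg 7 t * sw⁻¹ = xg 8 t := by
  apply Units.ext
  apply mat_ext_mulVec
  intro v
  rw [sw_inv]
  simp only [Units.val_mul, ← Matrix.mulVec_mulVec, sw_mulVec, xg_val, xm_mulVec_7, xm_mulVec_8]
  funext i
  fin_cases i <;> simp <;> ring

theorem d4S_conj_8 (t : F) : (sw : GL (Fin 8) F) * xg 8 t * sw⁻¹ = xg 7 t := by
  apply Units.ext
  apply mat_ext_mulVec
  intro v
  rw [sw_inv]
  simp only [Units.val_mul, ← Matrix.mulVec_mulVec, sw_mulVec, xg_val, xm_mulVec_8, xm_mulVec_7]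
  funext i
  fin_cases i <;> simp <;> ring

theorem d4S_conj_9 (t : F) : (sw : GL (Fin 8) F) * xg 9 t * sw⁻¹ = xg 9 t := by
  apply Units.ext
  apply mat_ext_mulVec
  intro v
  rw [sw_inv]
  simp only [Units.val_mul, ← Matrix.mulVec_mulVec, sw_mulVec, xg_val, xm_mulVec_9, xm_mulVec_9]
  funext i
  fin_cases i <;> simp <;> ring

theorem d4S_conj_10 (t : F) : (sw : GL (Fin 8) F) * xg 10 t * sw⁻¹ = xg 11 t := by
  apply Units.ext
  apply mat_ext_mulVec
  intro v
  rw [sw_inv]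
  simp only [Units.val_mul, ← Matrix.mulVec_mulVec, sw_mulVec, xg_val, xm_mulVec_10, xm_mulVec_11]
  funext i
  fin_cases i <;> simp <;> ring

theorem d4S_conj_11 (t : F) : (sw : GL (Fin 8) F) * xg 11 t * sw⁻¹ = xg 10 t := by
  apply Units.ext
  apply mat_ext_mulVec
  intro v
  rw [sw_inv]
  simp only [Units.val_mul, ← Matrix.mulVec_mulVec, sw_mulVec, xg_val, xm_mulVec_11, xm_mulVec_10]
  funext i
  fin_cases i <;> simp <;> ring

theorem d4S_conj_12 (t : F) : (sw : GL (Fin 8) F) * xg 12 t * sw⁻¹ = xg 13 t := by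
  apply Units.ext
  apply mat_ext_mulVec
  intro v
  rw [sw_inv]
  simp only [Units.val_mul, ← Matrix.mulVec_mulVec, sw_mulVec, xg_val, xm_mulVec_12, xm_mulVec_13]
  funext i
  fin_cases i <;> simp <;> ring

theorem d4S_conj_13 (t : F) : (sw : GL (Fin 8) F) * xg 13 t * sw⁻¹ = xg 12 t := by
  apply Units.ext
  apply mat_ext_mulVec
  intro v
  rw [sw_inv]
  simp only [Units.val_mul, ← Matrix.mulVec_mulVec, sw_mulVec, xg_val, xm_mulVec_13, xm_mulVec_12]
  funext i
  fin_cases i <;> simp <;> ring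

theorem d4S_conj_14 (t : F) : (sw : GL (Fin 8) F) * xg 14 t * sw⁻¹ = xg 14 t := by
  apply Units.ext
  apply mat_ext_mulVec
  intro v
  rw [sw_inv]
  simp only [Units.val_mul, ← Matrix.mulVec_mulVec, sw_mulVec, xg_val, xm_mulVec_14, xm_mulVec_14]
  funext i
  fin_cases i <;> simp <;> ring

theorem d4S_conj_15 (t : F) : (sw : GL (Fin 8) F) * xg 15 t * sw⁻¹ = xg 16 t := by
  apply Units.ext
  apply mat_ext_mulVec
  intro v
  rw [sw_inv]
  simp only [Units.val_mul, ← Matrix.mulVec_mulVec, sw_mulVec, xg_val, xm_mulVec_15, xm_mulVec_16]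
  funext i
  fin_cases i <;> simp <;> ring

theorem d4S_conj_16 (t : F) : (sw : GL (Fin 8) F) * xg 16 t * sw⁻¹ = xg 15 t := by
  apply Units.ext
  apply mat_ext_mulVec
  intro v
  rw [sw_inv]
  simp only [Units.val_mul, ← Matrix.mulVec_mulVec, sw_mulVec, xg_val, xm_mulVec_16, xm_mulVec_15]
  funext i
  fin_cases i <;> simp <;> ring

theorem d4S_conj_17 (t : F) : (sw : GL (Fin 8) F) * xg 17 t * sw⁻¹ = xg 17 t := by
  apply Units.ext
  apply mat_ext_mulVec
  intro v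
  rw [sw_inv]
  simp only [Units.val_mul, ← Matrix.mulVec_mulVec, sw_mulVec, xg_val, xm_mulVec_17, xm_mulVec_17]
  funext i
  fin_cases i <;> simp <;> ring

theorem d4S_conj_18 (t : F) : (sw : GL (Fin 8) F) * xg 18 t * sw⁻¹ = xg 18 t := by
  apply Units.ext
  apply mat_ext_mulVec
  intro v
  rw [sw_inv]
  simp only [Units.val_mul, ← Matrix.mulVec_mulVec, sw_mulVec, xg_val, xm_mulVec_18, xm_mulVec_18]
  funext i
  fin_cases i <;> simp <;> ring

theorem d4S_conj_19 (t : F) : (sw : GL (Fin 8) F) * xg 19 t * sw⁻¹ = xg 19 t := by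
  apply Units.ext
  apply mat_ext_mulVec
  intro v
  rw [sw_inv]
  simp only [Units.val_mul, ← Matrix.mulVec_mulVec, sw_mulVec, xg_val, xm_mulVec_19, xm_mulVec_19]
  funext i
  fin_cases i <;> simp <;> ring

theorem d4S_conj_20 (t : F) : (sw : GL (Fin 8) F) * xg 20 t * sw⁻¹ = xg 21 t := by
  apply Units.ext
  apply mat_ext_mulVec
  intro v
  rw [sw_inv]
  simp only [Units.val_mul, ← Matrix.mulVec_mulVec, sw_mulVec, xg_val, xm_mulVec_20, xm_mulVec_21]
  funext i
  fin_cases i <;> simp <;> ring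

theorem d4S_conj_21 (t : F) : (sw : GL (Fin 8) F) * xg 21 t * sw⁻¹ = xg 20 t := by
  apply Units.ext
  apply mat_ext_mulVec
  intro v
  rw [sw_inv]
  simp only [Units.val_mul, ← Matrix.mulVec_mulVec, sw_mulVec, xg_val, xm_mulVec_21, xm_mulVec_20]
  funext i
  fin_cases i <;> simp <;> ring

theorem d4S_conj_22 (t : F) : (sw : GL (Fin 8) F) * xg 22 t * sw⁻¹ = xg 22 t := by
  apply Units.ext
  apply mat_ext_mulVec
  intro v
  rw [sw_inv]
  simp only [Units.val_mul, ← Matrix.mulVec_mulVec, sw_mulVec, xg_val, xm_mulVec_22, xm_mulVec_22]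
  funext i
  fin_cases i <;> simp <;> ring

theorem d4S_conj_23 (t : F) : (sw : GL (Fin 8) F) * xg 23 t * sw⁻¹ = xg 23 t := by
  apply Units.ext
  apply mat_ext_mulVec
  intro v
  rw [sw_inv]
  simp only [Units.val_mul, ← Matrix.mulVec_mulVec, sw_mulVec, xg_val, xm_mulVec_23, xm_mulVec_23]
  funext i
  fin_cases i <;> simp <;> ring

/-- PIECE S of CALL S1082. -/
theorem d4_sw_conj (r : ℕ) (hr : r < 24) (t : F) :
    ∃ r' < 24, ∃ t' : F, (sw : GL (Fin 8) F) * xg r t * sw⁻¹ = xg r' t' := by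
  interval_cases r
  · exact ⟨0, by norm_num, _, d4S_conj_0 t⟩
  · exact ⟨1, by norm_num, _, d4S_conj_1 t⟩
  · exact ⟨3, by norm_num, _, d4S_conj_2 t⟩
  · exact ⟨2, by norm_num, _, d4S_conj_3 t⟩
  · exact ⟨4, by norm_num, _, d4S_conj_4 t⟩
  · exact ⟨5, by norm_num, _, d4S_conj_5 t⟩
  · exact ⟨6, by norm_num, _, d4S_conj_6 t⟩
  · exact ⟨8, by norm_num, _, d4S_conj_7 t⟩
  · exact ⟨7, by norm_num, _, d4S_conj_8 t⟩
  · exact ⟨9, by norm_num, _, d4S_conj_9 t⟩
  · exact ⟨11, by norm_num, _, d4S_conj_10 t⟩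
  · exact ⟨10, by norm_num, _, d4S_conj_11 t⟩
  · exact ⟨13, by norm_num, _, d4S_conj_12 t⟩
  · exact ⟨12, by norm_num, _, d4S_conj_13 t⟩
  · exact ⟨14, by norm_num, _, d4S_conj_14 t⟩
  · exact ⟨16, by norm_num, _, d4S_conj_15 t⟩
  · exact ⟨15, by norm_num, _, d4S_conj_16 t⟩
  · exact ⟨17, by norm_num, _, d4S_conj_17 t⟩
  · exact ⟨18, by norm_num, _, d4S_conj_18 t⟩
  · exact ⟨19, by norm_num, _, d4S_conj_19 t⟩
  · exact ⟨21, by norm_num, _, d4S_conj_20 t⟩
  · exact ⟨20, by norm_num, _, d4S_conj_21 t⟩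
  · exact ⟨22, by norm_num, _, d4S_conj_22 t⟩
  · exact ⟨23, by norm_num, _, d4S_conj_23 t⟩

end Cfsg.Agent.Helper64
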