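import Mathlib

set_option autoImplicit false

namespace Cfsg.Agent.Helper64

section FrobClasses

variable {G : Type*} [Group G]

theorem frobcls_card_comm (X : Type*) [Group X] [Finite X] :
    Nat.card (ConjClasses X) * Nat.card X = ∑ᶠ x : X, Nat.card {y : X // Commute x y} := by
  classical
  haveI := Fintype.ofFinite X
  rw [← card_comm_eq_card_conjClasses_mul_card,
    Nat.card_congr (Equiv.subtypeProdEquivSigmaSubtype (fun x y : X => Commute x y)),
    Nat.card_sigma, finsum_eq_sum_of_fintype]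

/-- Class number of a Frobenius group. -/
theorem frobcls_main [Finite G] (K H : Subgroup G) [hKn : K.Normal] (hKH : K ⊓ H = ⊥)
    (hKH' : K ⊔ H = ⊤) (hfpf : ∀ h ∈ H, h ≠ 1 → ∀ k ∈ K, h * k = k * h → k = 1) :
    Nat.card H * Nat.card (ConjClasses G) + 1 =
      Nat.card H * Nat.card (ConjClasses H) + Nat.card (ConjClasses K) := by
  classical
  haveI := Fintype.ofFinite G
  haveI := Fintype.ofFinite K
  haveI := Fintype.ofFinite H
  have cG := frobcls_card_comm G
  have cK := frobcls_card_comm K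
  have cH := frobcls_card_comm H
  rw [finsum_eq_sum_of_fintype] at cG cK cH
  have hdecomp : ∀ g : G, ∃ k ∈ K, ∃ h ∈ H, g = k * h := by
    intro g
    have hg : g ∈ K ⊔ H := hKH' ▸ Subgroup.mem_top g
    obtain ⟨k, hk, h, hh, rfl⟩ := Subgroup.mem_sup_of_normal_left.mp hg
    exact ⟨k, hk, h, hh, rfl⟩
  have hinter : ∀ x : G, x ∈ K → x ∈ H → x = 1 := by
    intro x hxK hxH
    have : x ∈ K ⊓ H := Subgroup.mem_inf.mpr ⟨hxK, hxH⟩
    rw [hKH] at this
    simpa using this
  have huniq : ∀ k ∈ K, ∀ h ∈ H, ∀ k' ∈ K, ∀ h' ∈ H, k * h = k' * h' → k = k' ∧ h = h' := by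
    intro k hk h hh k' hk' h' hh' heq
    have h1 : k'⁻¹ * k = h' * h⁻¹ := by
      calc k'⁻¹ * k = k'⁻¹ * (k * h) * h⁻¹ := by group
        _ = k'⁻¹ * (k' * h') * h⁻¹ := by rw [heq]
        _ = h' * h⁻¹ := by group
    have h2 : k'⁻¹ * k = 1 :=
      hinter _ (K.mul_mem (K.inv_mem hk') hk) (h1 ▸ H.mul_mem hh' (H.inv_mem hh))
    have h3 : h' * h⁻¹ = 1 := h1 ▸ h2
    exact ⟨(inv_mul_eq_one.mp h2).symm, (mul_inv_eq_one.mp h3).symm⟩
  let e : K × H ≃ G := Equiv.ofBijective (fun q => (q.1 : G) * (q.2 : G)) ⟨by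
    rintro ⟨k, h⟩ ⟨k', h'⟩ heq
    obtain ⟨h1, h2⟩ := huniq k k.2 h h.2 k' k'.2 h' h'.2 heq
    exact Prod.ext (Subtype.ext h1) (Subtype.ext h2), by
    intro g
    obtain ⟨k, hk, h, hh, rfl⟩ := hdecomp g
    exact ⟨(⟨k, hk⟩, ⟨h, hh⟩), rfl⟩⟩
  have hsum : ∑ x : G, Nat.card {y : G // Commute x y} =
      ∑ h : H, ∑ k : K, Nat.card {y : G // Commute ((k : G) * (h : G)) y} := by
    rw [← Equiv.sum_comp e, Fintype.sum_prod_type_right]
    rfl
  -- conjugating elements of `H \ 1` by `K`
  have hconjex : ∀ h ∈ H, h ≠ 1 → ∀ k ∈ K, ∃ u ∈ K, u * h * u⁻¹ = k * h := by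
    intro h hh hh1 k hk
    let φ : K → K := fun u => ⟨(u : G) * h * (u : G)⁻¹ * h⁻¹, by
      have h1 : (u : G) * h * (u : G)⁻¹ * h⁻¹ = u * (h * (u : G)⁻¹ * h⁻¹) := by group
      rw [h1]
      exact K.mul_mem u.2 (hKn.conj_mem _ (K.inv_mem u.2) h)⟩
    have hinj : Function.Injective φ := by
      intro u v huv
      have h1 : (u : G) * h * (u : G)⁻¹ * h⁻¹ = (v : G) * h * (v : G)⁻¹ * h⁻¹ :=
        congrArg Subtype.val huv
      have h2 : h * ((v : G)⁻¹ * u) = ((v : G)⁻¹ * u) * h := by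
        have h3 : (u : G) * h * (u : G)⁻¹ = (v : G) * h * (v : G)⁻¹ := by
          have := congrArg (· * h) h1
          simpa using this
        calc h * ((v : G)⁻¹ * u) = (v : G)⁻¹ * ((v : G) * h * (v : G)⁻¹) * u := by group
          _ = (v : G)⁻¹ * ((u : G) * h * (u : G)⁻¹) * u := by rw [h3]
          _ = ((v : G)⁻¹ * u) * h := by group
      have h4 := hfpf h hh hh1 _ (K.mul_mem (K.inv_mem v.2) u.2) h2
      exact Subtype.ext (inv_mul_eq_one.mp h4).symm
    obtain ⟨u, hu⟩ := Finite.surjective_of_injective hinj ⟨k, hk⟩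
    refine ⟨u, u.2, ?_⟩
    have h1 : (u : G) * h * (u : G)⁻¹ * h⁻¹ = k := congrArg Subtype.val hu
    rw [← h1]; group
  -- centralizers of elements of `K \ 1` lie in `K`
  have hCK : ∀ k ∈ K, k ≠ 1 → ∀ y : G, Commute k y → y ∈ K := by
    intro k hk hk1 y hy
    obtain ⟨k', hk', h', hh', rfl⟩ := hdecomp y
    by_cases hh1 : h' = 1
    · rw [hh1, mul_one]; exact hk'
    · exfalso
      obtain ⟨u, hu, hue⟩ := hconjex h' hh' hh1 k' hk'
      rw [← hue] at hy
      have h1 : h' * (u⁻¹ * k * u) = (u⁻¹ * k * u) * h' := by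
        have h2 : k * (u * h' * u⁻¹) = (u * h' * u⁻¹) * k := hy.eq
        calc h' * (u⁻¹ * k * u) = u⁻¹ * ((u * h' * u⁻¹) * k) * u := by group
          _ = u⁻¹ * (k * (u * h' * u⁻¹)) * u := by rw [h2]
          _ = (u⁻¹ * k * u) * h' := by group
      have h3 := hfpf h' hh' hh1 _ (by
        have := hKn.conj_mem k hk u⁻¹
        rwa [inv_inv] at this) h1
      apply hk1
      calc k = u * (u⁻¹ * k * u) * u⁻¹ := by group
        _ = 1 := by rw [h3]; group
  -- centralizers of elements of `H \ 1` lie in `H`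
  have hCH : ∀ h ∈ H, h ≠ 1 → ∀ y : G, Commute h y → y ∈ H := by
    intro h hh hh1 y hy
    obtain ⟨k', hk', h', hh', rfl⟩ := hdecomp y
    have h1 : (h * k' * h⁻¹) * (h * h') = k' * (h' * h) := by
      have h2 : h * (k' * h') = (k' * h') * h := hy.eq
      calc (h * k' * h⁻¹) * (h * h') = h * (k' * h') := by group
        _ = (k' * h') * h := h2
        _ = k' * (h' * h) := by group
    obtain ⟨h3, _⟩ := huniq _ (hKn.conj_mem k' hk' h) _ (H.mul_mem hh hh') _ hk' _
      (H.mul_mem hh' hh) h1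
    have h4 : h * k' = k' * h := by
      calc h * k' = (h * k' * h⁻¹) * h := by group
        _ = k' * h := by rw [h3]
    have h5 := hfpf h hh hh1 k' hk' h4
    rw [h5, one_mul]; exact hh'
  have hfK : ∀ k : K, k ≠ 1 → Nat.card {y : G // Commute (k : G) y} =
      Nat.card {y : K // Commute k y} := by
    intro k hk1
    have hk1' : (k : G) ≠ 1 := fun h => hk1 (Subtype.ext h)
    exact Nat.card_congr
      { toFun := fun y => ⟨⟨y.1, hCK k k.2 hk1' y.1 y.2⟩, Subtype.ext y.2.eq⟩
        invFun := fun y => ⟨y.1.1, congrArg Subtype.val y.2.eq⟩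
        left_inv := fun y => rfl
        right_inv := fun y => rfl }
  have hfH : ∀ h : H, h ≠ 1 → Nat.card {y : G // Commute (h : G) y} =
      Nat.card {y : H // Commute h y} := by
    intro h hh1
    have hh1' : (h : G) ≠ 1 := fun h' => hh1 (Subtype.ext h')
    exact Nat.card_congr
      { toFun := fun y => ⟨⟨y.1, hCH h h.2 hh1' y.1 y.2⟩, Subtype.ext y.2.eq⟩
        invFun := fun y => ⟨y.1.1, congrArg Subtype.val y.2.eq⟩
        left_inv := fun y => rfl
        right_inv := fun y => rfl }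
  have hterm : ∀ h : H, h ≠ 1 → ∀ k : K, Nat.card {y : G // Commute ((k : G) * (h : G)) y} =
      Nat.card {y : H // Commute h y} := by
    intro h hh1 k
    have hh1' : (h : G) ≠ 1 := fun h' => hh1 (Subtype.ext h')
    obtain ⟨u, _, hue⟩ := hconjex h h.2 hh1' k k.2
    rw [← hue, ← hfH h hh1]
    exact (Nat.card_congr ((MulAut.conj u).toEquiv.subtypeEquiv (fun y => by
      show Commute (h : G) y ↔ Commute (u * h * u⁻¹) (u * y * u⁻¹)
      exact (Commute.conj_iff u).symm))).symm
  have hF1 : ∑ k : K, Nat.card {y : G // Commute ((k : G) * ((1 : H) : G)) y} + Nat.card K =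
      Nat.card G + ∑ k : K, Nat.card {y : K // Commute k y} := by
    simp only [OneMemClass.coe_one, mul_one]
    rw [← Finset.add_sum_erase Finset.univ _ (Finset.mem_univ (1 : K)),
      ← Finset.add_sum_erase Finset.univ (fun k : K => Nat.card {y : K // Commute k y})
        (Finset.mem_univ (1 : K))]
    have h1 : Nat.card {y : G // Commute ((1 : K) : G) y} = Nat.card G :=
      Nat.card_congr (Equiv.subtypeUnivEquiv (fun y => by simp))
    have h2 : Nat.card {y : K // Commute (1 : K) y} = Nat.card K :=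
      Nat.card_congr (Equiv.subtypeUnivEquiv (fun y => by simp))
    have h3 : ∀ k ∈ Finset.univ.erase (1 : K), Nat.card {y : G // Commute (k : G) y} =
        Nat.card {y : K // Commute k y} := fun k hk => hfK k (Finset.ne_of_mem_erase hk)
    rw [Finset.sum_congr rfl h3, h1, h2]; ring
  have hFh : ∀ h ∈ Finset.univ.erase (1 : H),
      ∑ k : K, Nat.card {y : G // Commute ((k : G) * (h : G)) y} =
        Nat.card K * Nat.card {y : H // Commute h y} := by
    intro h hh
    rw [Finset.sum_congr rfl (fun k _ => hterm h (Finset.ne_of_mem_erase hh) k),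
      Finset.sum_const, Finset.card_univ, smul_eq_mul, Nat.card_eq_fintype_card (α := ↥K)]
  have hcardG : Nat.card G = Nat.card K * Nat.card H := by
    rw [← Nat.card_prod]; exact (Nat.card_congr e).symm
  have hH1 : Nat.card {y : H // Commute (1 : H) y} = Nat.card H :=
    Nat.card_congr (Equiv.subtypeUnivEquiv (fun y => by simp))
  rw [hsum, ← Finset.add_sum_erase Finset.univ _ (Finset.mem_univ (1 : H)),
    Finset.sum_congr rfl hFh, ← Finset.mul_sum] at cG
  rw [← Finset.add_sum_erase Finset.univ _ (Finset.mem_univ (1 : H)), hH1] at cH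
  have hKpos : 0 < Nat.card K := Nat.card_pos
  apply Nat.eq_of_mul_eq_mul_left hKpos
  have e1 : Nat.card K * (Nat.card H * Nat.card (ConjClasses G) + 1) =
      Nat.card (ConjClasses G) * Nat.card G + Nat.card K := by rw [hcardG]; ring
  have e2 : Nat.card K * (Nat.card H * Nat.card (ConjClasses H) + Nat.card (ConjClasses K)) =
      Nat.card K * (Nat.card (ConjClasses H) * Nat.card H) +
        Nat.card (ConjClasses K) * Nat.card K := by ring
  rw [e1, e2, cG, cH, cK]
  have e3 := hF1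
  rw [hcardG] at e3
  linarith [e3]

end FrobClasses

end Cfsg.Agent.Helper64
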