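import Mathlib
import Cfsg.Agent.Helper64.LW2Defs

/-!
# Livingstone–Wagner, base step: 2-homogeneous on at least 3 points implies transitive
-/

set_option autoImplicit false
set_option linter.unusedSectionVars false

namespace Cfsg.Agent.Helper64.LW2B46

open Cfsg.Agent.Lead.LW Cfsg.Agent.Helper64.LW2

variable {α : Type*} [Fintype α] [DecidableEq α]

theorem ktrans_one_of_homog_two (G : Subgroup (Equiv.Perm α)) (h3 : 3 ≤ Fintype.card α)
    (hG : Homog G 2) : KTrans G 1 := by
  intro x y
  have key : ∃ g ∈ G, g (x 0) = y 0 := by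
    by_cases hab : x 0 = y 0
    · exact ⟨1, G.one_mem, by simpa using hab⟩
    · obtain ⟨c, hc⟩ : ∃ c, c ∉ ({x 0, y 0} : Finset α) := by
        by_contra hcon
        have hall : ∀ c, c ∈ ({x 0, y 0} : Finset α) := by
          intro c
          by_contra h
          exact hcon ⟨c, h⟩
        have h1 : Fintype.card α ≤ ({x 0, y 0} : Finset α).card := by
          rw [← Finset.card_univ]
          exact Finset.card_le_card (fun c _ => hall c)
        have h2 : ({x 0, y 0} : Finset α).card ≤ 2 := Finset.card_le_two
        omega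
      simp only [Finset.mem_insert, Finset.mem_singleton, not_or] at hc
      obtain ⟨hc1, hc2⟩ := hc
      obtain ⟨g, hg, hgS⟩ := hG {x 0, c} {y 0, c}
        (Finset.card_pair (fun h => hc1 h.symm)) (Finset.card_pair (fun h => hc2 h.symm))
      have h1 := (hgS (x 0)).mpr (by simp)
      have h2 := (hgS c).mpr (by simp)
      simp only [Finset.mem_insert, Finset.mem_singleton] at h1 h2
      rcases h1 with h1 | h1
      · exact ⟨g, hg, h1⟩
      · rcases h2 with h2 | h2
        · exact ⟨g * g, G.mul_mem hg hg, by rw [Equiv.Perm.mul_apply, h1, h2]⟩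
        · exfalso
          exact hc1 (g.injective (h2.trans h1.symm))
  obtain ⟨g, hg, h⟩ := key
  exact ⟨g, hg, fun i => by rw [Fin.eq_zero i]; exact h⟩

end Cfsg.Agent.Helper64.LW2B46
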