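import Mathlib
import Cfsg.Agent.Helper64.LW2Defs
import Cfsg.Agent.Helper47.LW2H3
import Cfsg.Agent.Helper83.LW2H4a
import Cfsg.Agent.Helper83.LW2H4b
import Cfsg.Agent.Helper66.LW2H5a
import Cfsg.Agent.Helper47.LW2C1
import Cfsg.Agent.Helper55.LW2C2
import Cfsg.Agent.Helper55.LW2X1
import Cfsg.Agent.Helper47.LW2X2
import Cfsg.Agent.Helper66.LW2X3
import Cfsg.Agent.Helper80.LW2AR
import Cfsg.Agent.Helper88.LW2ALT
import Cfsg.Agent.Helper58.LWG1a
import Cfsg.Agent.Helper58.LWG1b
import Cfsg.Agent.Helper12.LWG3b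
import Cfsg.Agent.Helper58.LWT4
import Cfsg.Agent.Helper55.LWA11
import Cfsg.Agent.Helper55.LWA12
import Cfsg.Agent.Helper28.LWA1

set_option autoImplicit false
set_option linter.unusedSectionVars false

namespace Cfsg.Agent.Helper64.LW2Main

open Cfsg.Agent.Lead.LW Cfsg.Agent.Helper64.LW2

open Cfsg.Agent.Helper47.LW2H3
  Cfsg.Agent.Helper83.LW2H4a
  Cfsg.Agent.Helper83.LW2H4b
  Cfsg.Agent.Helper66.LW2H5a
  Cfsg.Agent.Helper47.LW2C1
  Cfsg.Agent.Helper55.LW2C2
  Cfsg.Agent.Helper55.LW2X1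
  Cfsg.Agent.Helper47.LW2X2
  Cfsg.Agent.Helper66.LW2X3
  Cfsg.Agent.Helper80.LW2AR
  Cfsg.Agent.Helper88.LW2ALT

variable {α : Type*} [Fintype α] [DecidableEq α]

/-- The parity lemma: the pointwise stabiliser of an `m`-set has odd order. -/
theorem odd_card_pstab (G : Subgroup (Equiv.Perm α)) (m : ℕ) (hT : KTrans G m)
    (hnT : ¬ KTrans G (m + 1)) (hH1 : Homog G (m + 1))
    (hbot : ∀ A : Finset α, A.card = m + 1 → pstab G A = ⊥)
    (Γ : Finset α) (hΓ : Γ.card = m) : Odd (Nat.card (pstab G Γ)) := by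
  by_contra hodd
  rw [Nat.not_odd_iff_even] at hodd
  have heven : ∀ Γ' : Finset α, Γ'.card = m → Even (Nat.card (pstab G Γ')) := by
    intro Γ' hΓ'
    rw [Cfsg.Agent.Helper12.LWG3b.card_pstab_eq G m hT Γ' Γ hΓ' hΓ]
    exact hodd
  apply hnT
  apply ktrans_of_induced_top G (m + 1) hH1
  intro A hA
  apply induced_top_of_swaps
  intro p hp q hq hpq
  have hq' : q ∈ A.erase p := Finset.mem_erase.mpr ⟨hpq.symm, hq⟩
  have hcard : ((A.erase p).erase q).card + 1 = m := by
    rw [Finset.card_erase_of_mem hq', Finset.card_erase_of_mem hp, hA]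
    have : 1 ≤ (A.erase p).card := Finset.card_pos.mpr ⟨q, hq'⟩
    rw [Finset.card_erase_of_mem hp, hA] at this
    omega
  obtain ⟨g, hg, h1, h2, h3⟩ := swap_of_even G m hbot heven ((A.erase p).erase q) hcard
    p q (by simp) (by simp) hpq
  exact ⟨g, hg, h1, h2, fun c hc hcp hcq => h3 c (by simp [hc, hcp, hcq])⟩

theorem card_perm_coe (A : Finset α) : Nat.card (Equiv.Perm ↥A) = A.card.factorial := by
  rw [Nat.card_eq_fintype_card, Fintype.card_perm, Fintype.card_coe]

theorem index_mul_card_induced (G : Subgroup (Equiv.Perm α)) (A : Finset α) :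
    (induced G A).index * Nat.card (induced G A) = A.card.factorial := by
  rw [mul_comm, Subgroup.card_mul_index, card_perm_coe]

/-- The numerical data of a counterexample configuration. -/
theorem num_data (G : Subgroup (Equiv.Perm α)) (m : ℕ) (hmn : m + 2 ≤ Fintype.card α)
    (hT : KTrans G m) (hnT : ¬ KTrans G (m + 1)) (hH1 : Homog G (m + 1))
    (hH2 : Homog G (m + 2)) :
    ∃ r s : ℕ, 2 ≤ r ∧ Odd s ∧ r * s + m = Fintype.card α ∧ r ∣ (m + 1).factorial ∧
      r * (r * s - 1) ∣ (m + 2).factorial ∧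
      Nat.card G = (Fintype.card α).descFactorial m * s ∧
      (∀ Γ : Finset α, Γ.card = m → Nat.card (pstab G Γ) = s) ∧
      (∀ A : Finset α, A.card = m + 1 → pstab G A = ⊥) ∧
      (∀ A : Finset α, A.card = m + 1 → (induced G A).index = r) ∧
      (s ≤ m + 1 → r * s ∣ (m + 1).factorial) := by
  classical
  set n := Fintype.card α with hn
  have hbot : ∀ A : Finset α, A.card = m + 1 → pstab G A = ⊥ :=
    fun A hA => pstab_eq_bot_of_not_ktrans G m hmn hnT hH1 hH2 A hA
  obtain ⟨Δ, -, hΔ⟩ := Finset.exists_subset_card_eq (s := (Finset.univ : Finset α))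
    (n := m + 2) (by rw [Finset.card_univ]; exact hmn)
  obtain ⟨A₀, hA₀Δ, hA₀⟩ := Finset.exists_subset_card_eq (s := Δ) (n := m + 1) (by omega)
  obtain ⟨Γ, hΓA, hΓ⟩ := Finset.exists_subset_card_eq (s := A₀) (n := m) (by omega)
  set s := Nat.card (pstab G Γ) with hs
  have hspos : 0 < s := Nat.card_pos
  have hsall : ∀ Γ' : Finset α, Γ'.card = m → Nat.card (pstab G Γ') = s := fun Γ' hΓ' =>
    Cfsg.Agent.Helper12.LWG3b.card_pstab_eq G m hT Γ' Γ hΓ' hΓ
  have hodd : Odd s := odd_card_pstab G m hT hnT hH1 hbot Γ hΓ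
  have hG1 : Nat.card G = n.descFactorial m * s := card_eq_descFactorial G m hT Γ hΓ
  have hdpos : 0 < n.descFactorial m := by
    apply Nat.pos_of_ne_zero
    rw [Ne, Nat.descFactorial_eq_zero_iff_lt]
    omega
  -- the index relation on `(m+1)`-sets
  have hidx : ∀ A : Finset α, A.card = m + 1 → (induced G A).index * s = n - m := by
    intro A hA
    have h1 := card_eq_choose_mul G (m + 1) hH1 A hA (hbot A hA)
    have h2 := index_mul_card_induced G A
    rw [hA] at h2
    have h3 : (induced G A).index * Nat.card G = (n - m) * n.descFactorial m := by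
      rw [h1, ← Nat.descFactorial_succ, Nat.descFactorial_eq_factorial_mul_choose, ← h2]
      ring
    rw [hG1] at h3
    have h4 : n.descFactorial m * ((induced G A).index * s) = n.descFactorial m * (n - m) := by
      linarith
    exact Nat.eq_of_mul_eq_mul_left hdpos h4
  set r := (induced G A₀).index with hr
  have hrs : r * s = n - m := hidx A₀ hA₀
  have hidx' : ∀ A : Finset α, A.card = m + 1 → (induced G A).index = r := by
    intro A hA
    have h1 := hidx A hA
    rw [← hrs] at h1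
    exact Nat.eq_of_mul_eq_mul_right hspos h1
  have hr2 : 2 ≤ r := by
    by_contra hlt
    have hr0 : r ≠ 0 := by
      intro h0
      rw [h0, zero_mul] at hrs
      omega
    have hr1 : r = 1 := by omega
    apply hnT
    apply ktrans_of_induced_top G (m + 1) hH1
    intro A hA
    rw [← Subgroup.index_eq_one, hidx' A hA, hr1]
  have hrdvd : r ∣ (m + 1).factorial := by
    have h2 := index_mul_card_induced G A₀
    rw [hA₀] at h2
    exact Dvd.intro _ h2
  -- `(m+2)`-sets
  have hbotΔ : pstab G Δ = ⊥ := by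
    rw [eq_bot_iff]
    intro g hg
    have h1 : g ∈ pstab G A₀ := ⟨hg.1, fun a ha => hg.2 a (hA₀Δ ha)⟩
    rw [hbot A₀ hA₀] at h1
    exact h1
  have hR : (induced G Δ).index = r * (r * s - 1) := by
    have h1 := card_eq_choose_mul G (m + 2) hH2 Δ hΔ hbotΔ
    have h2 := index_mul_card_induced G Δ
    rw [hΔ] at h2
    have h3 : (induced G Δ).index * Nat.card G = (n - (m + 1)) * ((n - m) * n.descFactorial m) := by
      rw [h1, ← Nat.descFactorial_succ, ← Nat.descFactorial_succ,
        Nat.descFactorial_eq_factorial_mul_choose, ← h2]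
      ring
    rw [hG1, ← hrs] at h3
    have h5 : n - (m + 1) = r * s - 1 := by omega
    rw [h5] at h3
    have h4 : (n.descFactorial m * s) * (induced G Δ).index
        = (n.descFactorial m * s) * (r * (r * s - 1)) := by
      linarith
    exact Nat.eq_of_mul_eq_mul_left (Nat.mul_pos hdpos hspos) h4
  have hRdvd : r * (r * s - 1) ∣ (m + 2).factorial := by
    have h2 := index_mul_card_induced G Δ
    rw [hΔ, hR] at h2
    exact Dvd.intro _ h2
  refine ⟨r, s, hr2, hodd, by omega, hrdvd, hRdvd, hG1, hsall, hbot, hidx', ?_⟩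
  intro hsle
  obtain ⟨A, hA, hdvd⟩ := card_pstab_dvd_induced G m hbot Γ hΓ (by omega) hsle
  have h2 := index_mul_card_induced G A
  rw [hA, hidx' A hA] at h2
  rw [← h2]
  exact Nat.mul_dvd_mul_left r hdvd

/-- The case `m ≥ 4`. -/
theorem case_ge_four (G : Subgroup (Equiv.Perm α)) (m : ℕ) (hm : 4 ≤ m) (hT : KTrans G m)
    (r s : ℕ) (hr : 2 ≤ r) (hs : Odd s) (hn : r * s + m = Fintype.card α)
    (h1 : r ∣ (m + 1).factorial)
    (hsΓ : ∀ Γ : Finset α, Γ.card = m → Nat.card (pstab G Γ) = s)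
    (hidx : ∀ A : Finset α, A.card = m + 1 → (induced G A).index = r) : r = 2 ∧ s = 1 := by
  classical
  obtain ⟨A, -, hA⟩ := Finset.exists_subset_card_eq (s := (Finset.univ : Finset α))
    (n := m + 1) (by
      rw [Finset.card_univ, ← hn]
      have : 2 ≤ r * s := by
        obtain ⟨t, ht⟩ := hs
        rw [ht]
        nlinarith
      omega)
  obtain ⟨Γ, hΓA, hΓ⟩ := Finset.exists_subset_card_eq (s := A) (n := m) (by omega)
  have hodd : Odd (Nat.card (pstab G Γ)) := by rw [hsΓ Γ hΓ]; exact hs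
  rcases Cfsg.Agent.Helper58.LWT4.card_of_odd G m hm hT Γ hΓ hodd with h | ⟨h7, hb⟩
  · -- `r * s ≤ 3`
    have hs1 : s = 1 := by
      obtain ⟨t, ht⟩ := hs
      have : r * s ≤ 3 := by omega
      rw [ht] at this ⊢
      have ht0 : t = 0 := by
        by_contra h0
        have : 1 ≤ t := by omega
        nlinarith
      omega
    rw [hs1, mul_one] at hn
    refine ⟨?_, hs1⟩
    by_contra hr2
    have hr3 : r = 3 := by omega
    have hcardA : Fintype.card ↥A = m + 1 := by rw [Fintype.card_coe, hA]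
    have halt := Cfsg.Agent.Helper28.LWA1.alt_le_of_index_lt (induced G A)
      (by rw [hcardA]; omega) (by rw [hidx A hA, hcardA]; omega)
    have hdvd := Subgroup.index_dvd_of_le halt
    haveI : Nontrivial ↥A := by
      rw [← Fintype.one_lt_card_iff_nontrivial, hcardA]
      omega
    rw [hidx A hA, alternatingGroup.index_eq_two, hr3] at hdvd
    omega
  · have hs1 : s = 1 := by
      rw [← hsΓ Γ hΓ, hb]
      exact Subgroup.card_bot
    have hsharp := Cfsg.Agent.Helper55.LWA11.pstab_eq_bot_all G m hT Γ hΓ hb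
    have h45 := Cfsg.Agent.Helper55.LWA12.sharp_seven_le_five G m hm h7 hT hsharp
    rw [hs1, mul_one] at hn
    have hr7 : r = 7 := by omega
    exfalso
    rcases h45 with h4 | h5
    · rw [hr7, h4] at h1
      revert h1
      decide
    · rw [hr7, h5] at h1
      revert h1
      decide

/-- Main theorem behind S0745, elementwise form. -/
theorem main745 (G : Subgroup (Equiv.Perm α)) (m : ℕ) (hm : 1 ≤ m)
    (hmn : m + 2 ≤ Fintype.card α)
    (hT : KTrans G m) (hnT : ¬ KTrans G (m + 1)) (hH1 : Homog G (m + 1))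
    (hH2 : Homog G (m + 2)) :
    (m + 2 = Fintype.card α ∧ G = alternatingGroup α) ∨
      (Fintype.card α = 5 ∧ m = 2 ∧ Nat.card G = 20) ∨
      (Fintype.card α = 6 ∧ m = 3 ∧ Nat.card G = 120) ∨
      (Fintype.card α = 9 ∧ m = 3 ∧ (Nat.card G = 504 ∨ Nat.card G = 1512)) := by
  obtain ⟨r, s, hr, hs, hn, h1, h2, hG, hsΓ, hbot, hidx, hx1⟩ :=
    num_data G m hmn hT hnT hH1 hH2
  have hcases : (r = 2 ∧ s = 1) ∨ (m = 2 ∧ r = 3 ∧ s = 1) ∨ (m = 3 ∧ r = 3 ∧ s = 1) ∨
      (m = 3 ∧ r = 6 ∧ s = 1) ∨ (m = 3 ∧ r = 2 ∧ s = 3) := by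
    by_cases hm4 : 4 ≤ m
    · exact Or.inl (case_ge_four G m hm4 hT r s hr hs hn h1 hsΓ hidx)
    · apply lw_arith m (Fintype.card α) r s hm (by omega) hr hs hn h1 h2 hx1
      · rintro ⟨h3, h7, hs1⟩
        subst h3
        apply no_sharp3_seven G h7 hT
        intro Γ hΓ
        apply Subgroup.eq_bot_of_card_eq
        rw [hsΓ Γ hΓ, hs1]
      · rintro ⟨h3, h24, hs7⟩
        subst h3
        apply no_seven_twentyfour G h24 hT
        · intro Γ hΓ
          rw [hsΓ Γ hΓ, hs7]
        · exact hbot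
  rcases hcases with ⟨hr2, hs1⟩ | ⟨hm2, hr3, hs1⟩ | ⟨hm3, hr3, hs1⟩ | ⟨hm3, hr6, hs1⟩ |
      ⟨hm3, hr2, hs3⟩
  · left
    rw [hr2, hs1] at hn
    refine ⟨by omega, ?_⟩
    apply eq_alternating_of_card
    rw [hG, hs1, mul_one]
    have h3 := Nat.factorial_mul_descFactorial (show m ≤ Fintype.card α by omega)
    have h4 : Fintype.card α - m = 2 := by omega
    rw [h4] at h3
    exact h3
  · right; left
    subst hm2
    rw [hr3, hs1] at hn
    have hn5 : Fintype.card α = 5 := by omega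
    refine ⟨hn5, rfl, ?_⟩
    rw [hG, hs1, hn5]
    decide
  · right; right; left
    subst hm3
    rw [hr3, hs1] at hn
    have hn6 : Fintype.card α = 6 := by omega
    refine ⟨hn6, rfl, ?_⟩
    rw [hG, hs1, hn6]
    decide
  · right; right; right
    subst hm3
    rw [hr6, hs1] at hn
    have hn9 : Fintype.card α = 9 := by omega
    refine ⟨hn9, rfl, Or.inl ?_⟩
    rw [hG, hs1, hn9]
    decide
  · right; right; right
    subst hm3
    rw [hr2, hs3] at hn
    have hn9 : Fintype.card α = 9 := by omega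
    refine ⟨hn9, rfl, Or.inr ?_⟩
    rw [hG, hs3, hn9]
    decide

end Cfsg.Agent.Helper64.LW2Main
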