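import Cfsg.Agent.Helper64.MRDefs
import Cfsg.Agent.Helper36.G2Triv

/-!
# CALL MR (helper64), pieces KER1, KER2: the kernel of `Δ → D.group K` inside the torus
-/

set_option autoImplicit false

namespace Cfsg.Agent.Helper64.MRKer

open Cfsg Cfsg.Lie Cfsg.Agent.Helper36 Cfsg.Agent.Helper17 Cfsg.Agent.Helper64.MR

/-- PIECE KER1: the kernel of `Δ → D.group K` consists of elements `∏_i h_i(ζ ^ c_i)`. -/
theorem ker_le_Z {D : ChevalleyDatum}
    (hD' : D ∈ [chevG2, chevB2, chevD4, chevF4, chevE6, chevE7, chevE8])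
    {K : Type*} [Field K] [Finite K] {m i₀ : ℕ} {c : ℕ → ℤ}
    (hlat : ∀ t : ℕ → Kˣ, (∀ j < D.rank,
        ∏ i ∈ Finset.range D.rank, t i ^ D.pairing (D.simple i) (D.simple j) = 1) →
      (∀ k < D.rank, t k = t i₀ ^ c k) ∧ t i₀ ^ m = 1)
    (z : D.SteinbergCover K) (hz : scThetaG D hD' z = 1) :
    ∃ ζ : Kˣ, ζ ^ m = 1 ∧ z = hProd D (D.scGen K) (List.range D.rank) (fun i => ζ ^ c i) := by
  have h1 : scTheta (K := K) D hD' z = 1 := congrArg Subtype.val hz
  obtain ⟨f₀, g, C⟩ := sCtx_of_mem (F := K) hD'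
  have S := sRel_cover D (scTheta (K := K) D hD') (fun r t _ => scTheta_val D hD' r t)
  have hm := scHMul (K := K) D hD'
  obtain ⟨t, rfl⟩ := C.HS_eq_hProd S hm z (C.ker_le S z h1).1
  have hR : ∀ j ∈ List.range D.rank, j < D.rank := fun j hj => List.mem_range.mp hj
  have h2 := S.map_hProd C.R.xadd (hDiag_of_mem hD') C.R.wf.simple_lt t (List.range D.rank) hR
  rw [h1, Units.val_one] at h2
  have h3 : ∀ j < D.rank,
      ∏ i ∈ Finset.range D.rank, t i ^ D.pairing (D.simple i) (D.simple j) = 1 := by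
    intro j hj
    have h4 := congrFun (congrFun h2 (Sum.inr ⟨D.simple j, C.R.wf.simple_lt j hj⟩))
      (Sum.inr ⟨D.simple j, C.R.wf.simple_lt j hj⟩)
    rw [Matrix.one_apply_eq, Matrix.diagonal_apply_eq, Sum.elim_inr] at h4
    rw [← list_prod_range_eq]
    exact Units.ext h4.symm
  obtain ⟨h5, h6⟩ := hlat t h3
  exact ⟨t i₀, h6, hProd_congr (fun i hi => h5 i (hR i hi))⟩

/-- PIECE KER2: the elements `∏_i h_i(ζ ^ c_i)`, `ζ ^ m = 1`, are in the kernel. -/
theorem Z_mem_ker {D : ChevalleyDatum}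
    (hD' : D ∈ [chevG2, chevB2, chevD4, chevF4, chevE6, chevE7, chevE8])
    {K : Type*} [Field K] {m : ℕ} {c : ℕ → ℤ}
    (hroot : ∀ s < D.nroots,
      (m : ℤ) ∣ ((List.range D.rank).map fun i => c i * D.pairing (D.simple i) s).sum)
    (ζ : Kˣ) (hζ : ζ ^ m = 1) :
    scThetaG D hD' (hProd D (D.scGen K) (List.range D.rank) (fun i => ζ ^ c i)) = 1 := by
  obtain ⟨f₀, g, C⟩ := sCtx_of_mem (F := K) hD'
  have S := sRel_cover D (scTheta (K := K) D hD') (fun r t _ => scTheta_val D hD' r t)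
  have hR : ∀ j ∈ List.range D.rank, j < D.rank := fun j hj => List.mem_range.mp hj
  have h2 := S.map_hProd C.R.xadd (hDiag_of_mem hD') C.R.wf.simple_lt (fun i => ζ ^ c i)
    (List.range D.rank) hR
  have h4 : ∀ (s : ℕ) (L : List ℕ),
      (L.map fun i => (ζ ^ c i) ^ D.pairing (D.simple i) s).prod =
        ζ ^ (L.map fun i => c i * D.pairing (D.simple i) s).sum := by
    intro s L
    induction L with
    | nil => simp
    | cons i L ih =>
      rw [List.map_cons, List.prod_cons, ih, List.map_cons, List.sum_cons, zpow_add, zpow_mul]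
  apply Subtype.ext
  apply Units.ext
  show ((scTheta (K := K) D hD' (hProd D (D.scGen K) (List.range D.rank) (fun i => ζ ^ c i)) :
    GL D.Idx K) : Matrix D.Idx D.Idx K) = 1
  rw [h2, ← Matrix.diagonal_one]
  congr 1
  funext b
  rcases b with j | s
  · rfl
  · rw [Sum.elim_inr, h4]
    obtain ⟨k, hk⟩ := hroot s.val s.isLt
    rw [hk, zpow_mul, zpow_natCast, hζ, one_zpow]
    rfl

end Cfsg.Agent.Helper64.MRKer
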