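import Cfsg.Agent.Helper64.MRDefs

/-!
# CALL MR (helper64), piece LAT: solutions of the torus equations
-/

set_option autoImplicit false

namespace Cfsg.Agent.Helper64.MRLat

open Cfsg Cfsg.Lie Cfsg.Agent.Helper36 Cfsg.Agent.Helper64.MR

/-- PIECE LAT: solutions of the torus equations. -/
theorem lat_solve {G : Type*} [CommGroup G] {D : ChevalleyDatum} {m i₀ : ℕ} {c : ℕ → ℤ}
    (L : LatCert D m i₀ c) (t : ℕ → G)
    (h : ∀ j < D.rank,
      ∏ i ∈ Finset.range D.rank, t i ^ D.pairing (D.simple i) (D.simple j) = 1) :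
    (∀ k < D.rank, t k = t i₀ ^ c k) ∧ t i₀ ^ m = 1 := by
  have key : ∀ w : ℕ → ℤ, ∏ i ∈ Finset.range D.rank,
      t i ^ (∑ j ∈ Finset.range D.rank, D.pairing (D.simple i) (D.simple j) * w j) = 1 := by
    intro w
    have h2 : ∀ i ∈ Finset.range D.rank,
        t i ^ (∑ j ∈ Finset.range D.rank, D.pairing (D.simple i) (D.simple j) * w j) =
          ∏ j ∈ Finset.range D.rank, (t i ^ D.pairing (D.simple i) (D.simple j)) ^ w j := by
      intro i _
      rw [zpow_range_sum]
      apply Finset.prod_congr rfl
      intro j _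
      rw [zpow_mul]
    rw [Finset.prod_congr rfl h2, Finset.prod_comm]
    apply Finset.prod_eq_one
    intro j hj
    rw [Finset.prod_zpow, h j (Finset.mem_range.mp hj), one_zpow]
  obtain ⟨M, hM⟩ := L.mat
  obtain ⟨v, hv⟩ := L.vec
  have hi₀ : i₀ ∈ Finset.range D.rank := Finset.mem_range.mpr L.hi₀
  constructor
  · intro k hk
    have hk' : k ∈ Finset.range D.rank := Finset.mem_range.mpr hk
    have h1 := key (fun j => M j k)
    have h4 : ∀ i ∈ Finset.range D.rank,
        t i ^ (∑ j ∈ Finset.range D.rank, D.pairing (D.simple i) (D.simple j) * M j k) =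
          (if i = k then t k else 1) * (if i = i₀ then (t i₀ ^ c k)⁻¹ else 1) := by
      intro i hi
      rw [← list_sum_range_eq, hM i (Finset.mem_range.mp hi) k hk, zpow_sub]
      by_cases h5 : i = k
      · subst h5
        by_cases h6 : i = i₀
        · subst h6
          simp
        · simp [h6]
      · by_cases h6 : i = i₀
        · subst h6
          simp [h5]
        · simp [h5, h6]
    rw [Finset.prod_congr rfl h4, Finset.prod_mul_distrib, Finset.prod_ite_eq' , Finset.prod_ite_eq',
      if_pos hk', if_pos hi₀] at h1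
    exact mul_inv_eq_one.mp h1
  · have h1 := key v
    have h4 : ∀ i ∈ Finset.range D.rank,
        t i ^ (∑ j ∈ Finset.range D.rank, D.pairing (D.simple i) (D.simple j) * v j) =
          if i = i₀ then t i₀ ^ m else 1 := by
      intro i hi
      rw [← list_sum_range_eq, hv i (Finset.mem_range.mp hi)]
      by_cases h6 : i = i₀
      · rw [if_pos h6, if_pos h6, zpow_natCast, h6]
      · rw [if_neg h6, if_neg h6, zpow_zero]
    rw [Finset.prod_congr rfl h4, Finset.prod_ite_eq', if_pos hi₀] at h1
    exact h1

end Cfsg.Agent.Helper64.MRLat
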