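import Cfsg.Agent.Helper64.SX7Cover

/-!
# CALL MR (helper64), piece LIFT: homomorphisms out of the group presented by (R1), (R2)
-/

set_option autoImplicit false

namespace Cfsg.Agent.Helper64.MRLift

open Cfsg Cfsg.Lie Cfsg.Agent.Helper36 Cfsg.Agent.Helper64.UC Cfsg.Agent.Helper64.UC2

/-- PIECE LIFT: homomorphisms out of the presented group. -/
theorem cover_hom (D : ChevalleyDatum) {K : Type*} [Field K] {E : Type*} [Group E] (y : ℕ → K → E)
    (hy1 : ∀ r, ¬ r < D.nroots → ∀ t : K, y r t = 1)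
    (hadd : ∀ r < D.nroots, ∀ t u : K, y r t * y r u = y r (t + u))
    (hcomm : ∀ r < D.nroots, ∀ s < D.nroots, s ≠ r → s ≠ D.neg r → ∀ t u : K,
      y s u * y r t = y r t * y s u * sW y (D.commWord K r s t u)) :
    ∃ ρ : D.SteinbergCover K →* E, ∀ (r : ℕ) (t : K), ρ (D.scGen K r t) = y r t := by
  have hrel : ∀ w ∈ D.steinbergRelsAB K,
      FreeGroup.lift (fun p : Fin D.nroots × K => y p.1.val p.2) w = 1 := by
    rintro w (⟨r, t₁, t₂, hr, rfl⟩ | ⟨r, s, t, u, hr, hs, h1, h2, rfl⟩)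
    · rw [map_mul, map_mul, map_inv, SX7.lift_stX2 D y hy1, SX7.lift_stX2 D y hy1,
        SX7.lift_stX2 D y hy1, hadd r hr, mul_inv_cancel]
    · rw [map_mul, map_mul, map_mul, map_mul, map_inv, map_inv, map_inv, SX7.lift_stX2 D y hy1,
        SX7.lift_stX2 D y hy1, SX7.lift_stWord2 D y hy1]
      have h3 := hcomm r hr s hs h1 h2 t u
      have e : (y s u)⁻¹ * (y r t)⁻¹ * y s u * y r t * (sW y (D.commWord K r s t u))⁻¹ =
          (y s u)⁻¹ * (y r t)⁻¹ * (y s u * y r t) * (sW y (D.commWord K r s t u))⁻¹ := by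
        group
      rw [e, h3]
      group
  refine ⟨PresentedGroup.toGroup hrel, ?_⟩
  intro r t
  by_cases hr : r < D.nroots
  · have e1 : D.scGen K r t = PresentedGroup.of (⟨r, hr⟩, t) := by
      unfold ChevalleyDatum.scGen ChevalleyDatum.stX
      rw [dif_pos hr]
      rfl
    rw [e1, PresentedGroup.toGroup.of]
  · rw [scGen_of_not_lt D hr, map_one, hy1 r hr]

end Cfsg.Agent.Helper64.MRLift
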