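import Cfsg.Agent.Helper64.SX7Cover

/-!
# CALL MR (helper64), piece PERF: the group presented by (R1), (R2) is perfect (`Cert2`)
-/

set_option autoImplicit false

namespace Cfsg.Agent.Helper64.MRPerf

open Cfsg Cfsg.Lie Cfsg.Agent.Helper36 Cfsg.Agent.Helper64.UC Cfsg.Agent.Helper64.UC2

open scoped commutatorElement

/-- PIECE PERF: the presented group is perfect. -/
theorem cover_perfect (D : ChevalleyDatum) {K : Type*} [Field K] (R : RSys D (D.scGen K))
    (C : Cert2 D) : commutator (D.SteinbergCover K) = ⊤ := by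
  rw [eq_top_iff, ← scGen_closure D, Subgroup.closure_le]
  rintro y ⟨r, hr, t, rfl⟩
  obtain ⟨a, b, C', hT, -, -, -⟩ := C.dec r hr
  have h1 := SX7.rs_rel1 R hT (-((C' : K) * t)) 1
  have h2 : (C' : K) * (- -((C' : K) * t)) * 1 = t := by
    rw [neg_neg, mul_one, ← mul_assoc, SX7.c_sq hT.2.2.1, one_mul]
  rw [h2] at h1
  have h3 : SX7.cm (D.scGen K b 1) (D.scGen K a (-((C' : K) * t))) =
      ⁅(D.scGen K b 1)⁻¹, (D.scGen K a (-((C' : K) * t)))⁻¹⁆ := by
    unfold SX7.cm
    rw [commutatorElement_def]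
    group
  rw [← h1, h3]
  exact Subgroup.commutator_mem_commutator (Subgroup.mem_top _) (Subgroup.mem_top _)

end Cfsg.Agent.Helper64.MRPerf
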