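import Cfsg.Agent.Helper64.SX7Main
import Cfsg.Agent.Helper36.UCGSys

/-!
# CALL S2107 (helper64): every central extension of the group presented by (R1), (R2) splits, for
a datum with a certificate `Cert2` (over every field)
-/

set_option autoImplicit false

namespace Cfsg.Agent.Helper64.SX7

open Cfsg Cfsg.Lie Cfsg.Agent.Helper36 Cfsg.Agent.Helper64.UC Cfsg.Agent.Helper64.UC2

section

variable {K : Type*} [Field K] {E : Type*} [Group E]

/-- The group presented by (R1), (R2) has the relations, and injective root maps. -/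
theorem cover_rsys (D : ChevalleyDatum)
    (hD : D ∈ [chevG2, chevB2, chevD4, chevF4, chevE6, chevE7, chevE8]) :
    RSys D (D.scGen K) := by
  obtain ⟨f₀, g, C⟩ := sCtx_of_mem (F := K) hD
  have S := sRel_cover D (scTheta (K := K) D hD) (fun r t _ => scTheta_val D hD r t)
  refine ⟨S.add, S.comm, ?_⟩
  intro r hr t ht
  have hX := C.R.xadd
  have h1 : xGL hX r t = xGL hX r 0 := by
    rw [← S.map_x hX, ← S.map_x hX, ht, S.zero]
  exact C.xGL_inj hr h1

theorem lift_stX2 (D : ChevalleyDatum) (y : ℕ → K → E)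
    (hy1 : ∀ r, ¬ r < D.nroots → ∀ t : K, y r t = 1) (r : ℕ) (t : K) :
    FreeGroup.lift (fun p : Fin D.nroots × K => y p.1.val p.2) (D.stX r t) = y r t := by
  unfold ChevalleyDatum.stX
  split_ifs with h
  · rw [FreeGroup.lift_apply_of]
  · rw [map_one, hy1 r h]

theorem lift_stWord2 (D : ChevalleyDatum) (y : ℕ → K → E)
    (hy1 : ∀ r, ¬ r < D.nroots → ∀ t : K, y r t = 1) (w : List (ℕ × K)) :
    FreeGroup.lift (fun p : Fin D.nroots × K => y p.1.val p.2) (D.stWord w) = sW y w := by
  unfold ChevalleyDatum.stWord sW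
  rw [map_list_prod, List.map_map]
  congr 1
  apply List.map_congr_left
  intro p _
  exact lift_stX2 D y hy1 p.1 p.2

/-- Every central extension of the group presented by (R1), (R2) splits. -/
theorem cover_section2 (D : ChevalleyDatum) (R : RSys D (D.scGen K)) (C : Cert2 D)
    (ψ : E →* D.SteinbergCover K) (hψ : Function.Surjective ψ)
    (hc : ψ.ker ≤ Subgroup.center E) :
    ∃ s : D.SteinbergCover K →* E, ψ.comp s = MonoidHom.id _ := by
  obtain ⟨y, hy1, hmap, hadd, hgood⟩ := exists_rel2 R C ψ hψ hc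
  have hrel : ∀ w ∈ D.steinbergRelsAB K,
      FreeGroup.lift (fun p : Fin D.nroots × K => y p.1.val p.2) w = 1 := by
    rintro w (⟨r, t₁, t₂, hr, rfl⟩ | ⟨r, s, t, u, hr, hs, h1, h2, rfl⟩)
    · rw [map_mul, map_mul, map_inv, lift_stX2 D y hy1, lift_stX2 D y hy1, lift_stX2 D y hy1,
        hadd, mul_inv_cancel]
    · rw [map_mul, map_mul, map_mul, map_mul, map_inv, map_inv, map_inv, lift_stX2 D y hy1,
        lift_stX2 D y hy1, lift_stWord2 D y hy1]
      have h3 := hgood r s ⟨hr, hs, h1, h2⟩ t u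
      have e : (y s u)⁻¹ * (y r t)⁻¹ * y s u * y r t * (sW y (D.commWord K r s t u))⁻¹ =
          (y s u)⁻¹ * (y r t)⁻¹ * (y s u * y r t) * (sW y (D.commWord K r s t u))⁻¹ := by
        group
      rw [e, h3]
      group
  refine ⟨PresentedGroup.toGroup hrel, ?_⟩
  apply PresentedGroup.ext
  intro p
  rw [MonoidHom.comp_apply, PresentedGroup.toGroup.of, MonoidHom.id_apply, hmap p.1.val p.1.isLt]
  unfold ChevalleyDatum.scGen ChevalleyDatum.stX
  rw [dif_pos p.1.isLt]
  rfl

/-- Every homomorphism of the presented group lifts along every central extension. -/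
theorem cover_lift2 (D : ChevalleyDatum) (R : RSys D (D.scGen K)) (C : Cert2 D)
    {G₁ : Type*} [Group G₁] (π₁ : E →* G₁)
    (hπ : Function.Surjective π₁) (hc : π₁.ker ≤ Subgroup.center E)
    (σ : D.SteinbergCover K →* G₁) : ∃ τ : D.SteinbergCover K →* E, π₁.comp τ = σ := by
  let P : Subgroup (E × D.SteinbergCover K) :=
    (π₁.comp (MonoidHom.fst E (D.SteinbergCover K))).eqLocus
      (σ.comp (MonoidHom.snd E (D.SteinbergCover K)))
  let ψ : P →* D.SteinbergCover K := (MonoidHom.snd E (D.SteinbergCover K)).comp P.subtype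
  have hP : ∀ p : P, π₁ p.1.1 = σ p.1.2 := fun p => p.2
  have hψ : Function.Surjective ψ := by
    intro g
    obtain ⟨e, he⟩ := hπ (σ g)
    exact ⟨⟨(e, g), he⟩, rfl⟩
  have hcψ : ψ.ker ≤ Subgroup.center P := by
    intro p hp
    rw [MonoidHom.mem_ker] at hp
    have hp2 : p.1.2 = 1 := hp
    have hp1 : p.1.1 ∈ Subgroup.center E := by
      apply hc
      rw [MonoidHom.mem_ker, hP p, hp2, map_one]
    rw [Subgroup.mem_center_iff]
    intro q
    apply Subtype.ext
    apply Prod.ext
    · exact Subgroup.mem_center_iff.mp hp1 q.1.1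
    · change q.1.2 * p.1.2 = p.1.2 * q.1.2
      rw [hp2, mul_one, one_mul]
  obtain ⟨s, hs⟩ := cover_section2 D R C ψ hψ hcψ
  have hs' : ∀ g, (s g).1.2 = g := fun g => DFunLike.congr_fun hs g
  refine ⟨((MonoidHom.fst E (D.SteinbergCover K)).comp P.subtype).comp s, ?_⟩
  apply MonoidHom.ext
  intro g
  change π₁ (s g).1.1 = σ g
  rw [hP (s g), hs' g]

end

end Cfsg.Agent.Helper64.SX7
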