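import Cfsg.Agent.Helper64.MRDefs
import Cfsg.Agent.Helper64.SX7Cover
import Cfsg.Agent.Helper36.G2Triv
import Cfsg.Agent.S3958
import Cfsg.Agent.Helper11.MRNT
import Cfsg.Agent.Helper11.MROPSQ
import Cfsg.Agent.Helper11.MRSL2A
import Cfsg.Agent.Helper11.MRSL2B
import Cfsg.Agent.Helper11.MRTOPV
import Cfsg.Agent.Helper11.MRYADD
import Cfsg.Agent.Helper49.MRYCOMM
import Cfsg.Agent.Helper57.MREVP
import Cfsg.Agent.Helper57.MROPC0
import Cfsg.Agent.Helper57.MROPC1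
import Cfsg.Agent.Helper64.MRKer
import Cfsg.Agent.Helper64.MRLat
import Cfsg.Agent.Helper64.MRLift
import Cfsg.Agent.Helper64.MRPerf

/-!
# CALL MR (helper64): Schur multipliers of `E₆(q)`, `E₇(q)` -- assembly

The group `Δ` presented by (R1), (R2) is the universal central extension (`Cert2`), and the kernel of
`Δ → D.group K` is `{∏_i h_i(ζ ^ c_i) : ζ ^ m = 1}`, of order `gcd (m, q - 1)`: at most by the
Cartan lattice (`LatCert`), at least by the minuscule representation (`SRep`) of `Δ`.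
-/

set_option autoImplicit false

namespace Cfsg.Agent.Helper64.MR

open Cfsg Cfsg.Lie Cfsg.Agent.Helper36 Cfsg.Agent.Helper64.UC Cfsg.Agent.Helper64.UC2

universe u

/-! ## Generic pieces -/

/-- PIECE LIFT: homomorphisms out of the presented group. -/
theorem cover_hom (D : ChevalleyDatum) {K : Type*} [Field K] {E : Type*} [Group E] (y : ℕ → K → E)
    (hy1 : ∀ r, ¬ r < D.nroots → ∀ t : K, y r t = 1)
    (hadd : ∀ r < D.nroots, ∀ t u : K, y r t * y r u = y r (t + u))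
    (hcomm : ∀ r < D.nroots, ∀ s < D.nroots, s ≠ r → s ≠ D.neg r → ∀ t u : K,
      y s u * y r t = y r t * y s u * sW y (D.commWord K r s t u)) :
    ∃ ρ : D.SteinbergCover K →* E, ∀ (r : ℕ) (t : K), ρ (D.scGen K r t) = y r t := by
  exact Cfsg.Agent.Helper64.MRLift.cover_hom D y hy1 hadd hcomm

/-- PIECE OPSQ: `e_r² = 0`. -/
theorem op_sq {R : SRep} {D : ChevalleyDatum} (h : R.Ok D) (K : Type*) [Field K] {r : ℕ}
    (hr : r < D.nroots) : R.op K r * R.op K r = 0 := by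
  exact Cfsg.Agent.Helper11.MROPSQ.op_sq h K hr

/-- PIECE OPC0: `e_r e_s = e_s e_r` when the commutator formula of `(r, s)` is empty. -/
theorem op_c0 {R : SRep} {D : ChevalleyDatum} (h : R.Ok D) (K : Type*) [Field K] {r s : ℕ}
    (hr : r < D.nroots) (hs : s < D.nroots) (h1 : s ≠ r) (h2 : s ≠ D.neg r)
    (hc : D.commTerms r s = []) : R.op K r * R.op K s = R.op K s * R.op K r := by
  exact Cfsg.Agent.Helper57.MROPC0.op_c0 h K hr hs h1 h2 hc

/-- PIECE OPC1: `[e_r, e_s] = C e_k`, `e_r e_k = 0`, `e_s e_k = 0` when the commutator formula of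
`(r, s)` is the single term `(k, C, 1, 1)`. -/
theorem op_c1 {R : SRep} {D : ChevalleyDatum} (h : R.Ok D) (K : Type*) [Field K] {r s : ℕ}
    (hr : r < D.nroots) (hs : s < D.nroots) (h1 : s ≠ r) (h2 : s ≠ D.neg r) {k : ℕ} {C : ℤ}
    (hc : D.commTerms r s = [(k, C, 1, 1)]) :
    R.op K r * R.op K s - R.op K s * R.op K r = (C : K) • R.op K k ∧
      R.op K r * R.op K k = 0 ∧ R.op K s * R.op K k = 0 := by
  exact Cfsg.Agent.Helper57.MROPC1.op_c1 h K hr hs h1 h2 hc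

/-- PIECE YADD: relation (R1) for the units `1 + t e_r`. -/
theorem y_add {R : SRep} {D : ChevalleyDatum} (K : Type*) [Field K]
    (hsq : ∀ r < D.nroots, R.op K r * R.op K r = 0) :
    ∀ r < D.nroots, ∀ t u : K, R.y D K r t * R.y D K r u = R.y D K r (t + u) := by
  exact Cfsg.Agent.Helper11.MRYADD.y_add K hsq

/-- PIECE YCOMM: relation (R2) for the units `1 + t e_r`. -/
theorem y_comm {R : SRep} {D : ChevalleyDatum} (C2 : Cert2 D) (K : Type*) [Field K]
    (hsq : ∀ r < D.nroots, R.op K r * R.op K r = 0)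
    (hc0 : ∀ r < D.nroots, ∀ s < D.nroots, s ≠ r → s ≠ D.neg r → D.commTerms r s = [] →
      R.op K r * R.op K s = R.op K s * R.op K r)
    (hc1 : ∀ r < D.nroots, ∀ s < D.nroots, s ≠ r → s ≠ D.neg r → ∀ (k : ℕ) (C : ℤ),
      D.commTerms r s = [(k, C, 1, 1)] →
      R.op K r * R.op K s - R.op K s * R.op K r = (C : K) • R.op K k ∧
        R.op K r * R.op K k = 0 ∧ R.op K s * R.op K k = 0) :
    ∀ r < D.nroots, ∀ s < D.nroots, s ≠ r → s ≠ D.neg r → ∀ t u : K,
      R.y D K s u * R.y D K r t =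
        R.y D K r t * R.y D K s u * sW (R.y D K) (D.commWord K r s t u) := by
  exact Cfsg.Agent.Helper49.MRYCOMM.y_comm C2 K hsq hc0 hc1

/-- PIECE TOPV: the highest weight vector `v₀ = e_{μ₀}` and `v₁ = e_{μ₁}`. -/
theorem top_vec {R : SRep} {D : ChevalleyDatum} {i₀ μ₀ μ₁ : ℕ} (hT : R.Top D i₀ μ₀ μ₁)
    (K : Type*) [Field K] :
    (∀ i < D.rank, R.op K (D.simple i) (Pi.single μ₀ (1 : K)) = 0) ∧
    (∀ i < D.rank, i ≠ i₀ → R.op K (D.neg (D.simple i)) (Pi.single μ₀ (1 : K)) = 0) ∧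
    R.op K (D.neg (D.simple i₀)) (Pi.single μ₀ (1 : K)) = Pi.single μ₁ (1 : K) ∧
    R.op K (D.simple i₀) (Pi.single μ₁ (1 : K)) = Pi.single μ₀ (1 : K) ∧
    R.op K (D.neg (D.simple i₀)) (Pi.single μ₁ (1 : K)) = 0 := by
  exact Cfsg.Agent.Helper11.MRTOPV.top_vec hT K

/-- PIECE SL2A: `h(t) = n(t) n(-1)`, `n(t) = x(t) x'(-t⁻¹) x(t)`, multiplies the highest weight
vector by `t`. -/
theorem sl2_top {K : Type*} [Field K] {V : Type*} [AddCommGroup V] [Module K V]
    (e f : Module.End K V) (xe xf : K → (Module.End K V)ˣ)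
    (hxe : ∀ t, ((xe t : (Module.End K V)ˣ) : Module.End K V) = 1 + t • e)
    (hxf : ∀ t, ((xf t : (Module.End K V)ˣ) : Module.End K V) = 1 + t • f)
    (v₀ v₁ : V) (h1 : e v₀ = 0) (h2 : f v₀ = v₁) (h3 : e v₁ = v₀) (h4 : f v₁ = 0) (t : K)
    (ht : t ≠ 0) :
    ((xe t * xf (-t⁻¹) * xe t * (xe (-1) * xf (-(-1)⁻¹) * xe (-1)) : (Module.End K V)ˣ) :
      Module.End K V) v₀ = t • v₀ := by
  exact Cfsg.Agent.Helper11.MRSL2A.sl2_top e f xe xf hxe hxf v₀ v₁ h1 h2 h3 h4 t ht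

/-- PIECE SL2B: the same element fixes a vector killed by `e` and `f`. -/
theorem sl2_fix {K : Type*} [Field K] {V : Type*} [AddCommGroup V] [Module K V]
    (e f : Module.End K V) (xe xf : K → (Module.End K V)ˣ)
    (hxe : ∀ t, ((xe t : (Module.End K V)ˣ) : Module.End K V) = 1 + t • e)
    (hxf : ∀ t, ((xf t : (Module.End K V)ˣ) : Module.End K V) = 1 + t • f)
    (v₀ : V) (h1 : e v₀ = 0) (h2 : f v₀ = 0) (t : K) :
    ((xe t * xf (-t⁻¹) * xe t * (xe (-1) * xf (-(-1)⁻¹) * xe (-1)) : (Module.End K V)ˣ) :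
      Module.End K V) v₀ = v₀ := by
  exact Cfsg.Agent.Helper11.MRSL2B.sl2_fix e f xe xf hxe hxf v₀ h1 h2 t

/-- PIECE EVP: the product `∏_i h_i(t_i)` acts on `v` by the scalar `t_{i₀}`. -/
theorem rho_hprod {D : ChevalleyDatum} {K : Type*} [Field K] {V : Type*} [AddCommGroup V]
    [Module K V] (ρ : D.SteinbergCover K →* (Module.End K V)ˣ) (v : V) (i₀ : ℕ)
    (hi₀ : i₀ < D.rank)
    (h : ∀ i < D.rank, ∀ t : K, t ≠ 0 →
      ((ρ (hS D (D.scGen K) (D.simple i) t) : (Module.End K V)ˣ) : Module.End K V) v =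
        (if i = i₀ then t else 1) • v)
    (t : ℕ → Kˣ) :
    ((ρ (hProd D (D.scGen K) (List.range D.rank) t) : (Module.End K V)ˣ) : Module.End K V) v =
      ((t i₀ : Kˣ) : K) • v := by
  exact Cfsg.Agent.Helper57.MREVP.rho_hprod ρ v i₀ hi₀ h t

/-- PIECE LAT: solutions of the torus equations. -/
theorem lat_solve {G : Type*} [CommGroup G] {D : ChevalleyDatum} {m i₀ : ℕ} {c : ℕ → ℤ}
    (L : LatCert D m i₀ c) (t : ℕ → G)
    (h : ∀ j < D.rank,
      ∏ i ∈ Finset.range D.rank, t i ^ D.pairing (D.simple i) (D.simple j) = 1) :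
    (∀ k < D.rank, t k = t i₀ ^ c k) ∧ t i₀ ^ m = 1 := by
  exact Cfsg.Agent.Helper64.MRLat.lat_solve L t h

/-- PIECE KER1: the kernel of `Δ → D.group K` consists of elements `∏_i h_i(ζ ^ c_i)`. -/
theorem ker_le_Z {D : ChevalleyDatum}
    (hD' : D ∈ [chevG2, chevB2, chevD4, chevF4, chevE6, chevE7, chevE8])
    {K : Type*} [Field K] [Finite K] {m i₀ : ℕ} {c : ℕ → ℤ}
    (hlat : ∀ t : ℕ → Kˣ, (∀ j < D.rank,
        ∏ i ∈ Finset.range D.rank, t i ^ D.pairing (D.simple i) (D.simple j) = 1) →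
      (∀ k < D.rank, t k = t i₀ ^ c k) ∧ t i₀ ^ m = 1)
    (z : D.SteinbergCover K) (hz : scThetaG D hD' z = 1) :
    ∃ ζ : Kˣ, ζ ^ m = 1 ∧ z = hProd D (D.scGen K) (List.range D.rank) (fun i => ζ ^ c i) := by
  exact Cfsg.Agent.Helper64.MRKer.ker_le_Z hD' hlat z hz

/-- PIECE KER2: the elements `∏_i h_i(ζ ^ c_i)`, `ζ ^ m = 1`, are in the kernel. -/
theorem Z_mem_ker {D : ChevalleyDatum}
    (hD' : D ∈ [chevG2, chevB2, chevD4, chevF4, chevE6, chevE7, chevE8])
    {K : Type*} [Field K] {m : ℕ} {c : ℕ → ℤ}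
    (hroot : ∀ s < D.nroots,
      (m : ℤ) ∣ ((List.range D.rank).map fun i => c i * D.pairing (D.simple i) s).sum)
    (ζ : Kˣ) (hζ : ζ ^ m = 1) :
    scThetaG D hD' (hProd D (D.scGen K) (List.range D.rank) (fun i => ζ ^ c i)) = 1 := by
  exact Cfsg.Agent.Helper64.MRKer.Z_mem_ker hD' hroot ζ hζ

/-- PIECE PERF: the presented group is perfect. -/
theorem cover_perfect (D : ChevalleyDatum) {K : Type*} [Field K] (R : RSys D (D.scGen K))
    (C : Cert2 D) : commutator (D.SteinbergCover K) = ⊤ := by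
  exact Cfsg.Agent.Helper64.MRPerf.cover_perfect D R C

/-- PIECE NT: roots of unity in a finite field. -/
theorem card_roots {K : Type*} [Field K] [Fintype K] (m : ℕ) :
    Nat.card {ζ : Kˣ // ζ ^ m = 1} = Nat.gcd m (Fintype.card K - 1) := by
  exact Cfsg.Agent.Helper11.MRNT.card_roots m

/-! ## Assembly (helper64) -/

/-- The coordinate of `ρ(a) v₀` at `μ₀` separates the torus elements. -/
theorem rep_ev {R : SRep} {D : ChevalleyDatum}
    (hD' : D ∈ [chevG2, chevB2, chevD4, chevF4, chevE6, chevE7, chevE8]) (hOk : R.Ok D)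
    (C2 : Cert2 D) {i₀ μ₀ μ₁ : ℕ} (hi₀ : i₀ < D.rank) (hT : R.Top D i₀ μ₀ μ₁)
    (K : Type*) [Field K] :
    ∃ ev : D.SteinbergCover K → K, ∀ t : ℕ → Kˣ,
      ev (hProd D (D.scGen K) (List.range D.rank) t) = ((t i₀ : Kˣ) : K) := by
  obtain ⟨f₀, g, C⟩ := sCtx_of_mem (F := K) hD'
  have hs : ∀ i < D.rank, D.simple i < D.nroots := C.R.wf.simple_lt
  have hn : ∀ i < D.rank, D.neg (D.simple i) < D.nroots := fun i hi => C.R.wf.neg_lt _ (hs i hi)
  have hsq : ∀ r < D.nroots, R.op K r * R.op K r = 0 := fun r hr => op_sq hOk K hr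
  obtain ⟨ρ, hρ⟩ := cover_hom D (R.y D K) (fun r hr t => R.y_of_not_lt D K hr t) (y_add K hsq)
    (y_comm C2 K hsq (fun r hr s hs h1 h2 hc => op_c0 hOk K hr hs h1 h2 hc)
      (fun r hr s hs h1 h2 k C hc => op_c1 hOk K hr hs h1 h2 hc))
  obtain ⟨hv1, hv2, hv3, hv4, hv5⟩ := top_vec hT K
  have hh : ∀ i < D.rank, ∀ t : K, t ≠ 0 →
      ((ρ (hS D (D.scGen K) (D.simple i) t) : (Module.End K (ℕ → K))ˣ) :
        Module.End K (ℕ → K)) (Pi.single μ₀ (1 : K)) =
        (if i = i₀ then t else 1) • (Pi.single μ₀ (1 : K) : ℕ → K) := by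
    intro i hi t ht
    have e1 : ρ (hS D (D.scGen K) (D.simple i) t) =
        R.y D K (D.simple i) t * R.y D K (D.neg (D.simple i)) (-t⁻¹) * R.y D K (D.simple i) t *
          (R.y D K (D.simple i) (-1) * R.y D K (D.neg (D.simple i)) (-(-1)⁻¹) *
            R.y D K (D.simple i) (-1)) := by
      simp only [hS, nS, map_mul, hρ]
    rw [e1]
    by_cases hii : i = i₀
    · subst hii
      rw [if_pos rfl]
      exact sl2_top (R.op K (D.simple i)) (R.op K (D.neg (D.simple i))) (R.y D K (D.simple i))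
        (R.y D K (D.neg (D.simple i))) (fun t => R.y_val D K (hs i hi) (hsq _ (hs i hi)) t)
        (fun t => R.y_val D K (hn i hi) (hsq _ (hn i hi)) t) _ _ (hv1 i hi) hv3 hv4 hv5 t ht
    · rw [if_neg hii, one_smul]
      exact sl2_fix (R.op K (D.simple i)) (R.op K (D.neg (D.simple i))) (R.y D K (D.simple i))
        (R.y D K (D.neg (D.simple i))) (fun t => R.y_val D K (hs i hi) (hsq _ (hs i hi)) t)
        (fun t => R.y_val D K (hn i hi) (hsq _ (hn i hi)) t) _ (hv1 i hi) (hv2 i hi hii) t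
  refine ⟨fun a => ((ρ a : (Module.End K (ℕ → K))ˣ) : Module.End K (ℕ → K))
    (Pi.single μ₀ (1 : K)) μ₀, fun t => ?_⟩
  show ((ρ (hProd D (D.scGen K) (List.range D.rank) t) : (Module.End K (ℕ → K))ˣ) :
    Module.End K (ℕ → K)) (Pi.single μ₀ (1 : K)) μ₀ = _
  rw [rho_hprod ρ _ i₀ hi₀ hh t]
  simp

/-- The kernel of `Δ → D.group K` has `gcd (m, q - 1)` elements. -/
theorem card_ker {R : SRep} {D : ChevalleyDatum}
    (hD' : D ∈ [chevG2, chevB2, chevD4, chevF4, chevE6, chevE7, chevE8]) (hOk : R.Ok D)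
    (C2 : Cert2 D) {m i₀ μ₀ μ₁ : ℕ} {c : ℕ → ℤ} (hT : R.Top D i₀ μ₀ μ₁) (L : LatCert D m i₀ c)
    {K : Type u} [Field K] [Fintype K] :
    Nat.card (scThetaG (K := K) D hD').ker = Nat.gcd m (Fintype.card K - 1) := by
  obtain ⟨ev, hev⟩ := rep_ev hD' hOk C2 L.hi₀ hT K
  have hev' : ∀ ζ : Kˣ, ev (hProd D (D.scGen K) (List.range D.rank) (fun i => ζ ^ c i)) =
      ((ζ : Kˣ) : K) := by
    intro ζ
    rw [hev]
    show ((ζ ^ c i₀ : Kˣ) : K) = _
    rw [L.hc, zpow_one]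
  rw [← card_roots (K := K) m]
  apply Nat.card_congr
  symm
  refine Equiv.ofBijective (fun ζ => ⟨hProd D (D.scGen K) (List.range D.rank)
    (fun i => ζ.1 ^ c i), MonoidHom.mem_ker.mpr (Z_mem_ker hD' L.root ζ.1 ζ.2)⟩) ⟨?_, ?_⟩
  · intro ζ ζ' h
    have h1 : hProd D (D.scGen K) (List.range D.rank) (fun i => ζ.1 ^ c i) =
        hProd D (D.scGen K) (List.range D.rank) (fun i => ζ'.1 ^ c i) := congrArg Subtype.val h
    have h2 := congrArg ev h1
    rw [hev', hev'] at h2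
    exact Subtype.ext (Units.ext h2)
  · rintro ⟨z, hz⟩
    obtain ⟨ζ, hζ, rfl⟩ := ker_le_Z hD' (fun t ht => lat_solve L t ht) z
      (MonoidHom.mem_ker.mp hz)
    exact ⟨⟨ζ, hζ⟩, rfl⟩

/-- The Schur multiplier of `D.group K` is cyclic of order `gcd (m, q - 1)`. -/
theorem main {R : SRep} {D : ChevalleyDatum}
    (hD' : D ∈ [chevG2, chevB2, chevD4, chevF4, chevE6, chevE7, chevE8]) (hOk : R.Ok D)
    (C2 : Cert2 D) {m i₀ μ₀ μ₁ : ℕ} {c : ℕ → ℤ} (hT : R.Top D i₀ μ₀ μ₁) (L : LatCert D m i₀ c)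
    (hm : m.Prime) {K : Type u} [Field K] [Fintype K] :
    Cfsg.HasCyclicSchurMultiplier ↥(D.group K) (Nat.gcd m (Fintype.card K - 1)) := by
  classical
  let σ : D.SteinbergCover K →* ↥(D.group K) := scThetaG (K := K) D hD'
  have hcard : Nat.card σ.ker = Nat.gcd m (Fintype.card K - 1) := card_ker hD' hOk C2 hT L
  have hpos : 0 < Nat.gcd m (Fintype.card K - 1) := Nat.gcd_pos_of_pos_left _ hm.pos
  haveI hGfin : Finite ↥(D.group K) := inferInstance
  haveI hkerfin : Finite σ.ker := Nat.finite_of_card_ne_zero (by omega)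
  haveI hΔfin : Finite (D.SteinbergCover K) := by
    have e := Subgroup.groupEquivQuotientProdSubgroup (s := σ.ker)
    have e2 : (D.SteinbergCover K ⧸ σ.ker) ≃* σ.range := QuotientGroup.quotientKerEquivRange σ
    haveI : Finite (D.SteinbergCover K ⧸ σ.ker) := Finite.of_equiv _ e2.symm.toEquiv
    exact Finite.of_equiv _ e.symm
  have Rs := SX7.cover_rsys (K := K) D hD'
  have hperf := cover_perfect D Rs C2
  have hσ : Cfsg.IsStemExtension σ := by
    refine ⟨scThetaG_surj D hD', ?_, by rw [hperf]; exact le_top⟩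
    intro z hz
    have h1 : scTheta (K := K) D hD' z = 1 := congrArg Subtype.val (MonoidHom.mem_ker.mp hz)
    exact (scTheta_ker D hD' z).mp h1
  have htriv : Cfsg.HasCyclicSchurMultiplier (D.SteinbergCover K) 1 := by
    apply Cfsg.Agent.Helper21.SMTRIV.sm_triv
    intro Γ _ ψ hψ
    have hc : ψ.ker ≤ Subgroup.center Γ := by
      intro z hz
      rw [Subgroup.mem_center_iff]
      intro g
      exact (hψ.cent z (MonoidHom.mem_ker.mp hz) g).symm
    obtain ⟨s, hs⟩ := SX7.cover_section2 D Rs C2 ψ hψ.surj hc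
    exact ⟨s, fun g => DFunLike.congr_fun hs g⟩
  have hcyc : IsCyclic σ.ker := by
    rcases (Nat.dvd_prime hm).mp (Nat.gcd_dvd_left m (Fintype.card K - 1)) with h | h
    · haveI : Subsingleton σ.ker := (Nat.card_eq_one_iff_unique.mp (hcard.trans h)).1
      infer_instance
    · haveI : Fact m.Prime := ⟨hm⟩
      exact isCyclic_of_prime_card (p := m) (hcard.trans h)
  have e0 : Multiplicative (ZMod (Nat.card σ.ker)) ≃* σ.ker := zmodCyclicMulEquiv hcyc
  rw [hcard] at e0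
  refine ⟨⟨D.SteinbergCover K, inferInstance, hΔfin, σ, hσ, ⟨e0.symm⟩⟩, ?_⟩
  intro Δ' _ _ τ hτ
  obtain ⟨π, hπ⟩ := Cfsg.Agent.S3958.result σ hσ htriv Δ' τ hτ
  exact ⟨π.comp e0.toMonoidHom, hπ.comp e0.surjective⟩

end Cfsg.Agent.Helper64.MR
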