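import Mathlib
import Cfsg.Agent.Helper64.RegularClass

set_option autoImplicit false

namespace Cfsg.Agent.Helper64

section PowHom

variable {R : Type*} [Group R]

/-- In a finite `p`-group of class less than `p` whose derived subgroup lies in the subgroup
generated by the elements of order dividing `p`, the `p`-th power map is multiplicative. -/
theorem powhom_mul_pow [Finite R] {p : ℕ} [Fact p.Prime] (hR : IsPGroup p R)
    (hcl : (⊤ : Subgroup R).lowerCentralSeries (p - 1) = ⊥)
    (hder : commutator R ≤ Subgroup.closure {x : R | x ^ p = 1}) (x y : R) :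
    (x * y) ^ p = x ^ p * y ^ p := by
  have hreg := isRegular_of_lcs_eq_bot hR hcl
  obtain ⟨c, hc, hcc⟩ := hreg.2 x y 1
  have hexp : ∀ g ∈ Subgroup.closure {x : R | x ^ p = 1}, g ^ p = 1 := by
    intro g hg
    refine Subgroup.closure_induction (p := fun g _ => g ^ p = 1) ?_ ?_ ?_ ?_ hg
    · intro a ha
      exact ha
    · exact one_pow p
    · intro a b _ _ ha hb
      have h1 := mul_pow_eq_one_of_lcs_eq_bot hR hcl 1 a b (by simpa using ha) (by simpa using hb)
      simpa using h1
    · intro a _ ha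
      rw [inv_pow, ha, inv_one]
  have hc1 : c = 1 := by
    have hle : Cfsg.powerClosure p 1
        ⁅Subgroup.closure ({x, y} : Set R), Subgroup.closure ({x, y} : Set R)⁆ ≤ ⊥ := by
      unfold Cfsg.powerClosure
      rw [Subgroup.closure_le]
      rintro _ ⟨d, hd, rfl⟩
      have hdR : d ∈ commutator R := by
        rw [commutator_def]
        exact Subgroup.commutator_mono le_top le_top hd
      rw [pow_one, hexp d (hder hdR)]
      exact Subgroup.one_mem _
    simpa using hle hc
  rw [pow_one] at hcc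
  rw [hcc, hc1, mul_one]

/-- S0123. -/
theorem powhom_small_class [Finite R] {p : ℕ} [Fact p.Prime] (hR : IsPGroup p R)
    (hcl : (p ≠ 2 ∧ ⁅commutator R, (⊤ : Subgroup R)⁆ = ⊥) ∨
      (3 < p ∧ ⁅⁅commutator R, (⊤ : Subgroup R)⁆, (⊤ : Subgroup R)⁆ = ⊥))
    (hder : commutator R ≤ Subgroup.closure {x : R | x ^ p = 1}) (x y : R) :
    (x * y) ^ p = x ^ p * y ^ p := by
  apply powhom_mul_pow hR ?_ hder x y
  have hp := (Fact.out : p.Prime).two_le
  rcases hcl with ⟨hp2, h⟩ | ⟨hp3, h⟩
  · have h2 : (⊤ : Subgroup R).lowerCentralSeries 2 = ⊥ := h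
    have h3 : 2 ≤ p - 1 := by omega
    rw [eq_bot_iff, ← h2]
    exact (⊤ : Subgroup R).lowerCentralSeries_antitone h3
  · have h2 : (⊤ : Subgroup R).lowerCentralSeries 3 = ⊥ := h
    have h3 : 3 ≤ p - 1 := by omega
    rw [eq_bot_iff, ← h2]
    exact (⊤ : Subgroup R).lowerCentralSeries_antitone h3

end PowHom

end Cfsg.Agent.Helper64
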