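import Mathlib
import Cfsg.Prelude.Def_PLocal
import Cfsg.Agent.Helper70.Regular

set_option autoImplicit false

namespace Cfsg.Agent.Helper64

section RegularHall

open scoped commutatorElement

variable {G : Type*} [Group G]

theorem reghall_powerClosure_mono (p n : ℕ) {H K : Subgroup G} (h : H ≤ K) :
    Cfsg.powerClosure p n H ≤ Cfsg.powerClosure p n K := by
  unfold Cfsg.powerClosure
  apply Subgroup.closure_mono
  rintro y ⟨x, hx, rfl⟩
  exact ⟨x, h hx, rfl⟩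

theorem reghall_pow_mem (p n : ℕ) {H : Subgroup G} {x : G} (hx : x ∈ H) :
    x ^ (p ^ n) ∈ Cfsg.powerClosure p n H :=
  Subgroup.subset_closure ⟨x, hx, rfl⟩

theorem reghall_powerClosure_le (p n : ℕ) (H : Subgroup G) : Cfsg.powerClosure p n H ≤ H := by
  unfold Cfsg.powerClosure
  rw [Subgroup.closure_le]
  rintro y ⟨x, hx, rfl⟩
  exact H.pow_mem hx _

theorem reghall_commutator_self_le (L : Subgroup G) : ⁅L, L⁆ ≤ L := by
  rw [Subgroup.commutator_le]
  intro g₁ h₁ g₂ h₂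
  rw [commutatorElement_def]
  exact L.mul_mem (L.mul_mem (L.mul_mem h₁ h₂) (L.inv_mem h₁)) (L.inv_mem h₂)

/-- Given the regularity relation at level `n`, in every subgroup a product of two `p ^ n`-th
powers is a `p ^ n`-th power. -/
theorem reghall_pow_mul_pow [Finite G] {p : ℕ} [Fact p.Prime] (hG : IsPGroup p G) (n : ℕ)
    (hrel : ∀ a b : G, ∃ c ∈ Cfsg.powerClosure p n
        ⁅Subgroup.closure ({a, b} : Set G), Subgroup.closure ({a, b} : Set G)⁆,
      (a * b) ^ (p ^ n) = a ^ (p ^ n) * b ^ (p ^ n) * c) :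
    ∀ H : Subgroup G, ∀ a ∈ H, ∀ b ∈ H, ∃ d ∈ H, a ^ (p ^ n) * b ^ (p ^ n) = d ^ (p ^ n) := by
  intro H
  induction H using WellFoundedLT.induction with
  | ind H IH =>
    intro a ha b hb
    obtain ⟨L, hL⟩ : ∃ L : Subgroup G, L = Subgroup.closure ({a, b} : Set G) := ⟨_, rfl⟩
    have haL : a ∈ L := hL ▸ Subgroup.subset_closure (by simp)
    have hbL : b ∈ L := hL ▸ Subgroup.subset_closure (by simp)
    have hLH : L ≤ H := by
      rw [hL, Subgroup.closure_le]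
      rintro x (rfl | rfl) <;> assumption
    obtain ⟨c, hc, hcc⟩ := hrel a b
    rw [← hL] at hc
    have hKL : Subgroup.zpowers (a * b) ⊔ ⁅L, L⁆ ≤ L :=
      sup_le (Subgroup.zpowers_le.mpr (L.mul_mem haL hbL)) (reghall_commutator_self_le L)
    by_cases hK : Subgroup.zpowers (a * b) ⊔ ⁅L, L⁆ = L
    · have h1 := Cfsg.Agent.Helper70.eq_of_sup_commutator_eq hG L (Subgroup.zpowers (a * b))
        (Subgroup.zpowers_le.mpr (L.mul_mem haL hbL)) hK
      have ha' : a ∈ Subgroup.zpowers (a * b) := h1 ▸ haL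
      have hb' : b ∈ Subgroup.zpowers (a * b) := h1 ▸ hbL
      obtain ⟨i, hi⟩ := Subgroup.mem_zpowers_iff.mp ha'
      obtain ⟨j, hj⟩ := Subgroup.mem_zpowers_iff.mp hb'
      have hcm : Commute a b := by
        have h2 : Commute ((a * b) ^ i) ((a * b) ^ j) := (Commute.refl _).zpow_zpow i j
        rwa [hi, hj] at h2
      exact ⟨a * b, H.mul_mem ha hb, (hcm.mul_pow _).symm⟩
    · have hKlt : Subgroup.zpowers (a * b) ⊔ ⁅L, L⁆ < H :=
        lt_of_lt_of_le (lt_of_le_of_ne hKL hK) hLH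
      have IHK := IH _ hKlt
      have hpc : ∀ y ∈ Cfsg.powerClosure p n ⁅L, L⁆,
          ∃ d ∈ (Subgroup.zpowers (a * b) ⊔ ⁅L, L⁆ : Subgroup G), y = d ^ (p ^ n) := by
        intro y hy
        have hy' : y ∈ Subgroup.closure {y : G | ∃ x ∈ ⁅L, L⁆, y = x ^ (p ^ n)} := hy
        refine Subgroup.closure_induction (p := fun y _ =>
          ∃ d ∈ (Subgroup.zpowers (a * b) ⊔ ⁅L, L⁆ : Subgroup G), y = d ^ (p ^ n)) ?_ ?_ ?_ ?_ hy'
        · intro y hy
          obtain ⟨x, hx, rfl⟩ := hy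
          exact ⟨x, Subgroup.mem_sup_right hx, rfl⟩
        · exact ⟨1, Subgroup.one_mem _, (one_pow _).symm⟩
        · intro y₁ y₂ _ _ h1 h2
          obtain ⟨d₁, hd₁, rfl⟩ := h1
          obtain ⟨d₂, hd₂, rfl⟩ := h2
          obtain ⟨d, hd, hdd⟩ := IHK d₁ hd₁ d₂ hd₂
          exact ⟨d, hd, hdd⟩
        · intro y _ h
          obtain ⟨d, hd, rfl⟩ := h
          exact ⟨d⁻¹, Subgroup.inv_mem _ hd, (inv_pow _ _).symm⟩
      obtain ⟨d₁, hd₁, hcd⟩ := hpc c⁻¹ (Subgroup.inv_mem _ hc)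
      obtain ⟨d, hd, hdd⟩ := IHK (a * b) (Subgroup.mem_sup_left (Subgroup.mem_zpowers _)) d₁ hd₁
      refine ⟨d, hLH (hKL hd), ?_⟩
      rw [← hdd, ← hcd, hcc]; group

/-- Given the regularity relation at level `n`, every element of `℧ₙ(H)` is a `p ^ n`-th power
of an element of `H`. -/
theorem reghall_powerClosure_eq [Finite G] {p : ℕ} [Fact p.Prime] (hG : IsPGroup p G) (n : ℕ)
    (hrel : ∀ a b : G, ∃ c ∈ Cfsg.powerClosure p n
        ⁅Subgroup.closure ({a, b} : Set G), Subgroup.closure ({a, b} : Set G)⁆,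
      (a * b) ^ (p ^ n) = a ^ (p ^ n) * b ^ (p ^ n) * c) (H : Subgroup G) :
    ∀ y ∈ Cfsg.powerClosure p n H, ∃ x ∈ H, y = x ^ (p ^ n) := by
  intro y hy
  have hy' : y ∈ Subgroup.closure {y : G | ∃ x ∈ H, y = x ^ (p ^ n)} := hy
  refine Subgroup.closure_induction (p := fun y _ => ∃ x ∈ H, y = x ^ (p ^ n)) ?_ ?_ ?_ ?_ hy'
  · intro y hy
    exact hy
  · exact ⟨1, Subgroup.one_mem _, (one_pow _).symm⟩
  · intro y₁ y₂ _ _ h1 h2
    obtain ⟨d₁, hd₁, rfl⟩ := h1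
    obtain ⟨d₂, hd₂, rfl⟩ := h2
    exact reghall_pow_mul_pow hG n hrel H d₁ hd₁ d₂ hd₂
  · intro y _ h
    obtain ⟨d, hd, rfl⟩ := h
    exact ⟨d⁻¹, Subgroup.inv_mem _ hd, (inv_pow _ _).symm⟩

/-- Given the regularity relation at level `n`: `[℧ₙ(K), ℧ₙ(K)] ≤ ℧ₙ(K')`. -/
theorem reghall_commutator_le [Finite G] {p : ℕ} [Fact p.Prime] (hG : IsPGroup p G) (n : ℕ)
    (hrel : ∀ a b : G, ∃ c ∈ Cfsg.powerClosure p n
        ⁅Subgroup.closure ({a, b} : Set G), Subgroup.closure ({a, b} : Set G)⁆,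
      (a * b) ^ (p ^ n) = a ^ (p ^ n) * b ^ (p ^ n) * c) (K : Subgroup G) :
    ⁅Cfsg.powerClosure p n K, Cfsg.powerClosure p n K⁆ ≤ Cfsg.powerClosure p n ⁅K, K⁆ := by
  rw [Subgroup.commutator_le]
  intro x hx y hy
  obtain ⟨a, ha, rfl⟩ := reghall_powerClosure_eq hG n hrel K x hx
  have hyK : y ∈ K := reghall_powerClosure_le p n K hy
  obtain ⟨c, hc, hcc⟩ := hrel a (y * a * y⁻¹)⁻¹
  have hvK : (y * a * y⁻¹)⁻¹ ∈ K := K.inv_mem (K.mul_mem (K.mul_mem hyK ha) (K.inv_mem hyK))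
  have hLK : Subgroup.closure ({a, (y * a * y⁻¹)⁻¹} : Set G) ≤ K := by
    rw [Subgroup.closure_le]
    rintro z (rfl | rfl) <;> assumption
  have hc' : c ∈ Cfsg.powerClosure p n ⁅K, K⁆ :=
    reghall_powerClosure_mono p n (Subgroup.commutator_mono hLK hLK) hc
  have huv : a * (y * a * y⁻¹)⁻¹ = ⁅a, y⁆ := by rw [commutatorElement_def]; group
  have h1 : (a * (y * a * y⁻¹)⁻¹) ^ (p ^ n) ∈ Cfsg.powerClosure p n ⁅K, K⁆ := by
    rw [huv]
    exact reghall_pow_mem p n (Subgroup.commutator_mem_commutator ha hyK)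
  have h2 : ⁅a ^ (p ^ n), y⁆ = (a * (y * a * y⁻¹)⁻¹) ^ (p ^ n) * c⁻¹ := by
    rw [hcc, commutatorElement_def, inv_pow, conj_pow]; group
  rw [h2]
  exact Subgroup.mul_mem _ h1 (Subgroup.inv_mem _ hc')

/-- S0644. -/
theorem reghall_power_set [Finite G] {p : ℕ} [Fact p.Prime] (hG : Cfsg.IsRegularPGroup p G)
    (H : Subgroup G) (n : ℕ) :
    {y : G | ∃ x ∈ H, y = x ^ (p ^ n)} = (Cfsg.powerClosure p n H : Set G) ∧
      ⁅Cfsg.powerClosure p n H, Cfsg.powerClosure p n H⁆ ≤ Cfsg.powerClosure p n ⁅H, H⁆ := by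
  have hrel := fun a b => hG.2 a b n
  refine ⟨?_, reghall_commutator_le hG.1 n hrel H⟩
  ext y
  constructor
  · rintro ⟨x, hx, rfl⟩
    exact reghall_pow_mem p n hx
  · intro hy
    exact reghall_powerClosure_eq hG.1 n hrel H y hy

/-- The level-one relation with a single `p`-th power gives the relation at every level, with
correction term in `℧ₙ(K')` for any subgroup `K` containing the two elements. -/
theorem reghall_all_levels [Finite G] {p : ℕ} [Fact p.Prime] (hG : IsPGroup p G)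
    (hW : ∀ a b : G, ∃ c ∈ ⁅Subgroup.closure ({a, b} : Set G), Subgroup.closure ({a, b} : Set G)⁆,
      (a * b) ^ p = a ^ p * b ^ p * c ^ p) :
    ∀ (n : ℕ) (K : Subgroup G), ∀ x ∈ K, ∀ y ∈ K, ∃ c ∈ Cfsg.powerClosure p n ⁅K, K⁆,
      (x * y) ^ (p ^ n) = x ^ (p ^ n) * y ^ (p ^ n) * c := by
  have hrel1 : ∀ a b : G, ∃ c ∈ Cfsg.powerClosure p 1
        ⁅Subgroup.closure ({a, b} : Set G), Subgroup.closure ({a, b} : Set G)⁆,
      (a * b) ^ (p ^ 1) = a ^ (p ^ 1) * b ^ (p ^ 1) * c := by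
    intro a b
    obtain ⟨c, hc, hcc⟩ := hW a b
    exact ⟨c ^ (p ^ 1), reghall_pow_mem p 1 hc, by simpa using hcc⟩
  intro n
  induction n with
  | zero =>
    intro K x _ y _
    exact ⟨1, Subgroup.one_mem _, by simp⟩
  | succ n ih =>
    intro K x hx y hy
    obtain ⟨c, hc, hcc⟩ := hW x y
    have hLK : Subgroup.closure ({x, y} : Set G) ≤ K := by
      rw [Subgroup.closure_le]
      rintro z (rfl | rfl) <;> assumption
    have hcK : c ∈ ⁅K, K⁆ := Subgroup.commutator_mono hLK hLK hc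
    have hpm : ∀ g ∈ K, g ^ p ∈ Cfsg.powerClosure p 1 K := by
      intro g hg
      have := reghall_pow_mem p 1 hg
      rwa [pow_one] at this
    have hxp := hpm x hx
    have hyp := hpm y hy
    have hcp := hpm c (reghall_commutator_self_le K hcK)
    obtain ⟨c₂, hc₂, h2⟩ := ih (Cfsg.powerClosure p 1 K) (x ^ p) hxp (y ^ p) hyp
    obtain ⟨c₁, hc₁, h1⟩ := ih (Cfsg.powerClosure p 1 K) (x ^ p * y ^ p)
      (Subgroup.mul_mem _ hxp hyp) (c ^ p) hcp
    have hle : Cfsg.powerClosure p n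
        ⁅Cfsg.powerClosure p 1 K, Cfsg.powerClosure p 1 K⁆ ≤
        Cfsg.powerClosure p (n + 1) ⁅K, K⁆ := by
      have hcomm := reghall_commutator_le hG 1 hrel1 K
      show Subgroup.closure {y : G | ∃ x ∈ ⁅Cfsg.powerClosure p 1 K, Cfsg.powerClosure p 1 K⁆,
        y = x ^ (p ^ n)} ≤ _
      rw [Subgroup.closure_le]
      rintro _ ⟨e, he, rfl⟩
      obtain ⟨d, hd, rfl⟩ := reghall_powerClosure_eq hG 1 hrel1 ⁅K, K⁆ e (hcomm he)
      have h3 : (d ^ (p ^ 1)) ^ (p ^ n) = d ^ (p ^ (n + 1)) := by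
        rw [pow_one, ← pow_mul, ← pow_succ']
      rw [SetLike.mem_coe, h3]
      exact reghall_pow_mem p (n + 1) hd
    refine ⟨c₂ * c ^ (p ^ (n + 1)) * c₁, ?_, ?_⟩
    · exact Subgroup.mul_mem _ (Subgroup.mul_mem _ (hle hc₂) (reghall_pow_mem p (n + 1) hcK))
        (hle hc₁)
    · have e1 : ∀ g : G, g ^ (p ^ (n + 1)) = (g ^ p) ^ (p ^ n) := by
        intro g
        rw [← pow_mul, ← pow_succ']
      rw [e1 (x * y), hcc, h1, h2, e1 x, e1 y, e1 c]
      group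

/-- S0643. -/
theorem reghall_iff [Finite G] {p : ℕ} [Fact p.Prime] (hG : IsPGroup p G) :
    Cfsg.IsRegularPGroup p G ↔ ∀ a b : G,
      ∃ c ∈ ⁅Subgroup.closure ({a, b} : Set G), Subgroup.closure ({a, b} : Set G)⁆,
        (a * b) ^ p = a ^ p * b ^ p * c ^ p := by
  constructor
  · intro hreg a b
    have hrel := fun a b => hreg.2 a b 1
    obtain ⟨c', hc', hcc⟩ := hrel a b
    obtain ⟨c, hc, rfl⟩ := reghall_powerClosure_eq hG 1 hrel _ c' hc'
    exact ⟨c, hc, by simpa using hcc⟩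
  · intro hW
    refine ⟨hG, fun a b n => ?_⟩
    exact reghall_all_levels hG hW n (Subgroup.closure ({a, b} : Set G)) a
      (Subgroup.subset_closure (by simp)) b (Subgroup.subset_closure (by simp))

end RegularHall

end Cfsg.Agent.Helper64
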