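import Cfsg.Agent.Helper64.STU3Main
import Cfsg.Agent.Helper46.STUDF
import Cfsg.Agent.Helper36.ChevWPAll
import Cfsg.Agent.Helper36.STUCF4

/-!
# CALL S2103 (helper64): lifting along central extensions for the group presented by (R1), (R2)
of type `F₄`, over every finite field with at least three elements

`|K| ≥ 5`: `STUMain.cover_universal`.  `|K| = 3`: the unit `-1` (order `2`), decomposition
constants `± 1, ± 2`.  `|K| = 4`: a unit of order `3`, decomposition constants `± 1`.
-/

set_option autoImplicit false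

namespace Cfsg.Agent.Helper64.STU3

open Cfsg Cfsg.Lie Cfsg.Agent.Helper64.UC Cfsg.Agent.Helper64.UC3

/-- `a ^ k = 1 ↔ p ∣ k` for a unit `a ≠ 1` with `a ^ p = 1`, `p` prime. -/
theorem zpow_iff_of_order {K : Type*} [Field K] {a : K} (ha : a ≠ 0) {p : ℕ} (hp : p.Prime)
    (h1 : a ^ p = 1) (hne : a ≠ 1) : ∀ k : ℤ, a ^ k = 1 ↔ (p : ℤ) ∣ k := by
  intro k
  have hu : orderOf (Units.mk0 a ha) = p := by
    haveI := Fact.mk hp
    apply orderOf_eq_prime
    · apply Units.ext
      rw [Units.val_pow_eq_pow_val, Units.val_mk0, h1, Units.val_one]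
    · intro h
      apply hne
      have h2 := congrArg Units.val h
      rwa [Units.val_mk0, Units.val_one] at h2
  rw [← hu, orderOf_dvd_iff_zpow_eq_one]
  constructor
  · intro h
    apply Units.ext
    rw [Units.val_zpow_eq_zpow_val, Units.val_mk0, h, Units.val_one]
  · intro h
    have h2 := congrArg Units.val h
    rwa [Units.val_zpow_eq_zpow_val, Units.val_mk0, Units.val_one] at h2

/-- Every homomorphism of the group presented by (R1), (R2) of type `F₄` lifts along every
central extension, over a finite field with at least three elements. -/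
theorem f4_lift {K : Type*} [Field K] [Fintype K] (hK : 3 ≤ Fintype.card K)
    (c2 : Cert3 chevF4 2 2) (c3 : Cert3 chevF4 3 1)
    {E : Type*} [Group E] {G₁ : Type*} [Group G₁] (π₁ : E →* G₁)
    (hπ : Function.Surjective π₁) (hc : π₁.ker ≤ Subgroup.center E)
    (σ : chevF4.SteinbergCover K →* G₁) :
    ∃ τ : chevF4.SteinbergCover K →* E, π₁.comp τ = σ := by
  classical
  have hD : chevF4 ∈ [chevG2, chevB2, chevD4, chevF4, chevE6, chevE7, chevE8] := by simp
  by_cases h5 : 4 < Fintype.card K
  · have hK' : ∃ s : Finset K, 4 < s.card := ⟨Finset.univ, by rw [Finset.card_univ]; exact h5⟩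
    exact (Cfsg.Agent.Helper64.STUMain.cover_universal chevF4
      (Cfsg.Agent.Helper36.STUGSYS.cover_gsys chevF4 hD hK')
      (Cfsg.Agent.Helper46.STUDF.dfacts_of_mem chevF4 hD) Cfsg.Agent.Helper36.STUCF4.cert_F4
      (Cfsg.Agent.Helper36.wFacts_of_mem hD).neg_neg hK' π₁ hπ hc σ).exists
  · have h34 : Fintype.card K = 3 ∨ Fintype.card K = 4 := by omega
    rcases h34 with h3 | h4
    · have h2 : (2 : K) ≠ 0 := by
        apply Ring.two_ne_zero
        intro hch
        have := FiniteField.even_card_of_char_two hch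
        omega
      have hN : ((2 : ℤ) : K) ≠ 0 := by simpa using h2
      have ha0 : (-1 : K) ≠ 0 := by simp
      have ham : ∀ k : ℤ, (-1 : K) ^ k = 1 ↔ (2 : ℤ) ∣ k := by
        have h := zpow_iff_of_order ha0 Nat.prime_two (by simp)
          (by intro h; apply h2; linear_combination (-1 : K) * h)
        exact_mod_cast h
      exact cover_lift3 chevF4 (cover_gsys3 chevF4 hD hN c2.self)
        (Cfsg.Agent.Helper46.STUDF.dfacts_of_mem chevF4 hD) Cfsg.Agent.Helper36.STUCF4.cert_F4
        c2 ha0 ham hN π₁ hπ hc σ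
    · obtain ⟨a, ha0, ha1⟩ : ∃ a : K, a ≠ 0 ∧ a ≠ 1 := by
        by_contra hcon
        push_neg at hcon
        have hsub : (Finset.univ : Finset K) ⊆ {0, 1} := by
          intro a _
          by_cases ha : a = 0
          · simp [ha]
          · simp [hcon a ha]
        have h1 := Finset.card_le_card hsub
        have h2 : ({0, 1} : Finset K).card ≤ 2 := Finset.card_le_two
        rw [Finset.card_univ] at h1
        omega
      have ha3 : a ^ 3 = 1 := by
        have h := FiniteField.pow_card_sub_one_eq_one a ha0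
        rwa [h4] at h
      have hN : ((1 : ℤ) : K) ≠ 0 := by simp
      have ham : ∀ k : ℤ, a ^ k = 1 ↔ (3 : ℤ) ∣ k := by
        have h := zpow_iff_of_order ha0 Nat.prime_three ha3 ha1
        exact_mod_cast h
      exact cover_lift3 chevF4 (cover_gsys3 chevF4 hD hN c3.self)
        (Cfsg.Agent.Helper46.STUDF.dfacts_of_mem chevF4 hD) Cfsg.Agent.Helper36.STUCF4.cert_F4
        c3 ha0 ham hN π₁ hπ hc σ

end Cfsg.Agent.Helper64.STU3
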