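import Cfsg.Agent.Helper64.UC2Defs
import Cfsg.Agent.Helper36.StCover
import Cfsg.Agent.Helper91.STUA1

/-!
# CALL S2107 (helper64): torus-free universality of the Steinberg cover (simply laced types with
enough room), after Milnor's proof for `St_n` and Stein's theorem.

`exists_rel2`: a central extension `ψ : E → Γ` of a group `Γ` with the relations (R1), (R2) of a
datum with a certificate `Cert2` has lifts of the root elements satisfying (R1), (R2).
`cover_section2`: every central extension of the presented group splits (over every field).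
-/

set_option autoImplicit false

namespace Cfsg.Agent.Helper64.SX7

open Cfsg Cfsg.Lie Cfsg.Agent.Helper36 Cfsg.Agent.Helper64.UC Cfsg.Agent.Helper64.UC2

/-- The commutator `g⁻¹ h⁻¹ g h`. -/
def cm {G : Type*} [Group G] (g h : G) : G := g⁻¹ * h⁻¹ * g * h

theorem cm_map {G H : Type*} [Group G] [Group H] (f : G →* H) (g h : G) :
    f (cm g h) = cm (f g) (f h) := by
  unfold cm
  simp only [map_mul, map_inv]

theorem cm_inv_swap {G : Type*} [Group G] (g h : G) : cm g h = (cm h g)⁻¹ := by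
  unfold cm
  group

theorem cm_mul_right {G : Type*} [Group G] (g h1 h2 : G) :
    cm g (h1 * h2) = cm g h2 * (h2⁻¹ * cm g h1 * h2) := by
  unfold cm
  group

theorem cm_conj {G : Type*} [Group G] (e g h : G) :
    e * cm g h * e⁻¹ = cm (e * g * e⁻¹) (e * h * e⁻¹) := by
  unfold cm
  group

/-- The move `[u, [v, w]] = [[u, v], w]`. -/
theorem cm_move {G : Type*} [Group G] (u v w : G) (h1 : u * w = w * u)
    (h2 : cm u v * cm v w = cm v w * cm u v)
    (h4 : cm u v * cm w (cm u v) = cm w (cm u v) * cm u v) :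
    cm u (cm v w) = cm (cm u v) w := by
  have e1 : u⁻¹ * w * u = w := by
    calc u⁻¹ * w * u = u⁻¹ * (w * u) := by group
      _ = u⁻¹ * (u * w) := by rw [h1]
      _ = w := by group
  have e2 : u⁻¹ * v * u = v * (cm u v)⁻¹ := by
    unfold cm
    group
  have e3 : u⁻¹ * cm v w * u = cm (u⁻¹ * v * u) (u⁻¹ * w * u) := by
    unfold cm
    group
  have e4 : ∀ g : G, cm (v * g⁻¹) w = g * cm v w * cm w g * g⁻¹ := by
    intro g
    unfold cm
    group
  have e5 : u⁻¹ * cm v w * u = cm v w * cm w (cm u v) := by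
    rw [e3, e1, e2, e4]
    calc cm u v * cm v w * cm w (cm u v) * (cm u v)⁻¹
        = cm v w * (cm u v * cm w (cm u v)) * (cm u v)⁻¹ := by rw [h2]; group
      _ = cm v w * (cm w (cm u v) * cm u v) * (cm u v)⁻¹ := by rw [h4]
      _ = cm v w * cm w (cm u v) := by group
  have e6 : ∀ X : G, cm u X = (u⁻¹ * X * u)⁻¹ * X := by
    intro X
    unfold cm
    group
  rw [e6, e5, cm_inv_swap (cm u v) w]
  group

section

variable {K : Type*} [Field K] {Γ : Type*} [Group Γ] {E : Type*} [Group E]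

theorem cm_lift (ψ : E →* Γ) (hc : ψ.ker ≤ Subgroup.center E) {a a' b b' : E}
    (ha : ψ a = ψ a') (hb : ψ b = ψ b') : cm a b = cm a' b' := by
  have h := Cfsg.Agent.Helper91.STUA1.comm_lift_eq ψ hc (a := a⁻¹) (a' := a'⁻¹) (b := b⁻¹)
    (b' := b'⁻¹) (by rw [map_inv, map_inv, ha]) (by rw [map_inv, map_inv, hb])
  unfold cm
  simpa only [inv_inv] using h

theorem c_sq {C : ℤ} (h : C = 1 ∨ C = -1) : (C : K) * (C : K) = 1 := by
  rcases h with rfl | rfl <;> simp

variable {D : ChevalleyDatum} {x : ℕ → K → Γ}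

theorem rs_zero (R : RSys D x) (r : ℕ) : x r (0 : K) = 1 := by
  have h := R.add r 0 0
  rw [add_zero] at h
  exact mul_eq_left.mp h

theorem rs_inv (R : RSys D x) (r : ℕ) (t : K) : (x r t)⁻¹ = x r (-t) := by
  apply inv_eq_of_mul_eq_one_right
  rw [R.add, add_neg_cancel, rs_zero R]

theorem rs_eq (R : RSys D x) {r : ℕ} (hr : r < D.nroots) {s s' : K} (h : x r s = x r s') :
    s = s' := by
  have h1 : x r (s - s') = 1 := by
    rw [sub_eq_add_neg, ← R.add, ← rs_inv R, h, mul_inv_cancel]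
  exact sub_eq_zero.mp (R.inj r hr _ h1)

theorem rs_comm0 (R : RSys D x) {r s : ℕ} (h : Is0 D r s) (t u : K) :
    x s u * x r t = x r t * x s u := by
  obtain ⟨⟨hr, hs, h1, h2⟩, h0⟩ := h
  have h3 := R.comm r hr s hs h1 h2 t u
  unfold ChevalleyDatum.commWord at h3
  rw [h0] at h3
  simpa [sW] using h3

theorem rs_rel1 (R : RSys D x) {r s k : ℕ} {C : ℤ} (h : T1 D r s k C) (t u : K) :
    cm (x s u) (x r t) = x k ((C : K) * (-t) * u) := by
  obtain ⟨⟨hr, hs, h1, h2⟩, hk, hC, hT⟩ := h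
  have h3 := R.comm r hr s hs h1 h2 t u
  unfold ChevalleyDatum.commWord at h3
  rw [hT] at h3
  have e : sW x ([(k, C, 1, 1)].map fun c : ℕ × ℤ × ℕ × ℕ =>
      (c.1, (c.2.1 : K) * (-t) ^ c.2.2.1 * u ^ c.2.2.2)) = x k ((C : K) * (-t) * u) := by
    simp [sW]
  rw [e] at h3
  unfold cm
  calc (x s u)⁻¹ * (x r t)⁻¹ * x s u * x r t = (x s u)⁻¹ * (x r t)⁻¹ * (x s u * x r t) := by group
    _ = x k ((C : K) * (-t) * u) := by rw [h3]; group

/-- Lifts of two commuting root elements commute. -/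
theorem lift_comm (R : RSys D x) (C : Cert2 D) (ψ : E →* Γ) (hψ : Function.Surjective ψ)
    (hc : ψ.ker ≤ Subgroup.center E) (r s : ℕ) (h0 : Is0 D r s) (t u : K) (e1 e2 : E)
    (h1 : ψ e1 = x r t) (h2 : ψ e2 = x s u) : e1 * e2 = e2 * e1 := by
  obtain ⟨a, b, C', hT, ha, hb⟩ := C.czero r s h0
  obtain ⟨ea, hea⟩ := hψ (x a (-(C' : K) * t))
  obtain ⟨eb, heb⟩ := hψ (x b 1)
  have hw : ψ (cm eb ea) = ψ e1 := by
    rw [cm_map, hea, heb, rs_rel1 R hT, h1]
    congr 1
    have := c_sq (K := K) hT.2.2.1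
    linear_combination t * this
  have hconj : e2 * cm eb ea * e2⁻¹ = cm eb ea := by
    rw [cm_conj]
    apply cm_lift ψ hc
    · rw [map_mul, map_mul, map_inv, h2, heb, rs_comm0 R hb 1 u]
      group
    · rw [map_mul, map_mul, map_inv, h2, hea, rs_comm0 R ha _ u]
      group
  have hw2 : e2 * cm eb ea = cm eb ea * e2 := by
    calc e2 * cm eb ea = (e2 * cm eb ea * e2⁻¹) * e2 := by group
      _ = cm eb ea * e2 := by rw [hconj]
  have hz : (cm eb ea)⁻¹ * e1 ∈ Subgroup.center E := by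
    apply hc
    rw [MonoidHom.mem_ker, map_mul, map_inv, hw, inv_mul_cancel]
  have hz' := Subgroup.mem_center_iff.mp hz e2
  calc e1 * e2 = cm eb ea * (((cm eb ea)⁻¹ * e1) * e2) := by group
    _ = cm eb ea * (e2 * ((cm eb ea)⁻¹ * e1)) := by rw [hz']
    _ = (cm eb ea * e2) * ((cm eb ea)⁻¹ * e1) := by group
    _ = (e2 * cm eb ea) * ((cm eb ea)⁻¹ * e1) := by rw [hw2]
    _ = e2 * e1 := by group

/-- The move, for lifts of root elements. -/
theorem move_star (R : RSys D x) (ψ : E →* Γ) (hc : ψ.ker ≤ Subgroup.center E)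
    (hcomm0 : ∀ r s : ℕ, Is0 D r s → ∀ (t u : K) (e1 e2 : E), ψ e1 = x r t → ψ e2 = x s u →
      e1 * e2 = e2 * e1)
    (lf : Γ → E) (hlf : ∀ g, ψ (lf g) = g)
    {q c d e f k : ℕ} {C1 C2 : ℤ} (hT1 : T1 D c q e C1) (hT2 : T1 D d c f C2)
    (h1 : Is0 D q d) (h2 : Is0 D e f) (h4 : Is0 D e k)
    (hk : ∀ γ ε : K, ∃ s : K, cm (x d γ) (x e ε) = x k s)
    (α β γ : K) :
    cm (lf (x q α)) (lf (x f ((C2 : K) * (-γ) * β))) =
      cm (lf (x e ((C1 : K) * (-β) * α))) (lf (x d γ)) := by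
  have huv : ψ (cm (lf (x q α)) (lf (x c β))) = x e ((C1 : K) * (-β) * α) := by
    rw [cm_map, hlf, hlf]
    exact rs_rel1 R hT1 β α
  have hvw : ψ (cm (lf (x c β)) (lf (x d γ))) = x f ((C2 : K) * (-γ) * β) := by
    rw [cm_map, hlf, hlf]
    exact rs_rel1 R hT2 γ β
  have m1 : lf (x q α) * lf (x d γ) = lf (x d γ) * lf (x q α) :=
    hcomm0 q d h1 α γ _ _ (hlf _) (hlf _)
  have m2 := hcomm0 e f h2 _ _ _ _ huv hvw
  obtain ⟨s, hs⟩ := hk γ ((C1 : K) * (-β) * α)
  have hwg : ψ (cm (lf (x d γ)) (cm (lf (x q α)) (lf (x c β)))) = x k s := by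
    rw [cm_map, hlf, huv, hs]
  have m4 := hcomm0 e k h4 _ s _ _ huv hwg
  have hm := cm_move (lf (x q α)) (lf (x c β)) (lf (x d γ)) m1 m2 m4
  calc cm (lf (x q α)) (lf (x f ((C2 : K) * (-γ) * β)))
      = cm (lf (x q α)) (cm (lf (x c β)) (lf (x d γ))) :=
        cm_lift ψ hc rfl (by rw [hlf, hvw])
    _ = cm (cm (lf (x q α)) (lf (x c β))) (lf (x d γ)) := hm
    _ = cm (lf (x e ((C1 : K) * (-β) * α))) (lf (x d γ)) :=
        cm_lift ψ hc (by rw [hlf, huv]) rfl

/-- A central extension of a group with the relations (R1), (R2) of a datum with a certificate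
`Cert2` has lifts of the root elements satisfying (R1), (R2). -/
theorem exists_rel2 (R : RSys D x) (C : Cert2 D) (ψ : E →* Γ) (hψ : Function.Surjective ψ)
    (hc : ψ.ker ≤ Subgroup.center E) :
    ∃ y : ℕ → K → E, (∀ r, ¬ r < D.nroots → ∀ t : K, y r t = 1) ∧
      (∀ r < D.nroots, ∀ t : K, ψ (y r t) = x r t) ∧
      (∀ (r : ℕ) (t u : K), y r t * y r u = y r (t + u)) ∧
      ∀ r s : ℕ, VP D r s → Good D y r s := by
  classical
  have hcomm0 : ∀ r s : ℕ, Is0 D r s → ∀ (t u : K) (e1 e2 : E), ψ e1 = x r t → ψ e2 = x s u →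
      e1 * e2 = e2 * e1 := lift_comm R C ψ hψ hc
  choose lf hlf using hψ
  have hdec := C.dec
  choose! da db dC hd using hdec
  obtain ⟨y, hy_def, hy1⟩ : ∃ y : ℕ → K → E,
      (∀ k < D.nroots, ∀ t : K,
        y k t = cm (lf (x (db k) 1)) (lf (x (da k) (-(dC k : K) * t)))) ∧
      (∀ r, ¬ r < D.nroots → ∀ t : K, y r t = 1) :=
    ⟨fun k t => if k < D.nroots then cm (lf (x (db k) 1)) (lf (x (da k) (-(dC k : K) * t)))
      else 1, fun k hk t => if_pos hk, fun r hr t => if_neg hr⟩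
  have hsq : ∀ k < D.nroots, (dC k : K) * (dC k : K) = 1 := fun k hk =>
    c_sq (hd k hk).1.2.2.1
  have hmap : ∀ r < D.nroots, ∀ t : K, ψ (y r t) = x r t := by
    intro k hk t
    rw [hy_def k hk, cm_map, hlf, hlf, rs_rel1 R (hd k hk).1]
    congr 1
    linear_combination t * hsq k hk
  -- additivity
  have hadd' : ∀ k < D.nroots, ∀ t u : K, y k (t + u) = y k u * y k t := by
    intro k hk t u
    have e1 : y k (t + u) = cm (lf (x (db k) 1))
        (lf (x (da k) (-(dC k : K) * t)) * lf (x (da k) (-(dC k : K) * u))) := by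
      rw [hy_def k hk]
      apply cm_lift ψ hc rfl
      rw [map_mul, hlf, hlf, hlf, R.add]
      congr 1
      ring
    have e3 : (lf (x (da k) (-(dC k : K) * u)))⁻¹ * y k t * lf (x (da k) (-(dC k : K) * u)) =
        y k t := by
      have h := hcomm0 (da k) k (hd k hk).2.1 (-(dC k : K) * u) t
        (lf (x (da k) (-(dC k : K) * u))) (y k t) (hlf _) (hmap k hk t)
      calc (lf (x (da k) (-(dC k : K) * u)))⁻¹ * y k t * lf (x (da k) (-(dC k : K) * u))
          = (lf (x (da k) (-(dC k : K) * u)))⁻¹ *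
              (y k t * lf (x (da k) (-(dC k : K) * u))) := by group
        _ = (lf (x (da k) (-(dC k : K) * u)))⁻¹ *
              (lf (x (da k) (-(dC k : K) * u)) * y k t) := by rw [h]
        _ = y k t := by group
    rw [e1, cm_mul_right, ← hy_def k hk u, ← hy_def k hk t, e3]
  have hadd : ∀ (r : ℕ) (t u : K), y r t * y r u = y r (t + u) := by
    intro k t u
    by_cases hk : k < D.nroots
    · rw [add_comm, hadd' k hk u t]
    · rw [hy1 k hk, hy1 k hk, hy1 k hk, mul_one]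
  have hy0 : ∀ k : ℕ, y k 0 = 1 := by
    intro k
    have h := hadd k 0 0
    rw [add_zero] at h
    exact mul_eq_left.mp h
  have hyinv : ∀ (k : ℕ) (t : K), (y k t)⁻¹ = y k (-t) := by
    intro k t
    apply inv_eq_of_mul_eq_one_right
    rw [hadd, add_neg_cancel, hy0]
  have hEQ : ∀ k < D.nroots, ∀ (s s' : K) (e : E), e = y k s → ψ e = x k s' → e = y k s' := by
    intro k hk s s' e he hψe
    have h1 : x k s = x k s' := by rw [← hmap k hk s, ← he, hψe]
    rw [he, rs_eq R hk h1]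
  have hKEY : ∀ k < D.nroots, ∀ T : K,
      cm (lf (x (db k) 1)) (lf (x (da k) T)) = y k (-(dC k : K) * T) := by
    intro k hk T
    rw [hy_def k hk]
    have e : -(dC k : K) * (-(dC k : K) * T) = T := by linear_combination T * hsq k hk
    rw [e]
  -- the two families of moves
  have hkab : ∀ k < D.nroots, ∀ γ ε : K, ∃ s : K, cm (x (da k) γ) (x (db k) ε) = x k s := by
    intro k hk γ ε
    refine ⟨-((dC k : K) * (-γ) * ε), ?_⟩
    rw [cm_inv_swap, rs_rel1 R (hd k hk).1 γ ε, rs_inv R]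
  have hkba : ∀ k < D.nroots, ∀ γ ε : K, ∃ s : K, cm (x (db k) γ) (x (da k) ε) = x k s := by
    intro k hk γ ε
    exact ⟨_, rs_rel1 R (hd k hk).1 ε γ⟩
  -- scaling
  have hSCAL : ∀ k < D.nroots, ∀ l γ : K,
      cm (lf (x (db k) l)) (lf (x (da k) γ)) = cm (lf (x (db k) 1)) (lf (x (da k) (l * γ))) := by
    intro k hk l γ
    obtain ⟨q, p, c, C1, C2, hT1, hT2, i1, i2, i4⟩ := (hd k hk).2.2.1
    have star := move_star R ψ hc hcomm0 lf hlf hT1 hT2 i1 i2 i4 (hkab k hk)
    have hC1 := c_sq (K := K) hT1.2.2.1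
    have s1 := star 1 (-(C1 : K) * l) γ
    have s2 := star 1 (-(C1 : K)) (l * γ)
    have a1 : (C1 : K) * (-(-(C1 : K) * l)) * 1 = l := by linear_combination l * hC1
    have a2 : (C1 : K) * (-(-(C1 : K))) * 1 = 1 := by linear_combination hC1
    have a3 : (C2 : K) * (-γ) * (-(C1 : K) * l) = (C2 : K) * (-(l * γ)) * (-(C1 : K)) := by ring
    rw [a1, a3] at s1
    rw [a2] at s2
    exact s1.symm.trans s2
  -- independence of the decomposition
  have hIND : ∀ (p q k : ℕ) (C' : ℤ), T1 D p q k C' → ∀ t u : K,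
      cm (lf (x q u)) (lf (x p t)) = y k ((C' : K) * (-t) * u) := by
    intro p q k C' hT t u
    have hk := hT.2.1
    have himg : ψ (cm (lf (x q u)) (lf (x p t))) = x k ((C' : K) * (-t) * u) := by
      rw [cm_map, hlf, hlf]
      exact rs_rel1 R hT t u
    suffices h : ∃ s : K, cm (lf (x q u)) (lf (x p t)) = y k s by
      obtain ⟨s, hs⟩ := h
      exact hEQ k hk s _ _ hs himg
    rcases (hd k hk).2.2.2 p q C' hT with ⟨h1, h2⟩ | ⟨h1, h2⟩ | hG | hG
    · rw [h1, h2]
      exact ⟨_, (hSCAL k hk u t).trans (hKEY k hk (u * t))⟩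
    · rw [h1, h2]
      have e : cm (lf (x (da k) u)) (lf (x (db k) t)) = y k (-(-(dC k : K) * (t * u))) := by
        rw [cm_inv_swap, hSCAL k hk t u, hKEY k hk, hyinv]
      exact ⟨_, e⟩
    · obtain ⟨c, C1, C2, hT1, hT2, i1, i2, i4⟩ := hG
      have star := move_star R ψ hc hcomm0 lf hlf hT1 hT2 i1 i2 i4 (hkab k hk) u 1
        (-(C2 : K) * t)
      have a1 : (C2 : K) * (-(-(C2 : K) * t)) * 1 = t := by
        linear_combination t * c_sq (K := K) hT2.2.2.1
      rw [a1] at star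
      exact ⟨_, star.trans ((hSCAL k hk _ _).trans (hKEY k hk _))⟩
    · obtain ⟨c, C1, C2, hT1, hT2, i1, i2, i4⟩ := hG
      have star := move_star R ψ hc hcomm0 lf hlf hT1 hT2 i1 i2 i4 (hkba k hk) u 1
        (-(C2 : K) * t)
      have a1 : (C2 : K) * (-(-(C2 : K) * t)) * 1 = t := by
        linear_combination t * c_sq (K := K) hT2.2.2.1
      rw [a1] at star
      have e : cm (lf (x (da k) ((C1 : K) * (-1) * u))) (lf (x (db k) (-(C2 : K) * t))) =
          y k (-(-(dC k : K) * ((-(C2 : K) * t) * ((C1 : K) * (-1) * u)))) := by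
        rw [cm_inv_swap, hSCAL k hk, hKEY k hk, hyinv]
      exact ⟨_, star.trans e⟩
  refine ⟨y, hy1, hmap, hadd, ?_⟩
  intro r s hv t u
  obtain ⟨hr, hs, hsr, hsn⟩ := hv
  rcases C.shape r hr s hs hsr hsn with h0 | ⟨k, C', hT⟩
  · unfold ChevalleyDatum.commWord
    rw [h0]
    simp only [List.map_nil, sW_nil, mul_one]
    exact (hcomm0 r s ⟨⟨hr, hs, hsr, hsn⟩, h0⟩ t u (y r t) (y s u) (hmap r hr t)
      (hmap s hs u)).symm
  · have h1 := hIND r s k C' hT t u
    have h2 : cm (y s u) (y r t) = cm (lf (x s u)) (lf (x r t)) :=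
      cm_lift ψ hc (by rw [hmap s hs, hlf]) (by rw [hmap r hr, hlf])
    unfold ChevalleyDatum.commWord
    rw [hT.2.2.2]
    have e : sW y ([(k, C', 1, 1)].map fun c : ℕ × ℤ × ℕ × ℕ =>
        (c.1, (c.2.1 : K) * (-t) ^ c.2.2.1 * u ^ c.2.2.2)) = y k ((C' : K) * (-t) * u) := by
      simp [sW]
    rw [e, ← h1, ← h2]
    unfold cm
    group

end

end Cfsg.Agent.Helper64.SX7
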