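import Cfsg.Agent.Helper64.UCDefs

/-!
# CALL S2103 (helper64): `F₄(3)` and `F₄(4)` — definitions of the table certificate

Hybrid universality proof for small fields: the torus elements `h_γ(a)` for ONE unit `a` of
multiplicative order `m` (`a = -1`, `m = 2` over `𝔽₃`; `a = ω`, `m = 3` over `𝔽₄`) separate two
roots `p`, `q` when `m ∣ ⟨p, γ^∨⟩` and `m ∤ ⟨q, γ^∨⟩` (`Sep`); where no torus element separates,
`x_q` is a commutator `[x_a, x_b]` of root elements commuting with `x_p` (`Dec`).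
-/

set_option autoImplicit false

namespace Cfsg.Agent.Helper64.UC3

open Cfsg Cfsg.Lie Cfsg.Agent.Helper64.UC

/-- `(a, b)` is a valid pair with the one-term formula `[x_b, x_a] = x_k(C ..)`, `C = ± 1, ± N`. -/
def T1w (D : ChevalleyDatum) (N : ℤ) (a b k : ℕ) (C : ℤ) : Prop :=
  VP D a b ∧ k < D.nroots ∧ (C = 1 ∨ C = -1 ∨ C = N ∨ C = -N) ∧
    D.commTerms a b = [(k, C, 1, 1)]

/-- `x_q` is a commutator of root elements `x_a`, `x_b` which commute with `x_p`. -/
def Dec (D : ChevalleyDatum) (N : ℤ) (p q : ℕ) : Prop :=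
  ∃ (a b : ℕ) (C : ℤ), T1w D N a b q C ∧ Is0 D p a ∧ Is0 D p b

/-- Some `h_γ(a)`, `a` of order `m`, centralizes `x_p` and not `x_q`. -/
def Sep (D : ChevalleyDatum) (m : ℤ) (p q : ℕ) : Prop :=
  ∃ γ < D.nroots, m ∣ D.pairing γ p ∧ ¬ m ∣ D.pairing γ q

/-- The table certificate for a unit of order `m` and decomposition constants `± 1, ± N`. -/
structure Cert3 (D : ChevalleyDatum) (m N : ℤ) : Prop where
  full : ∀ r < D.nroots, ∃ γ < D.nroots, ¬ m ∣ D.pairing γ r
  self : ∀ r < D.nroots, Dec D N r r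
  zero : ∀ p < D.nroots, ∀ q < D.nroots, Is0 D p q → Sep D m p q ∨ Dec D N p q
  sep : ∀ r < D.nroots, ∀ s < D.nroots, s ≠ r → s ≠ D.neg r → D.commTerms r s ≠ [] →
    Sep D m r s ∧ Sep D m s r

end Cfsg.Agent.Helper64.UC3
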