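import Cfsg.Agent.Helper64.STUMain
import Cfsg.Agent.Helper64.SX7Main
import Cfsg.Agent.Helper64.UC3Defs
import Cfsg.Agent.Helper36.UCGSys

/-!
# CALL S2103 (helper64): universality of the group presented by (R1), (R2) over a small field

The proof of `STUMain` with ONE unit `a₀` of multiplicative order `m` in place of "enough units":
the lift of `x_r` is `[lift h_γ(a₀), lift x_r(t/(c-1))]` for a root `γ` with `m ∤ ⟨r, γ^∨⟩`;
commuting pairs are lifted by a separating torus element or by a decomposition `x_q = [x_a, x_b]`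
(`Cert3`), and the perfectness of the presented group comes from the decompositions as well.
-/

set_option autoImplicit false

namespace Cfsg.Agent.Helper64.STU3

open Cfsg Cfsg.Lie Cfsg.Agent.Helper36 Cfsg.Agent.Helper64.UC Cfsg.Agent.Helper64.UC3
open Cfsg.Agent.Helper64.SX7 Cfsg.Agent.Helper64.STUMain Cfsg.Agent.Helper17
open Cfsg.Agent.Helper36.STURU Cfsg.Agent.Helper36.STURT
open Cfsg.Agent.Helper91.STUA1 Cfsg.Agent.Helper91.STUA2 Cfsg.Agent.Helper67.STUC0 Cfsg.Agent.Helper57.STUS4B Cfsg.Agent.Helper46.STULU Cfsg.Agent.Helper53.STULT Cfsg.Agent.Helper53.STUS3 Cfsg.Agent.Helper53.STUS4A Cfsg.Agent.Helper57.STUS12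
open scoped commutatorElement

section

variable {K : Type*} [Field K] {Γ : Type*} [Group Γ] {E : Type*} [Group E]

theorem t1w_ne {D : ChevalleyDatum} {N : ℤ} (hN : (N : K) ≠ 0) {a b k : ℕ} {C : ℤ}
    (h : T1w D N a b k C) : (C : K) ≠ 0 := by
  rcases h.2.2.1 with rfl | rfl | rfl | rfl
  · simp
  · simp
  · exact hN
  · simpa using hN

theorem rel0_of_comm {D : ChevalleyDatum} {x : ℕ → K → Γ}
    (hcomm : ∀ r < D.nroots, ∀ s < D.nroots, s ≠ r → s ≠ D.neg r → ∀ t u : K,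
      x s u * x r t = x r t * x s u * sW x (D.commWord K r s t u))
    {r s : ℕ} (h : Is0 D r s) (t u : K) : x s u * x r t = x r t * x s u := by
  obtain ⟨⟨hr, hs, h1, h2⟩, h0⟩ := h
  have h3 := hcomm r hr s hs h1 h2 t u
  unfold ChevalleyDatum.commWord at h3
  rw [h0] at h3
  simpa [sW] using h3

theorem rel1_of_comm {D : ChevalleyDatum} {x : ℕ → K → Γ}
    (hcomm : ∀ r < D.nroots, ∀ s < D.nroots, s ≠ r → s ≠ D.neg r → ∀ t u : K,
      x s u * x r t = x r t * x s u * sW x (D.commWord K r s t u))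
    {N : ℤ} {r s k : ℕ} {C : ℤ} (h : T1w D N r s k C) (t u : K) :
    cm (x s u) (x r t) = x k ((C : K) * (-t) * u) := by
  obtain ⟨⟨hr, hs, h1, h2⟩, hk, hC, hT⟩ := h
  have h3 := hcomm r hr s hs h1 h2 t u
  unfold ChevalleyDatum.commWord at h3
  rw [hT] at h3
  have e : sW x ([(k, C, 1, 1)].map fun c : ℕ × ℤ × ℕ × ℕ =>
      (c.1, (c.2.1 : K) * (-t) ^ c.2.2.1 * u ^ c.2.2.2)) = x k ((C : K) * (-t) * u) := by
    simp [sW]
  rw [e] at h3
  unfold cm
  calc (x s u)⁻¹ * (x r t)⁻¹ * x s u * x r t = (x s u)⁻¹ * (x r t)⁻¹ * (x s u * x r t) := by group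
    _ = x k ((C : K) * (-t) * u) := by rw [h3]; group

/-- The presented group is perfect when every root element is a commutator of root elements. -/
theorem perf_of_dec {D : ChevalleyDatum} {x : ℕ → K → Γ}
    (hcomm : ∀ r < D.nroots, ∀ s < D.nroots, s ≠ r → s ≠ D.neg r → ∀ t u : K,
      x s u * x r t = x r t * x s u * sW x (D.commWord K r s t u))
    (hgen : Subgroup.closure {g : Γ | ∃ r < D.nroots, ∃ t : K, g = x r t} = ⊤)
    {N : ℤ} (hN : (N : K) ≠ 0) (hself : ∀ r < D.nroots, Dec D N r r) : commutator Γ = ⊤ := by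
  rw [eq_top_iff, ← hgen, Subgroup.closure_le]
  rintro y ⟨r, hr, t, rfl⟩
  obtain ⟨a, b, C', hT, -, -⟩ := hself r hr
  have hC : (C' : K) ≠ 0 := t1w_ne hN hT
  have h1 := rel1_of_comm hcomm hT (-(t / (C' : K))) 1
  have h2 : (C' : K) * (- -(t / (C' : K))) * 1 = t := by field_simp
  rw [h2] at h1
  have h3 : cm (x b 1) (x a (-(t / (C' : K)))) = ⁅(x b 1)⁻¹, (x a (-(t / (C' : K))))⁻¹⁆ := by
    unfold cm
    rw [commutatorElement_def]
    group
  rw [← h1, h3]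
  exact Subgroup.commutator_mem_commutator (Subgroup.mem_top _) (Subgroup.mem_top _)

/-- Lifts of two root elements commute when one of them is a commutator of root elements
commuting with the other. -/
theorem comm_dec {D : ChevalleyDatum} {x : ℕ → K → Γ} (G : GSys D x) (ψ : E →* Γ)
    (hψ : Function.Surjective ψ) (hc : ψ.ker ≤ Subgroup.center E) {N : ℤ} (hN : (N : K) ≠ 0)
    {p q : ℕ} (hd : Dec D N p q) (t u : K) (e1 e2 : E) (h1 : ψ e1 = x q u)
    (h2 : ψ e2 = x p t) : e1 * e2 = e2 * e1 := by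
  obtain ⟨a, b, C', hT, ha, hb⟩ := hd
  have hC : (C' : K) ≠ 0 := t1w_ne hN hT
  obtain ⟨ea, hea⟩ := hψ (x a (-(u / (C' : K))))
  obtain ⟨eb, heb⟩ := hψ (x b 1)
  have hw : ψ (cm eb ea) = ψ e1 := by
    rw [cm_map, hea, heb, rel1_of_comm G.comm hT, h1]
    congr 1
    field_simp
  have hconj : e2 * cm eb ea * e2⁻¹ = cm eb ea := by
    rw [cm_conj]
    apply cm_lift ψ hc
    · rw [map_mul, map_mul, map_inv, h2, heb, ← rel0_of_comm G.comm hb t 1]
      group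
    · rw [map_mul, map_mul, map_inv, h2, hea, ← rel0_of_comm G.comm ha t _]
      group
  have hw2 : e2 * cm eb ea = cm eb ea * e2 := by
    calc e2 * cm eb ea = (e2 * cm eb ea * e2⁻¹) * e2 := by group
      _ = cm eb ea * e2 := by rw [hconj]
  have hz : (cm eb ea)⁻¹ * e1 ∈ Subgroup.center E := by
    apply hc
    rw [MonoidHom.mem_ker, map_mul, map_inv, hw, inv_mul_cancel]
  have hz' := Subgroup.mem_center_iff.mp hz e2
  calc e1 * e2 = cm eb ea * (((cm eb ea)⁻¹ * e1) * e2) := by group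
    _ = cm eb ea * (e2 * ((cm eb ea)⁻¹ * e1)) := by rw [hz']
    _ = (cm eb ea * e2) * ((cm eb ea)⁻¹ * e1) := by group
    _ = (e2 * cm eb ea) * ((cm eb ea)⁻¹ * e1) := by rw [hw2]
    _ = e2 * e1 := by group

/-- A torus element `h_γ(a₀)` separating `r` from `s`. -/
theorem tor3 {D : ChevalleyDatum} {x : ℕ → K → Γ} (G : GSys D x) (F : DFacts D) {a : K}
    (ha : a ≠ 0) {m : ℤ} (ham : ∀ k : ℤ, a ^ k = 1 ↔ m ∣ k) {r s : ℕ} (hsep : Sep D m r s) :
    ∃ (h : Γ) (χ : ℕ → K), Diag D.nroots x h χ ∧ χ r = 1 ∧ χ s ≠ 1 ∧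
      ∀ p < D.nroots, ∀ q < D.nroots, ∀ c ∈ D.commTerms p q,
        χ c.1 = χ p ^ c.2.2.1 * χ q ^ c.2.2.2 := by
  obtain ⟨γ, hγ, h0, h1⟩ := hsep
  obtain ⟨h, hd⟩ := G.tor γ hγ a ha
  refine ⟨h, fun s => a ^ D.pairing γ s, hd, (ham _).mpr h0, fun h' => h1 ((ham _).mp h'), ?_⟩
  intro p hp q hq c hc
  show a ^ D.pairing γ c.1 = (a ^ D.pairing γ p) ^ c.2.2.1 * (a ^ D.pairing γ q) ^ c.2.2.2
  rw [(F.padd γ hγ p hp q hq c hc).2, zpow_add₀ ha, zpow_mul', zpow_mul', zpow_natCast,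
    zpow_natCast]

/-- The lifts `y r t = [lift h, lift x_r(t/(c-1))]`, `h` a torus element acting on `x_r`
through `c ≠ 1`. -/
theorem exists_lift3 {D : ChevalleyDatum} {x : ℕ → K → Γ} (G : GSys D x)
    (ψ : E →* Γ) (hψ : Function.Surjective ψ) (hc : ψ.ker ≤ Subgroup.center E) {a₀ : K}
    (ha0 : a₀ ≠ 0) {m : ℤ} (ham : ∀ k : ℤ, a₀ ^ k = 1 ↔ m ∣ k)
    (hfull : ∀ r < D.nroots, ∃ γ < D.nroots, ¬ m ∣ D.pairing γ r) :
    ∃ y : ℕ → K → E, (∀ r, ¬ r < D.nroots → ∀ t : K, y r t = 1) ∧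
      (∀ r < D.nroots, ∀ t : K, ψ (y r t) = x r t) ∧
      (∀ (h : Γ) (χ : ℕ → K), Diag D.nroots x h χ → ∀ e : E, ψ e = h →
        ∀ r < D.nroots, ∀ t : K, e * y r t * e⁻¹ = y r (χ r * t)) ∧
      (∀ r < D.nroots, (∀ t u : K, Commute (y r t) (y r u)) →
        ∀ t u : K, y r t * y r u = y r (t + u)) := by
  classical
  choose lf hlf using hψ
  have htor : ∀ r : ℕ, ∃ (h : Γ) (χ : ℕ → K), r < D.nroots →
      Diag D.nroots x h χ ∧ χ r ≠ 1 := by
    intro r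
    by_cases hr : r < D.nroots
    · obtain ⟨γ, hγ, hm⟩ := hfull r hr
      obtain ⟨h, hh⟩ := G.tor γ hγ a₀ ha0
      exact ⟨h, _, fun _ => ⟨hh, fun h1 => hm ((ham _).mp h1)⟩⟩
    · exact ⟨1, fun _ => 1, fun h => absurd h hr⟩
  choose hh χχ hhd using htor
  have hc1 : ∀ r < D.nroots, χχ r r - 1 ≠ 0 := fun r hr => sub_ne_zero.mpr (hhd r hr).2
  let y : ℕ → K → E := fun r t =>
    if r < D.nroots then
      lf (hh r) * lf (x r (t / (χχ r r - 1))) * (lf (hh r))⁻¹ *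
        (lf (x r (t / (χχ r r - 1))))⁻¹
    else 1
  have hy : ∀ r < D.nroots, ∀ t : K, y r t =
      lf (hh r) * lf (x r (t / (χχ r r - 1))) * (lf (hh r))⁻¹ *
        (lf (x r (t / (χχ r r - 1))))⁻¹ := fun r hr t => if_pos hr
  -- the action of `h_r` on `x_r`
  have hact : ∀ r < D.nroots, ∀ v : K, hh r * x r v * (hh r)⁻¹ = x r (χχ r r * v) :=
    fun r hr v => (hhd r hr).1 r hr v
  have hmap : ∀ r < D.nroots, ∀ t : K, ψ (y r t) = x r t := by
    intro r hr t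
    rw [hy r hr, map_mul, map_mul, map_mul, map_inv, map_inv, hlf, hlf, hact r hr, gsys_inv G,
      G.add]
    congr 1
    have hc1' := hc1 r hr
    generalize χχ r r = c at hc1'
    have e : c * (t / (c - 1)) + -(t / (c - 1)) = (c - 1) * (t / (c - 1)) := by ring
    rw [e, mul_comm]
    exact div_mul_cancel₀ t hc1'
  refine ⟨y, fun r hr t => if_neg hr, hmap, ?_, ?_⟩
  · intro h χ hd e he r hr t
    rw [hy r hr, hy r hr]
    set A := lf (hh r) with hA
    set B := lf (x r (t / (χχ r r - 1))) with hB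
    set B' := lf (x r (χ r * t / (χχ r r - 1))) with hB'
    -- `e A e⁻¹ = A ζ` with `ζ` central
    have hζ : A⁻¹ * (e * A * e⁻¹) ∈ Subgroup.center E := by
      apply center_of_map ψ (fun g => ⟨lf g, hlf g⟩) hc G.perf
      rw [map_mul, map_inv, map_mul, map_mul, map_inv, he, hA, hlf]
      exact diag_comm_center G (hhd r hr).1 hd
    have hζ' := Subgroup.mem_center_iff.mp hζ
    have h1 : e * (A * B * A⁻¹ * B⁻¹) * e⁻¹ =
        (A * (A⁻¹ * (e * A * e⁻¹))) * (e * B * e⁻¹) * (A * (A⁻¹ * (e * A * e⁻¹)))⁻¹ *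
          (e * B * e⁻¹)⁻¹ := by group
    have h2 : (A * (A⁻¹ * (e * A * e⁻¹))) * (e * B * e⁻¹) * (A * (A⁻¹ * (e * A * e⁻¹)))⁻¹ *
          (e * B * e⁻¹)⁻¹ = A * (e * B * e⁻¹) * A⁻¹ * (e * B * e⁻¹)⁻¹ := by
      generalize A⁻¹ * (e * A * e⁻¹) = ζ at hζ'
      have h3 := hζ' (e * B * e⁻¹)
      calc A * ζ * (e * B * e⁻¹) * (A * ζ)⁻¹ * (e * B * e⁻¹)⁻¹
          = A * ((e * B * e⁻¹) * ζ) * ζ⁻¹ * A⁻¹ * (e * B * e⁻¹)⁻¹ := by
            rw [h3]; group
        _ = A * (e * B * e⁻¹) * A⁻¹ * (e * B * e⁻¹)⁻¹ := by group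
    rw [h1, h2]
    apply comm_lift_eq ψ hc rfl
    rw [map_mul, map_mul, map_inv, he, hB, hB', hlf, hlf, hd r hr, mul_div_assoc]
  · intro r hr hcomm t u
    rw [hy r hr, hy r hr, hy r hr]
    set A := lf (hh r) with hA
    set Bt := lf (x r (t / (χχ r r - 1))) with hBt
    set Bu := lf (x r (u / (χχ r r - 1))) with hBu
    -- `Bt` commutes with `y r u`
    have h1 : Bt * (A * Bu * A⁻¹ * Bu⁻¹) = (A * Bu * A⁻¹ * Bu⁻¹) * Bt := by
      have hk : Bt * (y r (t / (χχ r r - 1)))⁻¹ ∈ Subgroup.center E := by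
        apply hc
        rw [MonoidHom.mem_ker, map_mul, map_inv, hmap r hr, hBt, hlf, mul_inv_cancel]
      have hk' := Subgroup.mem_center_iff.mp hk
      have h2 := (hcomm (t / (χχ r r - 1)) u).eq
      rw [hy r hr u] at h2
      have h3 := hk' (A * Bu * A⁻¹ * Bu⁻¹)
      generalize y r (t / (χχ r r - 1)) = Y at h2 h3
      generalize A * Bu * A⁻¹ * Bu⁻¹ = W at h2 h3 ⊢
      calc Bt * W = (Bt * Y⁻¹) * (Y * W) := by group
        _ = (Bt * Y⁻¹) * (W * Y) := by rw [h2]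
        _ = (W * (Bt * Y⁻¹)) * Y := by rw [← mul_assoc, ← h3]
        _ = W * Bt := by group
    have h4 : A * (Bt * Bu) * A⁻¹ * (Bt * Bu)⁻¹ =
        (A * Bt * A⁻¹ * Bt⁻¹) * (Bt * (A * Bu * A⁻¹ * Bu⁻¹) * Bt⁻¹) := by group
    have h5 : A * lf (x r ((t + u) / (χχ r r - 1))) * A⁻¹ *
        (lf (x r ((t + u) / (χχ r r - 1))))⁻¹ = A * (Bt * Bu) * A⁻¹ * (Bt * Bu)⁻¹ := by
      apply comm_lift_eq ψ hc rfl
      rw [map_mul, hBt, hBu, hlf, hlf, hlf, G.add, add_div]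
    rw [h5, h4, h1]
    group

/-- All relations (R1), (R2) lift to a central extension (one unit of order `m`). -/
theorem exists_rel3 {D : ChevalleyDatum} {x : ℕ → K → Γ} (G : GSys D x) (F : DFacts D)
    (C : Cert D) {m N : ℤ} (C3 : Cert3 D m N) {a₀ : K} (ha0 : a₀ ≠ 0)
    (ham : ∀ k : ℤ, a₀ ^ k = 1 ↔ m ∣ k) (hN : (N : K) ≠ 0)
    (ψ : E →* Γ) (hψ : Function.Surjective ψ) (hc : ψ.ker ≤ Subgroup.center E) :
    ∃ y : ℕ → K → E, (∀ r, ¬ r < D.nroots → ∀ t : K, y r t = 1) ∧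
      (∀ r < D.nroots, ∀ t : K, ψ (y r t) = x r t) ∧
      (∀ (r : ℕ) (t u : K), y r t * y r u = y r (t + u)) ∧
      ∀ r s, VP D r s → Good D y r s := by
  obtain ⟨y, hy1, hmap, hequiv, hadd'⟩ := exists_lift3 G ψ hψ hc ha0 ham C3.full
  have c0 : ∀ p q, Is0 D p q → ∀ t u : K, y q u * y p t = y p t * y q u := by
    rintro p q h0 t u
    rcases C3.zero p h0.1.1 q h0.1.2.1 h0 with hsep | hdec
    · obtain ⟨h, χ, hd, hp1, hq1, -⟩ := tor3 G F ha0 ham hsep
      exact comm_zero G ψ hψ hc y hmap hequiv h0.1 h0.2 hd hp1 hq1 t u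
    · exact comm_dec G ψ hψ hc hN hdec t u _ _ (hmap q h0.1.2.1 u) (hmap p h0.1.1 t)
  have hself : ∀ r < D.nroots, ∀ t u : K, Commute (y r t) (y r u) := by
    intro r hr t u
    exact comm_dec G ψ hψ hc hN (C3.self r hr) u t _ _ (hmap r hr t) (hmap r hr u)
  have hadd : ∀ (r : ℕ) (t u : K), y r t * y r u = y r (t + u) := by
    intro r t u
    by_cases hr : r < D.nroots
    · exact hadd' r hr (hself r hr) t u
    · rw [hy1 r hr, hy1 r hr, hy1 r hr, one_mul]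
  have L : LSys D x ψ y := ⟨hmap, hequiv, hadd⟩
  refine ⟨y, hy1, hmap, hadd, ?_⟩
  have step0 : ∀ p q, Is0 D p q → Good D y p q := by
    rintro p q h0 t u
    unfold ChevalleyDatum.commWord
    rw [h0.2, List.map_nil, sW_nil, mul_one]
    exact c0 p q h0 t u
  -- the two separating torus elements of a non-commuting pair
  have tp : ∀ r s, VP D r s → D.commTerms r s ≠ [] →
      (∃ (h : Γ) (χ : ℕ → K), Diag D.nroots x h χ ∧ χ r = 1 ∧ χ s ≠ 1 ∧
        ∀ p < D.nroots, ∀ q < D.nroots, ∀ c ∈ D.commTerms p q,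
          χ c.1 = χ p ^ c.2.2.1 * χ q ^ c.2.2.2) ∧
      (∃ (h : Γ) (χ : ℕ → K), Diag D.nroots x h χ ∧ χ s = 1 ∧ χ r ≠ 1 ∧
        ∀ p < D.nroots, ∀ q < D.nroots, ∀ c ∈ D.commTerms p q,
          χ c.1 = χ p ^ c.2.2.1 * χ q ^ c.2.2.2) := by
    rintro r s ⟨hr, hs, h1, h2⟩ hne
    obtain ⟨s1, s2⟩ := C3.sep r hr s hs h1 h2 hne
    exact ⟨tor3 G F ha0 ham s1, tor3 G F ha0 ham s2⟩
  have step1 : ∀ p q k, Is1 D p q k → Good D y p q := by
    rintro p q k ⟨hv, hsig, hqk⟩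
    have hne : D.commTerms p q ≠ [] := by
      intro h
      unfold sig at hsig
      rw [h] at hsig
      simp at hsig
    obtain ⟨⟨h, χ, hd, hp1, hq1, hm⟩, -⟩ := tp p q hv hne
    apply good_of_add_u G F hψ hc L hv hd hp1 hq1 (fun c hc' => hm p hv.1 q hv.2.1 c hc')
    exact s1_add D y L.add hsig (c0 q k hqk)
  have c1 : ∀ p q k, Is1 D p q k →
      ∃ N : K, ∀ t u : K, y q u * y p t = y p t * y q u * y k (N * (-t) * u) :=
    fun p q k h => good_c1 (step1 p q k h) h.2.1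
  intro r s hv
  have hv' := hv
  obtain ⟨hr, hs, h1, h2⟩ := hv'
  by_cases hne : D.commTerms r s = []
  · exact step0 r s ⟨hv, hne⟩
  obtain ⟨⟨h, χ, hd, hp1, hq1, hm⟩, ⟨h', χ', hd', hp1', hq1', hm'⟩⟩ := tp r s hv hne
  have hmr := fun c hc' => hm r hr s hs c hc'
  have hmr' := fun c hc' => hm' r hr s hs c hc'
  rcases C.shape r hr s hs h1 h2 with hS | hS | hS | hS | hS | hS | hS
  · apply step0 r s ⟨hv, ?_⟩
    unfold sig at hS
    exact List.map_eq_nil_iff.mp hS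
  · obtain ⟨hsig, a0⟩ := hS
    exact step1 r s _ ⟨hv, hsig, a0⟩
  · obtain ⟨hsig, a1, a2, a3⟩ := hS
    apply good_of_add_u G F hψ hc L hv hd hp1 hq1 hmr
    exact s2a_add D y L.add hsig (c0 _ _ a1) (c0 _ _ a2) (c0 _ _ a3)
  · obtain ⟨hsig, a1, a2, a3⟩ := hS
    apply good_of_add_t G F hψ hc L hv hd' hp1' hq1' hmr'
    exact s2b_add D y L.add hsig (c0 _ _ a1) (c0 _ _ a2) (c0 _ _ a3)
  · obtain ⟨hsig, b1, a2, a3, a4, a5, a6⟩ := hS
    obtain ⟨N, cN⟩ := c1 _ _ _ b1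
    apply good_of_add_u G F hψ hc L hv hd hp1 hq1 hmr
    apply add_u_of_res G F L hv
    intro t u u'
    obtain ⟨P, hP⟩ := s3_res D y L.add hsig N cN (c0 _ _ a2) (c0 _ _ a3) (c0 _ _ a4)
      (c0 _ _ a5) (c0 _ _ a6) t u u'
    exact ⟨_, a3.1.2.1, P, hP⟩
  · obtain ⟨hsig, b1, b2, a1, a2, a4, a13, a14, a23, a24, a34⟩ := hS
    obtain ⟨N, cN⟩ := c1 _ _ _ b1
    obtain ⟨M, cM⟩ := c1 _ _ _ b2
    apply good_of_add_u G F hψ hc L hv hd hp1 hq1 hmr
    apply add_u_of_res G F L hv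
    intro t u u'
    obtain ⟨P, hP⟩ := s4a_res D y L.add hsig N M cN cM (c0 _ _ a1) (c0 _ _ a2) (c0 _ _ a4)
      (c0 _ _ a13) (c0 _ _ a14) (c0 _ _ a23) (c0 _ _ a24) (c0 _ _ a34) t u u'
    exact ⟨_, a4.1.2.1, P, hP⟩
  · obtain ⟨hsig, b1, b2, a1, a2, a4, a13, a14, a23, a24, a34⟩ := hS
    obtain ⟨N, cN⟩ := c1 _ _ _ b1
    obtain ⟨M, cM⟩ := c1 _ _ _ b2
    apply good_of_add_t G F hψ hc L hv hd' hp1' hq1' hmr'
    apply add_t_of_res G F L hv
    intro t t' u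
    obtain ⟨P, hP⟩ := s4b_res D y L.add hsig N M cN cM (c0 _ _ a1) (c0 _ _ a2) (c0 _ _ a4)
      (c0 _ _ a13) (c0 _ _ a14) (c0 _ _ a23) (c0 _ _ a24) (c0 _ _ a34) t t' u
    exact ⟨_, a4.1.2.1, P, hP⟩

end

section

variable {K : Type*} [Field K] {E : Type*} [Group E]

/-- The group presented by (R1), (R2) is a `GSys` as soon as every root element is a commutator
of root elements. -/
theorem cover_gsys3 (D : ChevalleyDatum)
    (hD : D ∈ [chevG2, chevB2, chevD4, chevF4, chevE6, chevE7, chevE8]) {N : ℤ}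
    (hN : (N : K) ≠ 0) (hself : ∀ r < D.nroots, Dec D N r r) : GSys D (D.scGen K) := by
  obtain ⟨f₀, g, C⟩ := sCtx_of_mem (F := K) hD
  have S := sRel_cover D (scTheta (K := K) D hD) (fun r t _ => scTheta_val D hD r t)
  refine ⟨S.add, S.comm, S.gen, perf_of_dec S.comm S.gen hN hself, ?_, ?_⟩
  · intro r hr t ht
    have hX := C.R.xadd
    have h1 : xGL hX r t = xGL hX r 0 := by
      rw [← S.map_x hX, ← S.map_x hX, ht, S.zero]
    exact C.xGL_inj hr h1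
  · exact fun γ hγ a ha =>
      ⟨hS D _ γ a, C.hS_diag S (torusFacts_of_mem hD) (hDiag_of_mem hD) hγ ha⟩

/-- Every central extension of the group presented by (R1), (R2) splits. -/
theorem cover_section3 (D : ChevalleyDatum) (G : GSys D (D.scGen K)) (F : DFacts D)
    (C : Cert D) {m N : ℤ} (C3 : Cert3 D m N) {a₀ : K} (ha0 : a₀ ≠ 0)
    (ham : ∀ k : ℤ, a₀ ^ k = 1 ↔ m ∣ k) (hN : (N : K) ≠ 0)
    (ψ : E →* D.SteinbergCover K)
    (hψ : Function.Surjective ψ) (hc : ψ.ker ≤ Subgroup.center E) :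
    ∃ s : D.SteinbergCover K →* E, ψ.comp s = MonoidHom.id _ := by
  obtain ⟨y, hy1, hmap, hadd, hgood⟩ := exists_rel3 G F C C3 ha0 ham hN ψ hψ hc
  have hrel : ∀ w ∈ D.steinbergRelsAB K,
      FreeGroup.lift (fun p : Fin D.nroots × K => y p.1.val p.2) w = 1 := by
    rintro w (⟨r, t₁, t₂, hr, rfl⟩ | ⟨r, s, t, u, hr, hs, h1, h2, rfl⟩)
    · rw [map_mul, map_mul, map_inv, lift_stX D y hy1, lift_stX D y hy1, lift_stX D y hy1, hadd,
        mul_inv_cancel]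
    · rw [map_mul, map_mul, map_mul, map_mul, map_inv, map_inv, map_inv, lift_stX D y hy1,
        lift_stX D y hy1, lift_stWord D y hy1]
      have h3 := hgood r s ⟨hr, hs, h1, h2⟩ t u
      have e : (y s u)⁻¹ * (y r t)⁻¹ * y s u * y r t * (sW y (D.commWord K r s t u))⁻¹ =
          (y s u)⁻¹ * (y r t)⁻¹ * (y s u * y r t) * (sW y (D.commWord K r s t u))⁻¹ := by
        group
      rw [e, h3]
      group
  refine ⟨PresentedGroup.toGroup hrel, ?_⟩
  apply PresentedGroup.ext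
  intro p
  rw [MonoidHom.comp_apply, PresentedGroup.toGroup.of, MonoidHom.id_apply, hmap p.1.val p.1.isLt]
  unfold ChevalleyDatum.scGen ChevalleyDatum.stX
  rw [dif_pos p.1.isLt]
  rfl

/-- Every homomorphism of the presented group lifts along every central extension. -/
theorem cover_lift3 (D : ChevalleyDatum) (G : GSys D (D.scGen K)) (F : DFacts D)
    (C : Cert D) {m N : ℤ} (C3 : Cert3 D m N) {a₀ : K} (ha0 : a₀ ≠ 0)
    (ham : ∀ k : ℤ, a₀ ^ k = 1 ↔ m ∣ k) (hN : (N : K) ≠ 0)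
    {G₁ : Type*} [Group G₁] (π₁ : E →* G₁)
    (hπ : Function.Surjective π₁) (hc : π₁.ker ≤ Subgroup.center E)
    (σ : D.SteinbergCover K →* G₁) : ∃ τ : D.SteinbergCover K →* E, π₁.comp τ = σ := by
  let P : Subgroup (E × D.SteinbergCover K) :=
    (π₁.comp (MonoidHom.fst E (D.SteinbergCover K))).eqLocus
      (σ.comp (MonoidHom.snd E (D.SteinbergCover K)))
  let ψ : P →* D.SteinbergCover K := (MonoidHom.snd E (D.SteinbergCover K)).comp P.subtype
  have hP : ∀ p : P, π₁ p.1.1 = σ p.1.2 := fun p => p.2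
  have hψ : Function.Surjective ψ := by
    intro g
    obtain ⟨e, he⟩ := hπ (σ g)
    exact ⟨⟨(e, g), he⟩, rfl⟩
  have hcψ : ψ.ker ≤ Subgroup.center P := by
    intro p hp
    rw [MonoidHom.mem_ker] at hp
    have hp2 : p.1.2 = 1 := hp
    have hp1 : p.1.1 ∈ Subgroup.center E := by
      apply hc
      rw [MonoidHom.mem_ker, hP p, hp2, map_one]
    rw [Subgroup.mem_center_iff]
    intro q
    apply Subtype.ext
    apply Prod.ext
    · exact Subgroup.mem_center_iff.mp hp1 q.1.1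
    · change q.1.2 * p.1.2 = p.1.2 * q.1.2
      rw [hp2, mul_one, one_mul]
  obtain ⟨s, hs⟩ := cover_section3 D G F C C3 ha0 ham hN ψ hψ hcψ
  have hs' : ∀ g, (s g).1.2 = g := fun g => DFunLike.congr_fun hs g
  refine ⟨((MonoidHom.fst E (D.SteinbergCover K)).comp P.subtype).comp s, ?_⟩
  apply MonoidHom.ext
  intro g
  change π₁ (s g).1.1 = σ g
  rw [hP (s g), hs' g]

end

end Cfsg.Agent.Helper64.STU3
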