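import Cfsg.Agent.Helper64.STUMain

/-!
# CALL S2100 (helper64): the table certificate of type `G₂`, and universality of the group
presented by (R1), (R2) of type `G₂` over a field with more than four elements.
-/

set_option autoImplicit false
set_option maxRecDepth 1000000

namespace Cfsg.Agent.Helper64.STUG2

open Cfsg Cfsg.Lie Cfsg.Agent.Helper64.UC

theorem g2_shape : ∀ r < chevG2.nroots, ∀ s < chevG2.nroots, s ≠ r → s ≠ chevG2.neg r →
    Shape chevG2 r s := by decide +kernel

/-- List form of the `orth` field of `Cert` (decidable). -/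
def OrthP (D : ChevalleyDatum) (r s : ℕ) : Prop :=
  ∃ γ ∈ List.range D.nroots, D.pairing γ r = 0 ∧ D.pairing γ s ≠ 0 ∧ (D.pairing γ s).natAbs ≤ 3

instance (D : ChevalleyDatum) (r s : ℕ) : Decidable (OrthP D r s) := by
  unfold OrthP; infer_instance

/-- List form of the first alternative of the `full` field of `Cert` (decidable). -/
def FullP (D : ChevalleyDatum) (r : ℕ) : Prop :=
  ∃ γ ∈ List.range D.nroots, D.pairing γ r = 1 ∨ D.pairing γ r = -1

instance (D : ChevalleyDatum) (r : ℕ) : Decidable (FullP D r) := by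
  unfold FullP; infer_instance

/-- The `padd` field of `DFacts` for one triple (decidable). -/
def PaddP (D : ChevalleyDatum) (γ r s : ℕ) : Prop :=
  ∀ c ∈ D.commTerms r s, c.1 < D.nroots ∧
      D.pairing γ c.1 = (c.2.2.1 : ℤ) * D.pairing γ r + (c.2.2.2 : ℤ) * D.pairing γ s

instance (D : ChevalleyDatum) (γ r s : ℕ) : Decidable (PaddP D γ r s) := by
  unfold PaddP; infer_instance

theorem orth_of_orthP {D : ChevalleyDatum} {r s : ℕ} (h : OrthP D r s) :
    ∃ γ < D.nroots, D.pairing γ r = 0 ∧ D.pairing γ s ≠ 0 ∧ (D.pairing γ s).natAbs ≤ 3 := by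
  obtain ⟨γ, hγ, h⟩ := h
  exact ⟨γ, List.mem_range.mp hγ, h⟩

theorem full_of_fullP {D : ChevalleyDatum} {r : ℕ} (h : FullP D r) :
    ∃ γ < D.nroots, D.pairing γ r = 1 ∨ D.pairing γ r = -1 := by
  obtain ⟨γ, hγ, h⟩ := h
  exact ⟨γ, List.mem_range.mp hγ, h⟩

theorem g2_orth' : ∀ r < chevG2.nroots, ∀ s < chevG2.nroots, s ≠ r → s ≠ chevG2.neg r →
    OrthP chevG2 r s := by decide +kernel

theorem g2_full' : ∀ r < chevG2.nroots, FullP chevG2 r := by decide +kernel

theorem g2_cert : Cert chevG2 :=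
  ⟨g2_shape, fun r hr s hs h1 h2 => orth_of_orthP (g2_orth' r hr s hs h1 h2),
    fun r hr => Or.inl (full_of_fullP (g2_full' r hr))⟩

theorem g2_neg : ∀ r < chevG2.nroots, chevG2.neg (chevG2.neg r) = r := by decide +kernel

theorem g2_pself : ∀ r < chevG2.nroots, chevG2.pairing r r = 2 := by decide +kernel

theorem g2_padd : ∀ γ < chevG2.nroots, ∀ r < chevG2.nroots, ∀ s < chevG2.nroots,
    PaddP chevG2 γ r s := by decide +kernel

theorem g2_dfacts : DFacts chevG2 := ⟨g2_padd, g2_pself⟩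

/-- Universality of the group presented by (R1), (R2) of type `G₂`, `|K| > 4`. -/
theorem g2_universal {K : Type*} [Field K] (hK : ∃ s : Finset K, 4 < s.card)
    {G₁ E : Type*} [Group G₁] [Group E] (π₁ : E →* G₁) (hπ : Function.Surjective π₁)
    (hc : π₁.ker ≤ Subgroup.center E) (σ : chevG2.SteinbergCover K →* G₁) :
    ∃! τ : chevG2.SteinbergCover K →* E, π₁.comp τ = σ :=
  Cfsg.Agent.Helper64.STUMain.cover_universal chevG2
    (Cfsg.Agent.Helper36.STUGSYS.cover_gsys chevG2 (by simp) hK) g2_dfacts g2_cert g2_neg hK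
    π₁ hπ hc σ

end Cfsg.Agent.Helper64.STUG2
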