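import Cfsg.Agent.Helper64.UCDefs
import Cfsg.Agent.Helper36.StCover
import Cfsg.Agent.Helper91.STUA1
import Cfsg.Agent.Helper91.STUA2
import Cfsg.Agent.Helper91.STUF1
import Cfsg.Agent.Helper91.STUF2
import Cfsg.Agent.Helper67.STUC0
import Cfsg.Agent.Helper67.STUC1
import Cfsg.Agent.Helper36.STUGSYS
import Cfsg.Agent.Helper36.STUT1
import Cfsg.Agent.Helper36.STURU
import Cfsg.Agent.Helper36.STURT
import Cfsg.Agent.Helper57.STUS4B
import Cfsg.Agent.Helper46.STULU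
import Cfsg.Agent.Helper53.STULT
import Cfsg.Agent.Helper53.STUS3
import Cfsg.Agent.Helper53.STUS4A
import Cfsg.Agent.Helper57.STUS12
import Cfsg.Agent.Helper91.STUC1B

/-!
# CALL S2100 / S2398 (helper64): Steinberg's universality theorem (Lectures on Chevalley groups,
Theorem 10) for the group presented by the relations (R1), (R2), over a field with more than four
elements -- assembly of the pieces.

`exists_rel`: a central extension of a `GSys` has lifts of the root elements satisfying (R1), (R2).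
`cover_section`: every central extension of the presented group splits.
`cover_universal`: universality (the statement of S2398, for a datum with a table certificate).
-/

set_option autoImplicit false

namespace Cfsg.Agent.Helper64.STUMain

open Cfsg Cfsg.Lie Cfsg.Agent.Helper36 Cfsg.Agent.Helper64.UC
open Cfsg.Agent.Helper91.STUA1 Cfsg.Agent.Helper91.STUA2 Cfsg.Agent.Helper91.STUF1 Cfsg.Agent.Helper91.STUF2 Cfsg.Agent.Helper67.STUC0 Cfsg.Agent.Helper67.STUC1 Cfsg.Agent.Helper36.STUGSYS Cfsg.Agent.Helper36.STUT1 Cfsg.Agent.Helper36.STURU Cfsg.Agent.Helper36.STURT Cfsg.Agent.Helper57.STUS4B Cfsg.Agent.Helper46.STULU Cfsg.Agent.Helper53.STULT Cfsg.Agent.Helper53.STUS3 Cfsg.Agent.Helper53.STUS4A Cfsg.Agent.Helper57.STUS12 Cfsg.Agent.Helper91.STUC1B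

section

variable {K : Type*} [Field K] {Γ : Type*} [Group Γ] {E : Type*} [Group E]

theorem gsys_zero {D : ChevalleyDatum} {x : ℕ → K → Γ} (G : GSys D x) (r : ℕ) : x r (0 : K) = 1 := by
  have h := G.add r 0 0
  rw [add_zero] at h
  exact mul_eq_left.mp h

theorem gsys_inv {D : ChevalleyDatum} {x : ℕ → K → Γ} (G : GSys D x) (r : ℕ) (t : K) :
    (x r t)⁻¹ = x r (-t) := by
  apply inv_eq_of_mul_eq_one_right
  rw [G.add, add_neg_cancel, gsys_zero G]

theorem diag_ne_zero {D : ChevalleyDatum} {x : ℕ → K → Γ} (G : GSys D x) {h : Γ} {χ : ℕ → K}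
    (hd : Diag D.nroots x h χ) {s : ℕ} (hs : s < D.nroots) : χ s ≠ 0 := by
  intro h0
  have h1 := hd s hs 1
  rw [h0, zero_mul, gsys_zero G] at h1
  have h2 : x s (1 : K) = 1 := by
    have e : x s (1 : K) = h⁻¹ * (h * x s 1 * h⁻¹) * h := by group
    rw [e, h1]; group
  exact one_ne_zero (G.inj s hs 1 h2)

theorem diag_inv {D : ChevalleyDatum} {x : ℕ → K → Γ} (G : GSys D x) {h : Γ} {χ : ℕ → K}
    (hd : Diag D.nroots x h χ) {s : ℕ} (hs : s < D.nroots) (u : K) :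
    h⁻¹ * x s u * h = x s ((χ s)⁻¹ * u) := by
  have h1 := hd s hs ((χ s)⁻¹ * u)
  rw [← mul_assoc, mul_inv_cancel₀ (diag_ne_zero G hd hs), one_mul] at h1
  rw [← h1]; group

theorem mem_center_of_gen {D : ChevalleyDatum} {x : ℕ → K → Γ} (G : GSys D x) {z : Γ}
    (hz : ∀ s < D.nroots, ∀ u : K, z * x s u * z⁻¹ = x s u) : z ∈ Subgroup.center Γ := by
  rw [Subgroup.mem_center_iff]
  intro g
  have hg : g ∈ Subgroup.closure {g : Γ | ∃ r < D.nroots, ∃ t : K, g = x r t} := by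
    rw [G.gen]; trivial
  have key : z * g * z⁻¹ = g := by
    induction hg using Subgroup.closure_induction with
    | mem y hy => obtain ⟨r, hr, t, rfl⟩ := hy; exact hz r hr t
    | one => group
    | mul a b _ _ iha ihb =>
      have e : z * (a * b) * z⁻¹ = (z * a * z⁻¹) * (z * b * z⁻¹) := by group
      rw [e, iha, ihb]
    | inv a _ iha =>
      have e : z * a⁻¹ * z⁻¹ = (z * a * z⁻¹)⁻¹ := by group
      rw [e, iha]
  calc g * z = (z * g * z⁻¹) * z := by rw [key]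
    _ = z * g := by group

/-- The commutator of two torus elements is central. -/
theorem diag_comm_center {D : ChevalleyDatum} {x : ℕ → K → Γ} (G : GSys D x) {h₁ h₂ : Γ}
    {χ₁ χ₂ : ℕ → K} (hd₁ : Diag D.nroots x h₁ χ₁) (hd₂ : Diag D.nroots x h₂ χ₂) :
    h₁⁻¹ * (h₂ * h₁ * h₂⁻¹) ∈ Subgroup.center Γ := by
  apply mem_center_of_gen G
  intro s hs u
  have e : h₁⁻¹ * (h₂ * h₁ * h₂⁻¹) * x s u * (h₁⁻¹ * (h₂ * h₁ * h₂⁻¹))⁻¹ =
      h₁⁻¹ * (h₂ * (h₁ * (h₂⁻¹ * x s u * h₂) * h₁⁻¹) * h₂⁻¹) * h₁ := by group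
  rw [e, diag_inv G hd₂ hs, hd₁ s hs, hd₂ s hs, diag_inv G hd₁ hs]
  congr 1
  have n1 := diag_ne_zero G hd₁ hs
  have n2 := diag_ne_zero G hd₂ hs
  field_simp

/-- The lifts `y r t = [lift h_r, lift x_r(t/(c-1))]`. -/
theorem exists_lift0 {D : ChevalleyDatum} {x : ℕ → K → Γ} (G : GSys D x) (F : DFacts D)
    (ψ : E →* Γ) (hψ : Function.Surjective ψ) (hc : ψ.ker ≤ Subgroup.center E) {a₀ : K}
    (ha0 : a₀ ≠ 0) (ha2 : a₀ ^ (2 : ℤ) ≠ 1) :
    ∃ y : ℕ → K → E, (∀ r, ¬ r < D.nroots → ∀ t : K, y r t = 1) ∧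
      (∀ r < D.nroots, ∀ t : K, ψ (y r t) = x r t) ∧
      (∀ (h : Γ) (χ : ℕ → K), Diag D.nroots x h χ → ∀ e : E, ψ e = h →
        ∀ r < D.nroots, ∀ t : K, e * y r t * e⁻¹ = y r (χ r * t)) ∧
      (∀ r < D.nroots, (∀ t u : K, Commute (y r t) (y r u)) →
        ∀ t u : K, y r t * y r u = y r (t + u)) := by
  classical
  choose lf hlf using hψ
  have htor : ∀ r : ℕ, ∃ h : Γ, r < D.nroots → Diag D.nroots x h (fun s => a₀ ^ D.pairing r s) := by
    intro r
    by_cases hr : r < D.nroots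
    · obtain ⟨h, hh⟩ := G.tor r hr a₀ ha0
      exact ⟨h, fun _ => hh⟩
    · exact ⟨1, fun h => absurd h hr⟩
  choose hh hhd using htor
  have hc1 : a₀ ^ (2 : ℤ) - 1 ≠ 0 := sub_ne_zero.mpr ha2
  let y : ℕ → K → E := fun r t =>
    if r < D.nroots then
      lf (hh r) * lf (x r (t / (a₀ ^ (2 : ℤ) - 1))) * (lf (hh r))⁻¹ *
        (lf (x r (t / (a₀ ^ (2 : ℤ) - 1))))⁻¹
    else 1
  have hy : ∀ r < D.nroots, ∀ t : K, y r t =
      lf (hh r) * lf (x r (t / (a₀ ^ (2 : ℤ) - 1))) * (lf (hh r))⁻¹ *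
        (lf (x r (t / (a₀ ^ (2 : ℤ) - 1))))⁻¹ := fun r hr t => if_pos hr
  -- the action of `h_r` on `x_r`
  have hact : ∀ r < D.nroots, ∀ v : K, hh r * x r v * (hh r)⁻¹ = x r (a₀ ^ (2 : ℤ) * v) := by
    intro r hr v
    have h1 := hhd r hr r hr v
    simp only [F.pself r hr] at h1
    exact h1
  have hmap : ∀ r < D.nroots, ∀ t : K, ψ (y r t) = x r t := by
    intro r hr t
    rw [hy r hr, map_mul, map_mul, map_mul, map_inv, map_inv, hlf, hlf, hact r hr, gsys_inv G,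
      G.add]
    congr 1
    generalize a₀ ^ (2 : ℤ) = c at hc1
    have e : c * (t / (c - 1)) + -(t / (c - 1)) = (c - 1) * (t / (c - 1)) := by ring
    rw [e, mul_comm]
    exact div_mul_cancel₀ t hc1
  refine ⟨y, fun r hr t => if_neg hr, hmap, ?_, ?_⟩
  · intro h χ hd e he r hr t
    rw [hy r hr, hy r hr]
    set A := lf (hh r) with hA
    set B := lf (x r (t / (a₀ ^ (2 : ℤ) - 1))) with hB
    set B' := lf (x r (χ r * t / (a₀ ^ (2 : ℤ) - 1))) with hB'
    -- `e A e⁻¹ = A ζ` with `ζ` central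
    have hζ : A⁻¹ * (e * A * e⁻¹) ∈ Subgroup.center E := by
      apply center_of_map ψ (fun g => ⟨lf g, hlf g⟩) hc G.perf
      rw [map_mul, map_inv, map_mul, map_mul, map_inv, he, hA, hlf]
      exact diag_comm_center G (hhd r hr) hd
    have hζ' := Subgroup.mem_center_iff.mp hζ
    have h1 : e * (A * B * A⁻¹ * B⁻¹) * e⁻¹ =
        (A * (A⁻¹ * (e * A * e⁻¹))) * (e * B * e⁻¹) * (A * (A⁻¹ * (e * A * e⁻¹)))⁻¹ *
          (e * B * e⁻¹)⁻¹ := by group
    have h2 : (A * (A⁻¹ * (e * A * e⁻¹))) * (e * B * e⁻¹) * (A * (A⁻¹ * (e * A * e⁻¹)))⁻¹ *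
          (e * B * e⁻¹)⁻¹ = A * (e * B * e⁻¹) * A⁻¹ * (e * B * e⁻¹)⁻¹ := by
      generalize A⁻¹ * (e * A * e⁻¹) = ζ at hζ'
      have h3 := hζ' (e * B * e⁻¹)
      calc A * ζ * (e * B * e⁻¹) * (A * ζ)⁻¹ * (e * B * e⁻¹)⁻¹
          = A * ((e * B * e⁻¹) * ζ) * ζ⁻¹ * A⁻¹ * (e * B * e⁻¹)⁻¹ := by
            rw [h3]; group
        _ = A * (e * B * e⁻¹) * A⁻¹ * (e * B * e⁻¹)⁻¹ := by group
    rw [h1, h2]
    apply comm_lift_eq ψ hc rfl
    rw [map_mul, map_mul, map_inv, he, hB, hB', hlf, hlf, hd r hr, mul_div_assoc]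
  · intro r hr hcomm t u
    rw [hy r hr, hy r hr, hy r hr]
    set A := lf (hh r) with hA
    set Bt := lf (x r (t / (a₀ ^ (2 : ℤ) - 1))) with hBt
    set Bu := lf (x r (u / (a₀ ^ (2 : ℤ) - 1))) with hBu
    -- `Bt` commutes with `y r u`
    have h1 : Bt * (A * Bu * A⁻¹ * Bu⁻¹) = (A * Bu * A⁻¹ * Bu⁻¹) * Bt := by
      have hk : Bt * (y r (t / (a₀ ^ (2 : ℤ) - 1)))⁻¹ ∈ Subgroup.center E := by
        apply hc
        rw [MonoidHom.mem_ker, map_mul, map_inv, hmap r hr, hBt, hlf, mul_inv_cancel]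
      have hk' := Subgroup.mem_center_iff.mp hk
      have h2 := (hcomm (t / (a₀ ^ (2 : ℤ) - 1)) u).eq
      rw [hy r hr u] at h2
      have h3 := hk' (A * Bu * A⁻¹ * Bu⁻¹)
      generalize y r (t / (a₀ ^ (2 : ℤ) - 1)) = Y at h2 h3
      generalize A * Bu * A⁻¹ * Bu⁻¹ = W at h2 h3 ⊢
      calc Bt * W = (Bt * Y⁻¹) * (Y * W) := by group
        _ = (Bt * Y⁻¹) * (W * Y) := by rw [h2]
        _ = (W * (Bt * Y⁻¹)) * Y := by rw [← mul_assoc, ← h3]
        _ = W * Bt := by group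
    have h4 : A * (Bt * Bu) * A⁻¹ * (Bt * Bu)⁻¹ =
        (A * Bt * A⁻¹ * Bt⁻¹) * (Bt * (A * Bu * A⁻¹ * Bu⁻¹) * Bt⁻¹) := by group
    have h5 : A * lf (x r ((t + u) / (a₀ ^ (2 : ℤ) - 1))) * A⁻¹ *
        (lf (x r ((t + u) / (a₀ ^ (2 : ℤ) - 1))))⁻¹ = A * (Bt * Bu) * A⁻¹ * (Bt * Bu)⁻¹ := by
      apply comm_lift_eq ψ hc rfl
      rw [map_mul, hBt, hBu, hlf, hlf, hlf, G.add, add_div]
    rw [h5, h4, h1]
    group

/-! ### The relations -/

theorem good_c0 {D : ChevalleyDatum} {y : ℕ → K → E} {p q : ℕ} (h : Good D y p q)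
    (h0 : D.commTerms p q = []) : ∀ t u : K, y q u * y p t = y p t * y q u := by
  intro t u
  have h1 := h t u
  unfold ChevalleyDatum.commWord at h1
  rw [h0, List.map_nil, sW_nil, mul_one] at h1
  exact h1

theorem commTerms_of_sig1 {D : ChevalleyDatum} {p q k : ℕ} (h : sig D p q = [(k, 1, 1)]) :
    ∃ C : ℤ, D.commTerms p q = [(k, C, 1, 1)] := by
  unfold sig at h
  rcases hl : D.commTerms p q with _ | ⟨⟨k', C, i, j⟩, _ | ⟨d, l⟩⟩
  · rw [hl] at h; simp at h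
  · rw [hl] at h
    simp only [List.map_cons, List.map_nil, List.cons.injEq, Prod.mk.injEq, and_true] at h
    obtain ⟨rfl, rfl, rfl⟩ := h
    exact ⟨C, rfl⟩
  · rw [hl] at h; simp at h

theorem good_c1 {D : ChevalleyDatum} {y : ℕ → K → E} {p q k : ℕ} (h : Good D y p q)
    (hsig : sig D p q = [(k, 1, 1)]) :
    ∃ N : K, ∀ t u : K, y q u * y p t = y p t * y q u * y k (N * (-t) * u) := by
  obtain ⟨C, hC⟩ := commTerms_of_sig1 hsig
  refine ⟨(C : K), fun t u => ?_⟩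
  have h1 := h t u
  unfold ChevalleyDatum.commWord at h1
  rw [hC] at h1
  simp only [List.map_cons, List.map_nil, sW_cons, sW_nil, mul_one, pow_one] at h1
  exact h1

theorem vp_symm {D : ChevalleyDatum} (hneg : ∀ r < D.nroots, D.neg (D.neg r) = r) {r s : ℕ}
    (hv : VP D r s) : VP D s r := by
  obtain ⟨hr, hs, h1, h2⟩ := hv
  refine ⟨hs, hr, fun h => h1 h.symm, fun h => h2 ?_⟩
  rw [h, hneg s hs]

theorem tor_pair {D : ChevalleyDatum} {x : ℕ → K → Γ} (G : GSys D x) (F : DFacts D)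
    (C : Cert D) (hK : ∃ s : Finset K, 4 < s.card) {r s : ℕ} (hv : VP D r s) :
    ∃ (h : Γ) (χ : ℕ → K), Diag D.nroots x h χ ∧ χ r = 1 ∧ χ s ≠ 1 ∧
      ∀ p < D.nroots, ∀ q < D.nroots, ∀ c ∈ D.commTerms p q,
        χ c.1 = χ p ^ c.2.2.1 * χ q ^ c.2.2.2 := by
  obtain ⟨hr, hs, h1, h2⟩ := hv
  obtain ⟨γ, hγ, g0, g1, g3⟩ := C.orth r hr s hs h1 h2
  obtain ⟨a, ha, ha1⟩ := exists_pow_ne_one hK _ g1 g3
  exact exists_tor G F hr hs hγ g0 ha ha1

theorem good_all {D : ChevalleyDatum} {x : ℕ → K → Γ} {ψ : E →* Γ} {y : ℕ → K → E}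
    (G : GSys D x) (F : DFacts D) (C : Cert D)
    (hneg : ∀ r < D.nroots, D.neg (D.neg r) = r) (hK : ∃ s : Finset K, 4 < s.card)
    (hψ : Function.Surjective ψ) (hc : ψ.ker ≤ Subgroup.center E) (L : LSys D x ψ y) :
    ∀ r s, VP D r s → Good D y r s := by
  have step0 : ∀ p q, Is0 D p q → Good D y p q := by
    rintro p q ⟨hv, h0⟩
    obtain ⟨h, χ, hd, hp1, hq1, hm⟩ := tor_pair G F C hK hv
    apply good_of_add_u G F hψ hc L hv hd hp1 hq1 (fun c hc' => hm p hv.1 q hv.2.1 c hc')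
    intro t u u'
    unfold ChevalleyDatum.commWord
    rw [h0]
    simp only [List.map_nil, sW_nil, mul_one]
    exact L.add q u u'
  have c0 : ∀ p q, Is0 D p q → ∀ t u : K, y q u * y p t = y p t * y q u :=
    fun p q h => good_c0 (step0 p q h) h.2
  have step1 : ∀ p q k, Is1 D p q k → Good D y p q := by
    rintro p q k ⟨hv, hsig, hqk⟩
    obtain ⟨h, χ, hd, hp1, hq1, hm⟩ := tor_pair G F C hK hv
    apply good_of_add_u G F hψ hc L hv hd hp1 hq1 (fun c hc' => hm p hv.1 q hv.2.1 c hc')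
    exact s1_add D y L.add hsig (c0 q k hqk)
  have c1 : ∀ p q k, Is1 D p q k →
      ∃ N : K, ∀ t u : K, y q u * y p t = y p t * y q u * y k (N * (-t) * u) :=
    fun p q k h => good_c1 (step1 p q k h) h.2.1
  intro r s hv
  have hv' := hv
  obtain ⟨hr, hs, h1, h2⟩ := hv'
  obtain ⟨h, χ, hd, hp1, hq1, hm⟩ := tor_pair G F C hK hv
  obtain ⟨h', χ', hd', hp1', hq1', hm'⟩ := tor_pair G F C hK (vp_symm hneg hv)
  have hmr := fun c hc' => hm r hr s hs c hc'
  have hmr' := fun c hc' => hm' r hr s hs c hc'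
  rcases C.shape r hr s hs h1 h2 with hS | hS | hS | hS | hS | hS | hS
  · apply step0 r s ⟨hv, ?_⟩
    unfold sig at hS
    exact List.map_eq_nil_iff.mp hS
  · obtain ⟨hsig, a0⟩ := hS
    exact step1 r s _ ⟨hv, hsig, a0⟩
  · obtain ⟨hsig, a1, a2, a3⟩ := hS
    apply good_of_add_u G F hψ hc L hv hd hp1 hq1 hmr
    exact s2a_add D y L.add hsig (c0 _ _ a1) (c0 _ _ a2) (c0 _ _ a3)
  · obtain ⟨hsig, a1, a2, a3⟩ := hS
    apply good_of_add_t G F hψ hc L hv hd' hp1' hq1' hmr'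
    exact s2b_add D y L.add hsig (c0 _ _ a1) (c0 _ _ a2) (c0 _ _ a3)
  · obtain ⟨hsig, b1, a2, a3, a4, a5, a6⟩ := hS
    obtain ⟨N, cN⟩ := c1 _ _ _ b1
    apply good_of_add_u G F hψ hc L hv hd hp1 hq1 hmr
    apply add_u_of_res G F L hv
    intro t u u'
    obtain ⟨P, hP⟩ := s3_res D y L.add hsig N cN (c0 _ _ a2) (c0 _ _ a3) (c0 _ _ a4)
      (c0 _ _ a5) (c0 _ _ a6) t u u'
    exact ⟨_, a3.1.2.1, P, hP⟩
  · obtain ⟨hsig, b1, b2, a1, a2, a4, a13, a14, a23, a24, a34⟩ := hS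
    obtain ⟨N, cN⟩ := c1 _ _ _ b1
    obtain ⟨M, cM⟩ := c1 _ _ _ b2
    apply good_of_add_u G F hψ hc L hv hd hp1 hq1 hmr
    apply add_u_of_res G F L hv
    intro t u u'
    obtain ⟨P, hP⟩ := s4a_res D y L.add hsig N M cN cM (c0 _ _ a1) (c0 _ _ a2) (c0 _ _ a4)
      (c0 _ _ a13) (c0 _ _ a14) (c0 _ _ a23) (c0 _ _ a24) (c0 _ _ a34) t u u'
    exact ⟨_, a4.1.2.1, P, hP⟩
  · obtain ⟨hsig, b1, b2, a1, a2, a4, a13, a14, a23, a24, a34⟩ := hS
    obtain ⟨N, cN⟩ := c1 _ _ _ b1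
    obtain ⟨M, cM⟩ := c1 _ _ _ b2
    apply good_of_add_t G F hψ hc L hv hd' hp1' hq1' hmr'
    apply add_t_of_res G F L hv
    intro t t' u
    obtain ⟨P, hP⟩ := s4b_res D y L.add hsig N M cN cM (c0 _ _ a1) (c0 _ _ a2) (c0 _ _ a4)
      (c0 _ _ a13) (c0 _ _ a14) (c0 _ _ a23) (c0 _ _ a24) (c0 _ _ a34) t t' u
    exact ⟨_, a4.1.2.1, P, hP⟩

/-- All relations (R1), (R2) lift to a central extension. -/
theorem exists_rel {D : ChevalleyDatum} {x : ℕ → K → Γ} (G : GSys D x) (F : DFacts D)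
    (C : Cert D) (hneg : ∀ r < D.nroots, D.neg (D.neg r) = r)
    (hK : ∃ s : Finset K, 4 < s.card) (ψ : E →* Γ) (hψ : Function.Surjective ψ)
    (hc : ψ.ker ≤ Subgroup.center E) :
    ∃ y : ℕ → K → E, (∀ r, ¬ r < D.nroots → ∀ t : K, y r t = 1) ∧
      (∀ r < D.nroots, ∀ t : K, ψ (y r t) = x r t) ∧
      (∀ (r : ℕ) (t u : K), y r t * y r u = y r (t + u)) ∧
      ∀ r s, VP D r s → Good D y r s := by
  obtain ⟨a₀, ha0, ha2⟩ := exists_pow_ne_one hK 2 (by norm_num) (by norm_num)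
  obtain ⟨c₀, hc0, hc1, hc2⟩ := exists_c0 hK
  obtain ⟨y, hy1, hmap, hequiv, hadd'⟩ := exists_lift0 G F ψ hψ hc ha0 ha2
  have hz : ∀ p q, Is0 D p q → ∀ t u : K, y q u * y p t = y p t * y q u := by
    rintro p q ⟨hv, h0⟩ t u
    obtain ⟨h, χ, hd, hp1, hq1, -⟩ := tor_pair G F C hK hv
    exact comm_zero G ψ hψ hc y hmap hequiv hv h0 hd hp1 hq1 t u
  have hself : ∀ r < D.nroots, ∀ t u : K, Commute (y r t) (y r u) := by
    intro r hr t u
    rcases C.full r hr with ⟨γ, hγ, hp⟩ | ⟨a, ha, b, hb, p, hp, C1, C2, hv, hab, hC2, i1, i2, i3⟩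
    · apply comm_self G ψ hψ hc y hmap hequiv hr _ hc0 hc1 hc2
      intro c hcne
      rcases hp with hp | hp
      · obtain ⟨h, hd⟩ := G.tor γ hγ c hcne
        exact ⟨h, _, hd, by simp [hp]⟩
      · obtain ⟨h, hd⟩ := G.tor γ hγ c⁻¹ (inv_ne_zero hcne)
        exact ⟨h, _, hd, by simp [hp]⟩
    · exact comm_self_spec G ψ hc y hmap hr hp hv hab hC2 (hz r a i1) (hz r b i2) (hz r p i3)
        t u
  have hadd : ∀ (r : ℕ) (t u : K), y r t * y r u = y r (t + u) := by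
    intro r t u
    by_cases hr : r < D.nroots
    · exact hadd' r hr (hself r hr) t u
    · rw [hy1 r hr, hy1 r hr, hy1 r hr, one_mul]
  have L : LSys D x ψ y := ⟨hmap, hequiv, hadd⟩
  exact ⟨y, hy1, hmap, hadd, good_all G F C hneg hK hψ hc L⟩

end


section

variable {K : Type*} [Field K] {E : Type*} [Group E]

theorem lift_stX (D : ChevalleyDatum) (y : ℕ → K → E)
    (hy1 : ∀ r, ¬ r < D.nroots → ∀ t : K, y r t = 1) (r : ℕ) (t : K) :
    FreeGroup.lift (fun p : Fin D.nroots × K => y p.1.val p.2) (D.stX r t) = y r t := by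
  unfold ChevalleyDatum.stX
  split_ifs with h
  · rw [FreeGroup.lift_apply_of]
  · rw [map_one, hy1 r h]

theorem lift_stWord (D : ChevalleyDatum) (y : ℕ → K → E)
    (hy1 : ∀ r, ¬ r < D.nroots → ∀ t : K, y r t = 1) (w : List (ℕ × K)) :
    FreeGroup.lift (fun p : Fin D.nroots × K => y p.1.val p.2) (D.stWord w) = sW y w := by
  unfold ChevalleyDatum.stWord sW
  rw [map_list_prod, List.map_map]
  congr 1
  apply List.map_congr_left
  intro p _
  exact lift_stX D y hy1 p.1 p.2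

/-- Every central extension of the group presented by (R1), (R2) splits. -/
theorem cover_section (D : ChevalleyDatum) (G : GSys D (D.scGen K)) (F : DFacts D)
    (C : Cert D) (hneg : ∀ r < D.nroots, D.neg (D.neg r) = r)
    (hK : ∃ s : Finset K, 4 < s.card) (ψ : E →* D.SteinbergCover K)
    (hψ : Function.Surjective ψ) (hc : ψ.ker ≤ Subgroup.center E) :
    ∃ s : D.SteinbergCover K →* E, ψ.comp s = MonoidHom.id _ := by
  obtain ⟨y, hy1, hmap, hadd, hgood⟩ := exists_rel G F C hneg hK ψ hψ hc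
  have hrel : ∀ w ∈ D.steinbergRelsAB K,
      FreeGroup.lift (fun p : Fin D.nroots × K => y p.1.val p.2) w = 1 := by
    rintro w (⟨r, t₁, t₂, hr, rfl⟩ | ⟨r, s, t, u, hr, hs, h1, h2, rfl⟩)
    · rw [map_mul, map_mul, map_inv, lift_stX D y hy1, lift_stX D y hy1, lift_stX D y hy1, hadd,
        mul_inv_cancel]
    · rw [map_mul, map_mul, map_mul, map_mul, map_inv, map_inv, map_inv, lift_stX D y hy1,
        lift_stX D y hy1, lift_stWord D y hy1]
      have h3 := hgood r s ⟨hr, hs, h1, h2⟩ t u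
      have e : (y s u)⁻¹ * (y r t)⁻¹ * y s u * y r t * (sW y (D.commWord K r s t u))⁻¹ =
          (y s u)⁻¹ * (y r t)⁻¹ * (y s u * y r t) * (sW y (D.commWord K r s t u))⁻¹ := by
        group
      rw [e, h3]
      group
  refine ⟨PresentedGroup.toGroup hrel, ?_⟩
  apply PresentedGroup.ext
  intro p
  rw [MonoidHom.comp_apply, PresentedGroup.toGroup.of, MonoidHom.id_apply, hmap p.1.val p.1.isLt]
  unfold ChevalleyDatum.scGen ChevalleyDatum.stX
  rw [dif_pos p.1.isLt]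
  rfl

/-- Universality (the statement of S2398 for a datum with a certificate). -/
theorem cover_universal (D : ChevalleyDatum) (G : GSys D (D.scGen K)) (F : DFacts D)
    (C : Cert D) (hneg : ∀ r < D.nroots, D.neg (D.neg r) = r)
    (hK : ∃ s : Finset K, 4 < s.card) {G₁ : Type*} [Group G₁] (π₁ : E →* G₁)
    (hπ : Function.Surjective π₁) (hc : π₁.ker ≤ Subgroup.center E)
    (σ : D.SteinbergCover K →* G₁) : ∃! τ : D.SteinbergCover K →* E, π₁.comp τ = σ := by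
  -- the pull-back
  let P : Subgroup (E × D.SteinbergCover K) :=
    (π₁.comp (MonoidHom.fst E (D.SteinbergCover K))).eqLocus
      (σ.comp (MonoidHom.snd E (D.SteinbergCover K)))
  let ψ : P →* D.SteinbergCover K := (MonoidHom.snd E (D.SteinbergCover K)).comp P.subtype
  have hP : ∀ p : P, π₁ p.1.1 = σ p.1.2 := fun p => p.2
  have hψ : Function.Surjective ψ := by
    intro g
    obtain ⟨e, he⟩ := hπ (σ g)
    exact ⟨⟨(e, g), he⟩, rfl⟩
  have hcψ : ψ.ker ≤ Subgroup.center P := by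
    intro p hp
    rw [MonoidHom.mem_ker] at hp
    have hp2 : p.1.2 = 1 := hp
    have hp1 : p.1.1 ∈ Subgroup.center E := by
      apply hc
      rw [MonoidHom.mem_ker, hP p, hp2, map_one]
    rw [Subgroup.mem_center_iff]
    intro q
    apply Subtype.ext
    apply Prod.ext
    · exact Subgroup.mem_center_iff.mp hp1 q.1.1
    · change q.1.2 * p.1.2 = p.1.2 * q.1.2
      rw [hp2, mul_one, one_mul]
  obtain ⟨s, hs⟩ := cover_section D G F C hneg hK ψ hψ hcψ
  have hs' : ∀ g, (s g).1.2 = g := fun g => DFunLike.congr_fun hs g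
  refine ⟨((MonoidHom.fst E (D.SteinbergCover K)).comp P.subtype).comp s, ?_, ?_⟩
  · apply MonoidHom.ext
    intro g
    change π₁ (s g).1.1 = σ g
    rw [hP (s g), hs' g]
  · intro τ hτ
    have hτ' : ∀ g, π₁ (τ g) = σ g := fun g => DFunLike.congr_fun hτ g
    set τ₀ := ((MonoidHom.fst E (D.SteinbergCover K)).comp P.subtype).comp s with hτ₀
    have hτ₀' : ∀ g, π₁ (τ₀ g) = σ g := by
      intro g
      change π₁ (s g).1.1 = σ g
      rw [hP (s g), hs' g]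
    have hle : commutator (D.SteinbergCover K) ≤ τ.eqLocus τ₀ := by
      rw [commutator_def, Subgroup.commutator_le]
      intro a _ b _
      change τ (a * b * a⁻¹ * b⁻¹) = τ₀ (a * b * a⁻¹ * b⁻¹)
      rw [map_mul, map_mul, map_mul, map_inv, map_inv, map_mul, map_mul, map_mul, map_inv,
        map_inv]
      apply comm_lift_eq π₁ hc
      · rw [hτ', hτ₀']
      · rw [hτ', hτ₀']
    rw [G.perf] at hle
    apply MonoidHom.ext
    intro g
    exact hle (Subgroup.mem_top g)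

end


end Cfsg.Agent.Helper64.STUMain
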