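-- helper64: in SU_3(5) the normaliser of a subgroup of order 27 (a Sylow 3-subgroup, of shape
-- 3^(1+2) with normaliser 3^(1+2):Q_8 inside 3.M_10) is not a maximal subgroup.
import Cfsg.Agent.Helper64.SU3Data25E

set_option autoImplicit false
set_option maxRecDepth 100000
open Cfsg Cfsg.Geo Matrix

namespace Cfsg.Agent.Helper64.SU3

open Cfsg.Agent.Helper97
open scoped Pointwise

/-! ### Matrices over the model field -/

theorem e6_d_inj : ∀ i j : Fin 3, i ≠ j →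
    (![(⟨1, 0⟩ : K25), ⟨0, 1⟩, ⟨4, 4⟩] : Fin 3 → K25) i ≠ ![(⟨1, 0⟩ : K25), ⟨0, 1⟩, ⟨4, 4⟩] j := by
  decide

/-- A matrix commuting with `hd = diag(1, ω, ω²)` is diagonal. -/
theorem e6_diag_of_comm (M : Matrix (Fin 3) (Fin 3) K25) (h : M * D25M.hd = D25M.hd * M) :
    ∃ c0 c1 c2 : K25, M = Matrix.diagonal ![c0, c1, c2] := by
  refine ⟨M 0 0, M 1 1, M 2 2, ?_⟩
  rw [D25E.hd_diag] at h
  have key : ∀ i j, M i j * (![(⟨1, 0⟩ : K25), ⟨0, 1⟩, ⟨4, 4⟩] : Fin 3 → K25) j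
      = (![(⟨1, 0⟩ : K25), ⟨0, 1⟩, ⟨4, 4⟩] : Fin 3 → K25) i * M i j := by
    intro i j
    have := congrFun (congrFun h i) j
    rwa [Matrix.mul_diagonal, Matrix.diagonal_mul] at this
  apply Matrix.ext
  intro i j
  by_cases hij : i = j
  · subst hij
    rw [Matrix.diagonal_apply_eq]
    fin_cases i <;> rfl
  · rw [Matrix.diagonal_apply_ne _ hij]
    have h1 := key i j
    have h2 : M i j * ((![(⟨1, 0⟩ : K25), ⟨0, 1⟩, ⟨4, 4⟩] : Fin 3 → K25) j
        - (![(⟨1, 0⟩ : K25), ⟨0, 1⟩, ⟨4, 4⟩] : Fin 3 → K25) i) = 0 := by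
      rw [mul_sub, h1]
      ring
    rcases mul_eq_zero.mp h2 with h3 | h3
    · exact h3
    · exact absurd (sub_eq_zero.mp h3).symm (e6_d_inj i j hij)

/-- The diagonal special unitary matrices that conjugate `hs` into the group of order 27 lie in
that group. -/
theorem e6_core (M : Matrix (Fin 3) (Fin 3) K25) (hc : M * D25M.hd = D25M.hd * M)
    (hu : M.transpose * M.map (fun x => x ^ 5) = 1) (hdet : M.det = 1)
    (m : ℕ) (hm : m < 27) (hs : M * D25M.hs = D25E.pe m * M) :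
    ∃ n < 27, M = D25E.pe n := by
  obtain ⟨c0, c1, c2, rfl⟩ := e6_diag_of_comm M hc
  have hu' : ∀ i, (![c0, c1, c2] : Fin 3 → K25) i * ((![c0, c1, c2] : Fin 3 → K25) i) ^ 5 = 1 := by
    intro i
    have := congrFun (congrFun hu i) i
    rw [Matrix.diagonal_transpose, Matrix.diagonal_map (by simp), Matrix.diagonal_mul_diagonal,
      Matrix.diagonal_apply_eq, Matrix.one_apply_eq] at this
    exact this
  have hd' : c0 * c1 * c2 = 1 := by
    rw [Matrix.det_diagonal, Fin.prod_univ_three] at hdet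
    exact hdet
  exact D25E.diag_case c0 (D25E.mu6_mem c0 (hu' 0)) c1 (D25E.mu6_mem c1 (hu' 1)) c2
    (D25E.mu6_mem c2 (hu' 2)) hd' m hm hs

def e6dw : Matrix (Fin 3) (Fin 3) K25 := !![⟨0, 1⟩, 0, 0; 0, 1, 0; 0, 0, 1]
def e6dwi : Matrix (Fin 3) (Fin 3) K25 := !![⟨4, 4⟩, 0, 0; 0, 1, 0; 0, 0, 1]
theorem e6dw_inv : e6dwi * e6dw = 1 := by decide
theorem e6dw_unitary : e6dw.transpose * e6dw.map (fun x => x ^ 5) = 1 := by decide
theorem e6dw_det : e6dw.det = ⟨0, 1⟩ := by decide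
theorem e6_om : (⟨0, 1⟩ : K25) ^ 3 = 1 ∧ (⟨0, 1⟩ : K25) ≠ 1 := by decide

variable {F : Type*} [Field F]

/-! ### Pulling back unitary matrices -/

theorem su3_unitary_pullback {K : Type*} [Field K] {q : ℕ} {σ : F ≃+* F} (hσ : IsSigma q σ)
    (ψ : K →+* F) (g : GL (Fin 3) F) (hg : g ∈ GU 3 F q) (M : Matrix (Fin 3) (Fin 3) K)
    (hM : M.map ψ = (g : Matrix (Fin 3) (Fin 3) F)) :
    M.transpose * M.map (fun x => x ^ q) = 1 := by
  have h1 := hσ.GU_matrix g hg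
  rw [← hM] at h1
  have e1 : (M.map ψ).map σ = (M.map (fun x => x ^ q)).map ψ := by
    ext i j
    simp only [Matrix.map_apply, hσ.pow, map_pow]
  rw [e1, ← Matrix.transpose_map, ← su3_map_mul, ← su3_map_one ψ] at h1
  exact su3_map_inj ψ h1

theorem su3_det_pullback {K : Type*} [Field K] (ψ : K →+* F) (g : GL (Fin 3) F)
    (hg : g ∈ specialLinear (Fin 3) F) (M : Matrix (Fin 3) (Fin 3) K)
    (hM : M.map ψ = (g : Matrix (Fin 3) (Fin 3) F)) : M.det = 1 := by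
  have h1 := hg
  rw [specialLinear, MonoidHom.mem_ker] at h1
  have h2 := congrArg Units.val h1
  rw [Matrix.GeneralLinearGroup.val_det_apply, Units.val_one, ← hM] at h2
  have h3 : ψ M.det = (M.map ψ).det := RingHom.map_det ψ M
  apply ψ.injective
  rw [h3, h2, map_one]

/-! ### The order of `SU_3(5)` is not divisible by 81 -/

theorem su3_not81_five [Fintype F] (hF : Fintype.card F = 5 ^ 2) :
    ¬ 81 ∣ Nat.card ↥(GU 3 F 5 ⊓ specialLinear (Fin 3) F) := by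
  classical
  obtain ⟨σ, hσ⟩ := exists_sigma hF
  have hc : Fintype.card K25 = Fintype.card F := by rw [hF]; exact su3_card_K25
  obtain ⟨ψe⟩ : Nonempty (K25 ≃+* F) := ⟨FiniteField.ringEquivOfCardEq hc⟩
  obtain ⟨ψ, hψdef⟩ : ∃ ψ : K25 →+* F, ψ = ψe.toRingHom := ⟨_, rfl⟩
  let φ : ↥(GU 3 F 5) →* Fˣ := (Matrix.GeneralLinearGroup.det).comp (GU 3 F 5).subtype
  have hker : Nat.card φ.ker = Nat.card ↥(GU 3 F 5 ⊓ specialLinear (Fin 3) F) := by
    have e : φ.ker = (GU 3 F 5 ⊓ specialLinear (Fin 3) F).subgroupOf (GU 3 F 5) := by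
      ext x
      rw [MonoidHom.mem_ker, Subgroup.mem_subgroupOf, Subgroup.mem_inf]
      constructor
      · intro h
        refine ⟨x.2, ?_⟩
        rw [specialLinear, MonoidHom.mem_ker]
        exact h
      · intro h
        have := h.2
        rw [specialLinear, MonoidHom.mem_ker] at this
        exact this
    rw [e]
    exact Nat.card_congr (Subgroup.subgroupOfEquivOfLe inf_le_left).toEquiv
  have hmul : Nat.card φ.ker * Nat.card φ.range = 2268000 := by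
    rw [← su3_card_GU_five hF, ← Subgroup.index_ker]
    exact Subgroup.card_mul_index φ.ker
  let d0 : ↥(GU 3 F 5) := ⟨su3GL ψ e6dw e6dwi e6dw_inv, su3GL_mem_GU ψ hσ _ _ _ e6dw_unitary⟩
  have hd0 : ((φ d0 : Fˣ) : F) = ψ ⟨0, 1⟩ := by
    show ((Matrix.GeneralLinearGroup.det (su3GL ψ e6dw e6dwi e6dw_inv) : Fˣ) : F) = _
    rw [Matrix.GeneralLinearGroup.val_det_apply, su3GL_val]
    have h3 : ψ e6dw.det = (e6dw.map ψ).det := RingHom.map_det ψ e6dw
    rw [e6dw_det] at h3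
    exact h3.symm
  have h3 : 3 ∣ Nat.card φ.range := by
    haveI : Fact (Nat.Prime 3) := ⟨by norm_num⟩
    have ho : orderOf (⟨φ d0, ⟨d0, rfl⟩⟩ : φ.range) = 3 := by
      apply orderOf_eq_prime
      · apply Subtype.ext
        apply Units.ext
        rw [Subgroup.coe_pow, Units.val_pow_eq_pow_val, hd0, ← map_pow, e6_om.1, map_one]
        rfl
      · intro h
        have h' : ((φ d0 : Fˣ) : F) = 1 := by
          have := congrArg (fun y : φ.range => ((y : Fˣ) : F)) h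
          simpa using this
        rw [hd0] at h'
        exact e6_om.2 (ψ.injective (by rw [h', map_one]))
    have hdvd := orderOf_dvd_natCard (⟨φ d0, ⟨d0, rfl⟩⟩ : φ.range)
    rwa [ho] at hdvd
  intro h81
  rw [← hker] at h81
  obtain ⟨a, ha⟩ := h81
  obtain ⟨b, hb⟩ := h3
  rw [ha, hb] at hmul
  have : 243 ∣ 2268000 := ⟨a * b, by rw [← hmul]; ring⟩
  revert this
  decide

/-! ### Sylow conjugacy -/

theorem su3_sylow_conj {Γ : Type*} [Group Γ] [Finite Γ] (G N P : Subgroup Γ) (p k : ℕ)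
    [Fact p.Prime] (hNG : N ≤ G) (hPG : P ≤ G) (hN : Nat.card N = p ^ k)
    (hP : Nat.card P = p ^ k) (hG : ¬ p ^ (k + 1) ∣ Nat.card G) :
    ∃ g ∈ G, ∀ x, x ∈ N ↔ g⁻¹ * x * g ∈ P := by
  classical
  have hp : p.Prime := Fact.out
  have hne : Nat.card G ≠ 0 := Nat.card_pos.ne'
  have hfac : (Nat.card G).factorization p = k := by
    have h1 : p ^ k ∣ Nat.card G := by
      rw [← hN]
      exact Subgroup.card_dvd_of_le hNG
    have hle : k ≤ (Nat.card G).factorization p :=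
      (Nat.Prime.pow_dvd_iff_le_factorization hp hne).mp h1
    have hnot : ¬ k + 1 ≤ (Nat.card G).factorization p := fun h2 =>
      hG ((Nat.Prime.pow_dvd_iff_le_factorization hp hne).mpr h2)
    omega
  have hcN : Nat.card (N.subgroupOf G) = p ^ (Nat.card G).factorization p := by
    rw [hfac, ← hN]
    exact Nat.card_congr (Subgroup.subgroupOfEquivOfLe hNG).toEquiv
  have hcP : Nat.card (P.subgroupOf G) = p ^ (Nat.card G).factorization p := by
    rw [hfac, ← hP]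
    exact Nat.card_congr (Subgroup.subgroupOfEquivOfLe hPG).toEquiv
  let SN : Sylow p G := Sylow.ofCard (N.subgroupOf G) hcN
  let SP : Sylow p G := Sylow.ofCard (P.subgroupOf G) hcP
  obtain ⟨g, hg⟩ := MulAction.exists_smul_eq G SP SN
  have h3 : ((g • SP : Sylow p G) : Subgroup G) = MulAut.conj g • (SP : Subgroup G) :=
    Sylow.coe_subgroup_smul
  have hmem : ∀ x : G, x ∈ N.subgroupOf G ↔ g⁻¹ * x * g ∈ P.subgroupOf G := by
    intro x
    have h4 : x ∈ ((g • SP : Sylow p G) : Subgroup G) ↔ x ∈ N.subgroupOf G := by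
      rw [hg]
      rfl
    rw [← h4, h3, Subgroup.mem_pointwise_smul_iff_inv_smul_mem]
    have e : (MulAut.conj g)⁻¹ • x = g⁻¹ * x * g := by
      rw [MulAut.smul_def, MulAut.conj_inv_apply]
    rw [e]
    rfl
  refine ⟨g, g.2, ?_⟩
  intro x
  constructor
  · intro hx
    have h5 := (hmem ⟨x, hNG hx⟩).mp (Subgroup.mem_subgroupOf.mpr hx)
    exact Subgroup.mem_subgroupOf.mp h5
  · intro hx
    have hxG : x ∈ G := by
      have h6 : (g : Γ) * ((g : Γ)⁻¹ * x * (g : Γ)) * (g : Γ)⁻¹ ∈ G :=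
        G.mul_mem (G.mul_mem g.2 (hPG hx)) (G.inv_mem g.2)
      have e : (g : Γ) * ((g : Γ)⁻¹ * x * (g : Γ)) * (g : Γ)⁻¹ = x := by group
      rwa [e] at h6
    have h5 := (hmem ⟨x, hxG⟩).mpr (Subgroup.mem_subgroupOf.mpr hx)
    exact Subgroup.mem_subgroupOf.mp h5

/-! ### The explicit group of order 27 -/

section explicit

variable (ψ : K25 →+* F)

/-- The 27 explicit elements. -/
def e6p (n : Fin 27) : GL (Fin 3) F :=
  su3GL ψ (D25E.pe n) (D25E.pei n) (D25E.pe_inv n n.2)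

/-- The conjugating elements. -/
def e6k (n : Fin 27) : GL (Fin 3) F :=
  su3GL ψ (D25E.ke n) (D25E.kei n) (D25E.ke_inv n n.2)

theorem e6p_val (n : Fin 27) :
    ((e6p ψ n : GL (Fin 3) F) : Matrix (Fin 3) (Fin 3) F) = (D25E.pe n).map ψ := rfl

theorem e6k_val (n : Fin 27) :
    ((e6k ψ n : GL (Fin 3) F) : Matrix (Fin 3) (Fin 3) F) = (D25E.ke n).map ψ := rfl

theorem e6p_inv_val (n : Fin 27) :
    (((e6p ψ n)⁻¹ : GL (Fin 3) F) : Matrix (Fin 3) (Fin 3) F) = (D25E.pei n).map ψ := rfl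

/-- The explicit Sylow 3-subgroup. -/
def e6P : Subgroup (GL (Fin 3) F) where
  carrier := Set.range (e6p ψ)
  mul_mem' := by
    rintro _ _ ⟨a, rfl⟩ ⟨b, rfl⟩
    obtain ⟨h1, h2⟩ := D25E.pe_mul a a.2 b b.2
    refine ⟨⟨D25E.mulT a b, h1⟩, ?_⟩
    apply Units.ext
    rw [Units.val_mul, e6p_val, e6p_val, e6p_val, ← su3_map_mul, h2]
  one_mem' := by
    refine ⟨⟨0, by norm_num⟩, ?_⟩
    apply Units.ext
    rw [e6p_val, D25E.pe_zero, su3_map_one, Units.val_one]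
  inv_mem' := by
    rintro _ ⟨a, rfl⟩
    obtain ⟨h1, h2⟩ := D25E.pe_invIdx a a.2
    refine ⟨⟨D25E.invL.getD a 0, h1⟩, ?_⟩
    apply Units.ext
    rw [e6p_val, e6p_inv_val, h2]

theorem e6p_mem (n : Fin 27) : e6p ψ n ∈ e6P ψ := ⟨n, rfl⟩

theorem e6P_mem_iff (x : GL (Fin 3) F) : x ∈ e6P ψ ↔ ∃ n, e6p ψ n = x := Iff.rfl

theorem e6p_inj : Function.Injective (e6p ψ) := by
  intro a b h
  have h1 := congrArg Units.val h
  rw [e6p_val, e6p_val] at h1
  exact Fin.ext (D25E.pe_inj a a.2 b b.2 (su3_map_inj ψ h1))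

theorem e6P_card : Nat.card (e6P ψ) = 27 := by
  have h : Nat.card (Set.range (e6p ψ)) = 27 := by
    rw [Nat.card_range_of_injective (e6p_inj ψ)]
    simp
  exact h

theorem e6p_mem_SU {σ : F ≃+* F} (hσ : IsSigma 5 σ) (n : Fin 27) :
    e6p ψ n ∈ GU 3 F 5 ⊓ specialLinear (Fin 3) F :=
  ⟨su3GL_mem_GU ψ hσ _ _ _ (D25E.pe_unitary n n.2), su3GL_mem_SL ψ _ _ _ (D25E.pe_det n n.2)⟩

theorem e6k_mem_SU {σ : F ≃+* F} (hσ : IsSigma 5 σ) (n : Fin 27) :
    e6k ψ n ∈ GU 3 F 5 ⊓ specialLinear (Fin 3) F :=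
  ⟨su3GL_mem_GU ψ hσ _ _ _ (D25E.ke_unitary n n.2), su3GL_mem_SL ψ _ _ _ (D25E.ke_det n n.2)⟩

theorem e6p_mem_stab (n : Fin 27) : e6p ψ n ∈ su3Stab (su3Pts ψ D25M.sig 36) :=
  su3GL_mem_stab ψ _ _ _ D25M.sig 36 (D25E.peP.getD n []) (D25E.peC.getD n [])
    (D25E.pe_sig n n.2) 3 (by norm_num) (D25E.pe_pow n n.2)

theorem e6k_mem_stab (n : Fin 27) : e6k ψ n ∈ su3Stab (su3Pts ψ D25M.sig 36) :=
  su3GL_mem_stab ψ _ _ _ D25M.sig 36 (D25E.keP.getD n []) (D25E.keC.getD n [])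
    (D25E.ke_sig n n.2) 12 (by norm_num) (D25E.ke_pow n n.2)

end explicit

/-- A special unitary matrix normalising the explicit group of order 27 stabilises the 36
points. -/
theorem e6_norm_le_stab {σ : F ≃+* F} (hσ : IsSigma 5 σ) (ψe : K25 ≃+* F) (h : GL (Fin 3) F)
    (hG : h ∈ GU 3 F 5 ⊓ specialLinear (Fin 3) F)
    (hn : h ∈ Subgroup.normalizer (e6P ψe.toRingHom : Set (GL (Fin 3) F))) :
    h ∈ su3Stab (su3Pts ψe.toRingHom D25M.sig 36) := by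
  obtain ⟨ψ, hψdef⟩ : ∃ ψ : K25 →+* F, ψ = ψe.toRingHom := ⟨_, rfl⟩
  rw [← hψdef] at hn ⊢
  have hmem3 : h * e6p ψ ⟨3, by norm_num⟩ * h⁻¹ ∈ e6P ψ :=
    (Subgroup.mem_normalizer_iff.mp hn (e6p ψ ⟨3, by norm_num⟩)).mp (e6p_mem ψ _)
  have hmem1 : h * e6p ψ ⟨1, by norm_num⟩ * h⁻¹ ∈ e6P ψ :=
    (Subgroup.mem_normalizer_iff.mp hn (e6p ψ ⟨1, by norm_num⟩)).mp (e6p_mem ψ _)
  obtain ⟨n, hn1⟩ := (e6P_mem_iff ψ _).mp hmem3
  obtain ⟨m, hm1⟩ := (e6P_mem_iff ψ _).mp hmem1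
  obtain ⟨M, hM⟩ : ∃ M : Matrix (Fin 3) (Fin 3) K25,
      M.map ψ = (h : Matrix (Fin 3) (Fin 3) F) := by
    refine ⟨(h : Matrix (Fin 3) (Fin 3) F).map ψe.symm, ?_⟩
    ext i j
    simp [hψdef]
  obtain ⟨Mi, hMi⟩ : ∃ Mi : Matrix (Fin 3) (Fin 3) K25,
      Mi.map ψ = ((h⁻¹ : GL (Fin 3) F) : Matrix (Fin 3) (Fin 3) F) := by
    refine ⟨((h⁻¹ : GL (Fin 3) F) : Matrix (Fin 3) (Fin 3) F).map ψe.symm, ?_⟩
    ext i j
    simp [hψdef]
  have hMiM : Mi * M = 1 := by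
    apply su3_map_inj ψ
    rw [su3_map_mul, hM, hMi, su3_map_one, ← Units.val_mul, inv_mul_cancel, Units.val_one]
  have hMd : D25E.pe n * M = M * D25M.hd := by
    apply su3_map_inj ψ
    have e : e6p ψ n * h = h * e6p ψ ⟨3, by norm_num⟩ := by rw [hn1]; group
    have e2 := congrArg Units.val e
    rw [Units.val_mul, Units.val_mul, e6p_val, e6p_val] at e2
    rw [su3_map_mul, su3_map_mul, hM, ← D25E.pe_hd]
    exact e2
  have hMs : D25E.pe m * M = M * D25M.hs := by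
    apply su3_map_inj ψ
    have e : e6p ψ m * h = h * e6p ψ ⟨1, by norm_num⟩ := by rw [hm1]; group
    have e2 := congrArg Units.val e
    rw [Units.val_mul, Units.val_mul, e6p_val, e6p_val] at e2
    rw [su3_map_mul, su3_map_mul, hM, ← D25E.pe_hs]
    exact e2
  by_cases hcen : (n : ℕ) % 9 = 0
  · exfalso
    have h1 := D25E.pe_central n n.2 hcen
    have h2 : D25E.pe n = D25M.hd := by
      have h3 : Mi * (D25E.pe n * M) = Mi * (M * D25M.hd) := by rw [hMd]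
      rw [← Matrix.mul_assoc Mi M, hMiM, Matrix.one_mul, h1, Matrix.smul_mul, Matrix.one_mul,
        Matrix.mul_smul, hMiM] at h3
      rw [h1]
      exact h3
    rw [← D25E.pe_hd] at h2
    have h4 := D25E.pe_inj n n.2 3 (by norm_num) h2
    omega
  · set h' : GL (Fin 3) F := e6k ψ n * h with hh'
    have hh'G : h' ∈ GU 3 F 5 ⊓ specialLinear (Fin 3) F :=
      Subgroup.mul_mem _ (e6k_mem_SU ψ hσ n) hG
    have hM' : (D25E.ke n * M).map ψ = (h' : Matrix (Fin 3) (Fin 3) F) := by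
      rw [hh', Units.val_mul, e6k_val, su3_map_mul, hM]
    have hu := su3_unitary_pullback hσ ψ h' hh'G.1 _ hM'
    have hdet := su3_det_pullback ψ h' hh'G.2 _ hM'
    have hc : D25E.ke n * M * D25M.hd = D25M.hd * (D25E.ke n * M) := by
      rw [Matrix.mul_assoc, ← hMd, ← Matrix.mul_assoc, D25E.ke_conj n n.2 hcen, Matrix.mul_assoc]
    obtain ⟨hm', hnorm⟩ := D25E.ke_norm n n.2 m m.2
    have hs : D25E.ke n * M * D25M.hs = D25E.pe (D25E.normT n m) * (D25E.ke n * M) := by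
      rw [Matrix.mul_assoc, ← hMs, ← Matrix.mul_assoc, hnorm, Matrix.mul_assoc]
    obtain ⟨n', hn', hMn'⟩ := e6_core _ hc hu hdet _ hm' hs
    have hh'p : h' = e6p ψ ⟨n', hn'⟩ := by
      apply Units.ext
      rw [← hM', hMn', e6p_val]
    have hh'L : h' ∈ su3Stab (su3Pts ψ D25M.sig 36) := by
      rw [hh'p]
      exact e6p_mem_stab ψ _
    exact (Subgroup.mul_mem_cancel_left _ (e6k_mem_stab ψ n)).mp hh'L

/-- **Piece E6 of S5778.**  In `SU_3(5)` the normaliser of a subgroup of order 27 is not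
maximal. -/
theorem su3_five_extra_false [Fintype F] (hF : Fintype.card F = 5 ^ 2)
    (H : Subgroup (GL (Fin 3) F)) (hH : IsMaximalIn (GU 3 F 5 ⊓ specialLinear (Fin 3) F) H)
    (N : Subgroup (GL (Fin 3) F)) (hNU : N ≤ GU 3 F 5) (hNS : N ≤ specialLinear (Fin 3) F)
    (hN : Nat.card N = 27)
    (hHeq : H = subgroupNormalizer N ⊓ (GU 3 F 5 ⊓ specialLinear (Fin 3) F)) : False := by
  classical
  obtain ⟨σ, hσ⟩ := exists_sigma hF
  have hc : Fintype.card K25 = Fintype.card F := by rw [hF]; exact su3_card_K25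
  obtain ⟨ψe⟩ : Nonempty (K25 ≃+* F) := ⟨FiniteField.ringEquivOfCardEq hc⟩
  obtain ⟨ψ, hψdef⟩ : ∃ ψ : K25 →+* F, ψ = ψe.toRingHom := ⟨_, rfl⟩
  have hψ : Function.Surjective ψ := hψdef ▸ ψe.surjective
  obtain ⟨G, hGdef⟩ : ∃ G : Subgroup (GL (Fin 3) F), G = GU 3 F 5 ⊓ specialLinear (Fin 3) F :=
    ⟨_, rfl⟩
  rw [← hGdef] at hH hHeq
  haveI : Fact (Nat.Prime 3) := ⟨by norm_num⟩
  have hNG : N ≤ G := hGdef ▸ le_inf hNU hNS
  have hPG : e6P ψ ≤ G := by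
    intro x hx
    obtain ⟨n, rfl⟩ := (e6P_mem_iff ψ x).mp hx
    rw [hGdef]
    exact e6p_mem_SU ψ hσ n
  have h81 : ¬ 3 ^ (3 + 1) ∣ Nat.card G := by
    rw [hGdef]
    exact (by norm_num : (81 : ℕ) = 3 ^ (3 + 1)) ▸ su3_not81_five hF
  obtain ⟨g, hgG, hconj⟩ := su3_sylow_conj G N (e6P ψ) 3 3 hNG hPG (by rw [hN]; norm_num)
    (by rw [e6P_card]; norm_num) h81
  obtain ⟨L, hLdef⟩ : ∃ L : Subgroup (GL (Fin 3) F), L = su3Stab (su3Pts ψ D25M.sig 36) :=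
    ⟨_, rfl⟩
  obtain ⟨L', hL'def⟩ : ∃ L' : Subgroup (GL (Fin 3) F),
      L' = L.comap (MulAut.conj g⁻¹).toMonoidHom := ⟨_, rfl⟩
  have hL' : ∀ x, x ∈ L' ↔ g⁻¹ * x * g ∈ L := by
    intro x
    rw [hL'def, Subgroup.mem_comap]
    simp
  have hnormP : ∀ x, x ∈ Subgroup.normalizer (N : Set (GL (Fin 3) F)) →
      g⁻¹ * x * g ∈ Subgroup.normalizer (e6P ψ : Set (GL (Fin 3) F)) := by
    intro x hxn
    rw [Subgroup.mem_normalizer_iff]
    intro y
    have h1 := hconj (g * y * g⁻¹)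
    have h2 := (Subgroup.mem_normalizer_iff.mp hxn) (g * y * g⁻¹)
    have h3 := hconj (x * (g * y * g⁻¹) * x⁻¹)
    have e1 : g⁻¹ * (g * y * g⁻¹) * g = y := by group
    have e2 : g⁻¹ * (x * (g * y * g⁻¹) * x⁻¹) * g = g⁻¹ * x * g * y * (g⁻¹ * x * g)⁻¹ := by
      group
    rw [e1] at h1
    rw [e2] at h3
    exact h1.symm.trans (h2.trans h3)
  have hHL : H ≤ L' := by
    intro x hx
    rw [hHeq] at hx
    obtain ⟨hxn, hxG⟩ := hx
    rw [hL', hLdef, hψdef]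
    apply e6_norm_le_stab hσ ψe (g⁻¹ * x * g)
    · rw [← hGdef]
      exact G.mul_mem (G.mul_mem (G.inv_mem hgG) hxG) hgG
    · rw [← hψdef]
      exact hnormP x hxn
  obtain ⟨z, hzdef⟩ : ∃ z : GL (Fin 3) F, z = su3GL ψ D25M.z D25M.z_i D25M.z_inv := ⟨_, rfl⟩
  obtain ⟨w, hwdef⟩ : ∃ w : GL (Fin 3) F, w = su3GL ψ D25M.wm D25M.wm_i D25M.wm_inv := ⟨_, rfl⟩
  have hzG : z ∈ G := by
    rw [hGdef, hzdef]
    exact ⟨su3GL_mem_GU ψ hσ _ _ _ D25M.z_unitary, su3GL_mem_SL ψ _ _ _ D25M.z_det⟩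
  have hwG : w ∈ G := by
    rw [hGdef, hwdef]
    exact ⟨su3GL_mem_GU ψ hσ _ _ _ D25M.wm_unitary, su3GL_mem_SL ψ _ _ _ D25M.wm_det⟩
  have hzL : z ∈ L := by
    rw [hLdef, hzdef]
    exact su3GL_mem_stab ψ _ _ _ D25M.sig 36 D25M.z_p D25M.z_c D25M.z_sig 2 (by norm_num)
      D25M.z_pow
  have hwL : w ∉ L := by
    rw [hLdef, hwdef]
    exact su3GL_not_mem_stab ψ hψ _ _ _ D25M.sig 36 0 (by norm_num) D25M.wm_not
  have hzN : z ∉ Subgroup.normalizer (e6P ψ : Set (GL (Fin 3) F)) := by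
    intro hz
    have hmem3 : z * e6p ψ ⟨3, by norm_num⟩ * z⁻¹ ∈ e6P ψ :=
      (Subgroup.mem_normalizer_iff.mp hz (e6p ψ ⟨3, by norm_num⟩)).mp (e6p_mem ψ _)
    obtain ⟨n, hn⟩ := (e6P_mem_iff ψ _).mp hmem3
    have e : e6p ψ n * z = z * e6p ψ ⟨3, by norm_num⟩ := by rw [hn]; group
    have e2 := congrArg Units.val e
    rw [Units.val_mul, Units.val_mul, e6p_val, e6p_val, hzdef, su3GL_val] at e2
    apply D25E.z_not n n.2
    apply su3_map_inj ψ
    rw [su3_map_mul, su3_map_mul, ← D25E.pe_hd]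
    exact e2.symm
  refine su3_not_max G H L' hH hHL (g * z * g⁻¹)
    (G.mul_mem (G.mul_mem hgG hzG) (G.inv_mem hgG)) ?_ ?_ (g * w * g⁻¹)
    (G.mul_mem (G.mul_mem hgG hwG) (G.inv_mem hgG)) ?_
  · rw [hL']
    have e : g⁻¹ * (g * z * g⁻¹) * g = z := by group
    rw [e]
    exact hzL
  · intro hzH
    rw [hHeq] at hzH
    apply hzN
    have h1 := hnormP _ hzH.1
    have e : g⁻¹ * (g * z * g⁻¹) * g = z := by group
    rwa [e] at h1
  · rw [hL']
    have e : g⁻¹ * (g * w * g⁻¹) * g = w := by group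
    rw [e]
    exact hwL

end Cfsg.Agent.Helper64.SU3
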