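-- helper64: in SU_3(5) the stabiliser of an orthogonal frame of three non-degenerate lines is not
-- maximal: after a unitary change of basis it is the monomial group, which preserves the 105
-- points of an orbit of 3.A_7.
import Cfsg.Agent.Helper64.SU3Data25

set_option autoImplicit false
set_option maxRecDepth 100000
open Cfsg Cfsg.Geo Matrix

namespace Cfsg.Agent.Helper64.SU3

open Cfsg.Agent.Helper97

variable {F : Type*} [Field F] {K : Type*} [Field K]

/-! ### Matrices mapping a point set into itself -/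

/-- The image of the matrix `M` maps the point set into itself. -/
def su3Maps (ψ : K →+* F) (sig : ℕ → Fin 3 → K) (n : ℕ) (M : Matrix (Fin 3) (Fin 3) K) : Prop :=
  ∀ v ∈ su3Pts ψ sig n, (M.map ψ) *ᵥ v ∈ su3Pts ψ sig n

theorem su3Maps_one (ψ : K →+* F) (sig : ℕ → Fin 3 → K) (n : ℕ) : su3Maps ψ sig n 1 := by
  intro v hv
  rw [su3_map_one, Matrix.one_mulVec]
  exact hv

theorem su3Maps_mul {ψ : K →+* F} {sig : ℕ → Fin 3 → K} {n : ℕ} {A B : Matrix (Fin 3) (Fin 3) K}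
    (hA : su3Maps ψ sig n A) (hB : su3Maps ψ sig n B) : su3Maps ψ sig n (A * B) := by
  intro v hv
  rw [su3_map_mul, ← Matrix.mulVec_mulVec]
  exact hA _ (hB v hv)

theorem su3Maps_pow {ψ : K →+* F} {sig : ℕ → Fin 3 → K} {n : ℕ} {A : Matrix (Fin 3) (Fin 3) K}
    (hA : su3Maps ψ sig n A) (k : ℕ) : su3Maps ψ sig n (A ^ k) := by
  induction k with
  | zero => rw [pow_zero]; exact su3Maps_one ψ sig n
  | succ k ih => rw [pow_succ]; exact su3Maps_mul ih hA

theorem su3Maps_of_data (ψ : K →+* F) (A B : Matrix (Fin 3) (Fin 3) K) (h : B * A = 1)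
    (sig : ℕ → Fin 3 → K) (n : ℕ) (pL : List ℕ) (cL : List K)
    (hp : ∀ i < n, pL.getD i 0 < n ∧ cL.getD i 0 ≠ 0 ∧
      Matrix.mulVec A (sig i) = cL.getD i 0 • sig (pL.getD i 0)) : su3Maps ψ sig n A :=
  su3GL_maps ψ A B h sig n pL cL hp

/-! ### Monomial matrices over `GF(25)` -/

/-- A generator of the group of elements of norm one. -/
def z6 : K25 := ⟨1, 1⟩

/-- The monomial matrix with `e_i ↦ z6 ^ (k i) • e_(p i)`. -/
def mono (p : Fin 3 → Fin 3) (k : Fin 3 → ℕ) : Matrix (Fin 3) (Fin 3) K25 :=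
  Matrix.of fun j i => if j = p i then z6 ^ (k i) else 0

/-- Signed permutation matrices of determinant one. -/
def wL : List (Matrix (Fin 3) (Fin 3) K25) :=
  [1, D25.c3, D25.c3 * D25.c3, D25.t2, D25.t2 * D25.c3, D25.t2 * D25.c3 * D25.c3]

/-- The index of the signed permutation matrix attached to a permutation. -/
def rOf (p0 p1 : Fin 3) : ℕ :=
  if p0 = 0 then (if p1 = 1 then 0 else 4)
  else if p0 = 1 then (if p1 = 0 then 3 else 1) else (if p1 = 0 then 2 else 5)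

theorem norm_one_pow : ∀ a : K25, a * a ^ 5 = 1 → ∃ k : Fin 6, a = z6 ^ (k : ℕ) := by decide

theorem mono_decomp : ∀ p0 p1 p2 : Fin 3, p0 ≠ p1 → p1 ≠ p2 → p0 ≠ p2 → ∀ k0 k1 k2 : Fin 6,
    (mono ![p0, p1, p2] ![(k0 : ℕ), (k1 : ℕ), (k2 : ℕ)]).det = 1 →
    mono ![p0, p1, p2] ![(k0 : ℕ), (k1 : ℕ), (k2 : ℕ)] =
      wL.getD (rOf p0 p1) 1 * D25.d1 ^ ((k0 : ℕ) + if rOf p0 p1 < 3 then 0 else 3) *
        D25.d2 ^ ((k0 : ℕ) + (k1 : ℕ)) := by
  decide

theorem x7_col : ∀ j : Fin 3, D25.x7 j 0 ≠ 0 := by decide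

theorem wL_maps (ψ : K25 →+* F) (r : ℕ) : su3Maps ψ D25.sig 105 (wL.getD r 1) := by
  have hc := su3Maps_of_data ψ _ _ D25.c3_inv D25.sig 105 D25.c3_p D25.c3_c D25.c3_sig
  have ht := su3Maps_of_data ψ _ _ D25.t2_inv D25.sig 105 D25.t2_p D25.t2_c D25.t2_sig
  rcases r with _ | _ | _ | _ | _ | _ | r
  · exact su3Maps_one ψ _ _
  · exact hc
  · exact su3Maps_mul hc hc
  · exact ht
  · exact su3Maps_mul ht hc
  · exact su3Maps_mul (su3Maps_mul ht hc) hc
  · exact su3Maps_one ψ _ _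

/-! ### The frame stabiliser -/

theorem su3_inv_mulVec (g : GL (Fin 3) F) (v : Fin 3 → F) :
    ((g⁻¹ : GL (Fin 3) F) : Matrix (Fin 3) (Fin 3) F) *ᵥ ((g : Matrix (Fin 3) (Fin 3) F) *ᵥ v) = v := by
  rw [Matrix.mulVec_mulVec, ← Units.val_mul, inv_mul_cancel, Units.val_one, Matrix.one_mulVec]

/-- In `SU_3(5)` a maximal subgroup is not the stabiliser of an orthogonal frame of three
non-degenerate lines. -/
theorem su3_five_frame_false [Fintype F] (hF : Fintype.card F = 5 ^ 2)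
    (H : Subgroup (GL (Fin 3) F))
    (hH : IsMaximalIn (GU 3 F 5 ⊓ specialLinear (Fin 3) F) H)
    (D : Fin 3 → Submodule F (Fin 3 → F))
    (hD : IsNondegenerateMDecomposition (hermForm 3 F 5) 1 D)
    (hHeq : H = decompositionStabilizer D ⊓ (GU 3 F 5 ⊓ specialLinear (Fin 3) F)) : False := by
  classical
  obtain ⟨σ, hσ⟩ := exists_sigma hF
  have hS := hσ.isSesq (n := 3)
  have hc : Fintype.card K25 = Fintype.card F := by rw [hF]; exact su3_card_K25
  let ψe : K25 ≃+* F := FiniteField.ringEquivOfCardEq hc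
  let ψ : K25 →+* F := ψe.toRingHom
  have hψ : Function.Surjective ψ := ψe.surjective
  -- frame vectors of norm one
  have hex : ∀ i, ∃ w : Fin 3 → F, w ∈ D i ∧ w ≠ 0 ∧ (∀ x ∈ D i, ∃ c : F, c • w = x) ∧
      hermForm 3 F 5 w w = 1 := by
    intro i
    obtain ⟨v, hv0, hv⟩ := finrank_eq_one_iff'.mp (hD.decomp.finrank_eq i)
    have hv0' : (v : Fin 3 → F) ≠ 0 := fun h => hv0 (Subtype.ext h)
    have hspan : ∀ x ∈ D i, ∃ c : F, c • (v : Fin 3 → F) = x := fun x hx => by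
      obtain ⟨c, hc⟩ := hv ⟨x, hx⟩
      exact ⟨c, congrArg Subtype.val hc⟩
    have hκ : hermForm 3 F 5 (v : Fin 3 → F) v ≠ 0 := by
      obtain ⟨⟨x, hx, hfx⟩, -⟩ := hD.nondegenerate i v v.2 hv0'
      obtain ⟨c, rfl⟩ := hspan x hx
      intro h0
      apply hfx
      rw [hS.smul_left, h0, mul_zero]
    obtain ⟨mu, hmu⟩ := hσ.exists_norm_eq hF (hermForm 3 F 5 (v : Fin 3 → F) v)⁻¹
      (by rw [map_inv₀, hσ.herm_self_fixed]) (inv_ne_zero hκ)
    have hmu0 : mu ≠ 0 := by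
      rintro rfl
      rw [zero_mul] at hmu
      exact inv_ne_zero hκ hmu.symm
    refine ⟨mu • (v : Fin 3 → F), (D i).smul_mem mu v.2, smul_ne_zero hmu0 hv0', ?_, ?_⟩
    · intro x hx
      obtain ⟨c, hc⟩ := hspan x hx
      exact ⟨c * mu⁻¹, by rw [smul_smul, mul_assoc, inv_mul_cancel₀ hmu0, mul_one, hc]⟩
    · rw [hS.smul_left, hS.smul_right, ← mul_assoc, hmu, inv_mul_cancel₀ hκ]
  choose w hwD hw0 hwspan hnorm using hex
  have horth : ∀ i j, i ≠ j → hermForm 3 F 5 (w i) (w j) = 0 := fun i j hij =>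
    hD.orthogonal i j hij (w i) (hwD i) (w j) (hwD j)
  -- the matrix of the frame
  set g0 : Matrix (Fin 3) (Fin 3) F := Matrix.of (fun k i => w i k) with hg0
  have key : g0ᵀ * g0.map σ = 1 := by
    ext i j
    rw [Matrix.mul_apply]
    have h1 : ∑ k, g0ᵀ i k * (g0.map σ) k j = hermForm 3 F 5 (w i) (w j) := by
      rw [hσ.herm_eq]
      rfl
    rw [h1, Matrix.one_apply]
    split_ifs with hij
    · subst hij
      exact hnorm i
    · exact horth i j hij
  have key' : (g0.map σ)ᵀ * g0 = 1 := by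
    have h1 := congrArg Matrix.transpose key
    rwa [Matrix.transpose_mul, Matrix.transpose_transpose, Matrix.transpose_one] at h1
  let g : GL (Fin 3) F := ⟨g0, (g0.map σ)ᵀ, mul_eq_one_comm.mp key', key'⟩
  have hgGU : g ∈ GU 3 F 5 := by
    intro a b
    have h1 := hσ.isSesq.similar_of_gram g0 1
      (by rw [hσ.gram_herm, mul_one, one_smul]; exact key) a b
    rw [one_mul] at h1
    exact h1
  have hge : ∀ i, (g : Matrix (Fin 3) (Fin 3) F) *ᵥ Pi.single i 1 = w i := by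
    intro i
    rw [Matrix.mulVec_single_one]
    rfl
  -- elements of the frame stabiliser are monomial in the frame basis
  have hmon : ∀ h ∈ H, ∃ (π : Equiv.Perm (Fin 3)) (d : Fin 3 → F),
      ∀ j i, ((g⁻¹ * h * g : GL (Fin 3) F) : Matrix (Fin 3) (Fin 3) F) j i
        = if j = π i then d i else 0 := by
    intro h hh
    rw [hHeq] at hh
    obtain ⟨π, hπ⟩ := hh.1
    have hexd : ∀ i, ∃ c : F, c • w (π i) = (h : Matrix (Fin 3) (Fin 3) F) *ᵥ w i := by
      intro i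
      have h1 : (h : Matrix (Fin 3) (Fin 3) F) *ᵥ w i ∈ D (π i) := by
        rw [← hπ i]
        exact Submodule.mem_map_of_mem (hwD i)
      exact hwspan (π i) _ h1
    choose d hd using hexd
    refine ⟨π, d, fun j i => ?_⟩
    have hme : ((g⁻¹ * h * g : GL (Fin 3) F) : Matrix (Fin 3) (Fin 3) F) *ᵥ Pi.single i 1
        = d i • Pi.single (π i) 1 := by
      rw [Units.val_mul, Units.val_mul, ← Matrix.mulVec_mulVec, ← Matrix.mulVec_mulVec, hge,
        ← hd i, Matrix.mulVec_smul, ← hge (π i), su3_inv_mulVec]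
    have h1 := congrFun hme j
    rw [Matrix.mulVec_single_one] at h1
    rw [Matrix.col_apply] at h1
    rw [h1, Pi.smul_apply, Pi.single_apply, smul_eq_mul]
    split_ifs <;> simp
  have hsingle : ∀ j : Fin 3, hermForm 3 F 5 (Pi.single j (1 : F)) (Pi.single j 1) = 1 := by
    intro j
    rw [hσ.herm_eq, Finset.sum_eq_single j]
    · simp
    · intro b _ hb
      simp [Pi.single_apply, hb]
    · intro h
      exact absurd (Finset.mem_univ j) h
  have hd1 := su3Maps_of_data ψ _ _ D25.d1_inv D25.sig 105 D25.d1_p D25.d1_c D25.d1_sig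
  have hd2 := su3Maps_of_data ψ _ _ D25.d2_inv D25.sig 105 D25.d2_p D25.d2_c D25.d2_sig
  have hmaps : ∀ h ∈ H, ∀ v ∈ su3Pts ψ D25.sig 105,
      ((g⁻¹ * h * g : GL (Fin 3) F) : Matrix (Fin 3) (Fin 3) F) *ᵥ v ∈ su3Pts ψ D25.sig 105 := by
    intro h hh
    obtain ⟨π, d, hent⟩ := hmon h hh
    have hhG : h ∈ GU 3 F 5 ⊓ specialLinear (Fin 3) F := hH.1.le hh
    set m : GL (Fin 3) F := g⁻¹ * h * g with hm
    have hmGU : m ∈ GU 3 F 5 :=
      (GU 3 F 5).mul_mem ((GU 3 F 5).mul_mem ((GU 3 F 5).inv_mem hgGU) hhG.1) hgGU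
    have hme : ∀ i, (m : Matrix (Fin 3) (Fin 3) F) *ᵥ Pi.single i 1 = d i • Pi.single (π i) 1 := by
      intro i
      funext j
      rw [Matrix.mulVec_single_one, Matrix.col_apply, hent, Pi.smul_apply, Pi.single_apply,
        smul_eq_mul]
      split_ifs <;> simp
    have hdn : ∀ i, d i * d i ^ 5 = 1 := by
      intro i
      have h1 := hmGU (Pi.single i 1) (Pi.single i 1)
      change hermForm 3 F 5 ((m : Matrix (Fin 3) (Fin 3) F) *ᵥ Pi.single i 1)
        ((m : Matrix (Fin 3) (Fin 3) F) *ᵥ Pi.single i 1)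
        = hermForm 3 F 5 (Pi.single i 1) (Pi.single i 1) at h1
      rw [hme, hS.smul_left, hS.smul_right, hσ.pow, hsingle, hsingle, mul_one] at h1
      exact h1
    have hex2 : ∀ i, ∃ k : Fin 6, d i = ψ (z6 ^ (k : ℕ)) := by
      intro i
      obtain ⟨a, ha⟩ := hψ (d i)
      have h1 : a * a ^ 5 = 1 := by
        apply ψ.injective
        rw [map_mul, map_pow, ha, map_one]
        exact hdn i
      obtain ⟨k, hk⟩ := norm_one_pow a h1
      exact ⟨k, by rw [← ha, hk]⟩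
    choose k hk using hex2
    have hmM : (m : Matrix (Fin 3) (Fin 3) F)
        = (mono ![π 0, π 1, π 2] ![(k 0 : ℕ), (k 1 : ℕ), (k 2 : ℕ)]).map ψ := by
      ext j i
      rw [hent, Matrix.map_apply, mono, Matrix.of_apply]
      have hp : (![π 0, π 1, π 2] : Fin 3 → Fin 3) i = π i := by fin_cases i <;> rfl
      have hkk : (![(k 0 : ℕ), (k 1 : ℕ), (k 2 : ℕ)] : Fin 3 → ℕ) i = (k i : ℕ) := by
        fin_cases i <;> rfl
      rw [hp, hkk]
      split_ifs
      · rw [hk]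
      · rw [map_zero]
    have hdet : (mono ![π 0, π 1, π 2] ![(k 0 : ℕ), (k 1 : ℕ), (k 2 : ℕ)]).det = 1 := by
      apply ψ.injective
      have h1 := RingHom.map_det ψ (mono ![π 0, π 1, π 2] ![(k 0 : ℕ), (k 1 : ℕ), (k 2 : ℕ)])
      rw [h1, RingHom.map_one ψ]
      have h2 : (m : Matrix (Fin 3) (Fin 3) F).det = 1 := by
        have h3 : m ∈ specialLinear (Fin 3) F := by
          have := su3_conj_mem_SU g⁻¹ ((GU 3 F 5).inv_mem hgGU) h hhG
          rw [inv_inv] at this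
          exact this.2
        rw [specialLinear, MonoidHom.mem_ker] at h3
        simpa using congrArg Units.val h3
      rw [← h2, hmM]
      rfl
    have hdec := mono_decomp (π 0) (π 1) (π 2) (π.injective.ne (by decide))
      (π.injective.ne (by decide)) (π.injective.ne (by decide)) (k 0) (k 1) (k 2) hdet
    have hM : su3Maps ψ D25.sig 105 (mono ![π 0, π 1, π 2] ![(k 0 : ℕ), (k 1 : ℕ), (k 2 : ℕ)]) := by
      rw [hdec]
      exact su3Maps_mul (su3Maps_mul (wL_maps ψ _) (su3Maps_pow hd1 _)) (su3Maps_pow hd2 _)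
    intro v hv
    rw [hmM]
    exact hM v hv
  -- the conjugate of `H`
  have hH' := su3_max_conj _ _ hH g⁻¹
    (fun x hx => su3_conj_mem_SU g⁻¹ ((GU 3 F 5).inv_mem hgGU) x hx)
    (fun x hx => by
      have := su3_conj_mem_SU g hgGU x hx
      rwa [inv_inv])
  have hconj : ∀ h : GL (Fin 3) F, (MulAut.conj g⁻¹).toMonoidHom h = g⁻¹ * h * g := by
    intro h
    simp [MulAut.conj_apply]
  have hH'L : H.map (MulAut.conj g⁻¹).toMonoidHom ≤ su3Stab (su3Pts ψ D25.sig 105) := by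
    rintro _ ⟨h, hh, rfl⟩
    rw [hconj]
    intro v
    constructor
    · exact hmaps h hh v
    · intro hv
      have h1 := hmaps h⁻¹ (H.inv_mem hh) _ hv
      have e : g⁻¹ * h⁻¹ * g * (g⁻¹ * h * g) = 1 := by group
      rwa [Matrix.mulVec_mulVec, ← Units.val_mul, e, Units.val_one, Matrix.one_mulVec] at h1
  set X0 := su3GL ψ D25.x7 D25.x7_i D25.x7_inv with hX0
  set W := su3GL ψ D25.w2 D25.w2_i D25.w2_inv with hW
  refine su3_not_max _ _ _ hH' hH'L X0
    ⟨su3GL_mem_GU ψ hσ _ _ _ D25.x7_unitary, su3GL_mem_SL ψ _ _ _ D25.x7_det⟩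
    (su3GL_mem_stab ψ _ _ _ D25.sig 105 D25.x7_p D25.x7_c D25.x7_sig 7 (by norm_num) D25.x7_pow)
    ?_ W ⟨su3GL_mem_GU ψ hσ _ _ _ D25.w2_unitary, su3GL_mem_SL ψ _ _ _ D25.w2_det⟩
    (su3GL_not_mem_stab ψ hψ _ _ D25.w2_inv D25.sig 105 0 (by norm_num) D25.w2_not)
  rintro ⟨h, hh, he⟩
  rw [hconj] at he
  obtain ⟨π, d, hent⟩ := hmon h hh
  rw [he] at hent
  -- the first column of `x7` has three non-zero entries
  obtain ⟨j, hj⟩ : ∃ j : Fin 3, j ≠ π 0 := by
    by_cases h0 : π 0 = 0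
    · exact ⟨1, by rw [h0]; decide⟩
    · exact ⟨0, fun h => h0 h.symm⟩
  have h1 := hent j 0
  rw [if_neg hj, hX0, su3GL_val, Matrix.map_apply] at h1
  exact x7_col j ((map_eq_zero ψ).mp h1)

end Cfsg.Agent.Helper64.SU3
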