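-- helper64: Aschbacher's theorem for SU_3(q), q >= 3 (statement S5778), assembled from the generic
-- prime-dimension analysis (helper97), its n = 3 complements (helper33) and the small-field
-- exceptions, which enter as hypotheses here.
import Cfsg.Agent.Helper33.SU3G2
import Cfsg.Agent.Helper64.SU3Frame
import Cfsg.Agent.Helper64.SU3Field

set_option autoImplicit false
open Cfsg Cfsg.Geo Matrix

namespace Cfsg.Agent.Helper64.SU3

open Cfsg.Agent.Helper97

variable {F : Type*} [Field F]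

theorem su3_arith {p a q : ℕ} (hp : p.Prime) (hq : 3 ≤ q) (hqa : q = p ^ a)
    (hdvd : 3 ∣ p ^ (2 * a) - 1) (hmin : ∀ d : ℕ, 0 < d → d < 2 * a → ¬ 3 ∣ p ^ d - 1) :
    q = p ∧ p % 3 = 2 ∧ (p = 5 ∨ 11 ≤ p) := by
  have ha : 0 < a := by
    rcases Nat.eq_zero_or_pos a with h | h
    · rw [h, pow_zero] at hqa
      omega
    · exact h
  have hp3 : p ≠ 3 := by
    rintro rfl
    have h1 : 3 ∣ 3 ^ (2 * a) := dvd_pow_self 3 (by omega)
    have h2 : 1 ≤ 3 ^ (2 * a) := Nat.one_le_pow _ _ (by norm_num)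
    have h3 : 3 ∣ 1 := by
      have := Nat.dvd_sub h1 hdvd
      rwa [Nat.sub_sub_self h2] at this
    omega
  have hp2 := hp.two_le
  have hmod : p % 3 = 1 ∨ p % 3 = 2 := by
    have h0 : p % 3 ≠ 0 := by
      intro h0
      have h1 : 3 ∣ p := Nat.dvd_of_mod_eq_zero h0
      rcases (Nat.dvd_prime hp).mp h1 with h2 | h2
      · omega
      · exact hp3 h2.symm
    omega
  have h1 : ¬ 3 ∣ p ^ 1 - 1 := hmin 1 (by norm_num) (by omega)
  rw [pow_one] at h1
  have hmod2 : p % 3 = 2 := by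
    rcases hmod with h | h
    · exfalso
      apply h1
      omega
    · exact h
  have ha1 : a = 1 := by
    by_contra hne
    have h2 : ¬ 3 ∣ p ^ 2 - 1 := hmin 2 (by norm_num) (by omega)
    apply h2
    have h3 : p ^ 2 % 3 = 1 := by
      rw [Nat.pow_mod, hmod2]
    have h4 : 1 ≤ p ^ 2 := Nat.one_le_pow _ _ (by omega)
    omega
  subst ha1
  rw [pow_one] at hqa
  subst hqa
  refine ⟨rfl, hmod2, ?_⟩
  by_contra hcon
  push Not at hcon
  obtain ⟨h5, h11⟩ := hcon
  interval_cases q <;> simp_all <;> revert hp <;> decide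

/-- Aschbacher's theorem for `SU_3(q)`, `q ≥ 3`. -/
theorem su3_cases_of [Fintype F] (q : ℕ)
    (hF : Fintype.card F = q ^ 2) (hq : 3 ≤ q) (H : Subgroup (GL (Fin 3) F))
    (hH : IsMaximalIn (GU 3 F q ⊓ specialLinear (Fin 3) F) H)
    (hfield : (q = 3 ∨ q = 5) → ∀ K : Subalgebra F (Matrix (Fin 3) (Fin 3) F),
      IsFieldSubalgebra 3 K → IsAdjointClosedFor (hermForm 3 F q) K →
      H = subalgebraNormalizer K ⊓ (GU 3 F q ⊓ specialLinear (Fin 3) F) → False)
    (hsubfield : (q = 3 ∨ q = 5) → ∀ (F₀ : Subfield F) (P : GL (Fin 3) F),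
      Fintype.card F = Nat.card F₀ ^ 2 → IsFormRationalStructure (hermForm 3 F q) F₀ 1 P →
      H = subfieldSubgroup F₀ P ⊓ (GU 3 F q ⊓ specialLinear (Fin 3) F) → False)
    (hextra : q = 5 → ∀ N : Subgroup (GL (Fin 3) F), N ≤ GU 3 F q →
      N ≤ specialLinear (Fin 3) F → Nat.card N = 27 →
      H = subgroupNormalizer N ⊓ (GU 3 F q ⊓ specialLinear (Fin 3) F) → False) :
    (∃ W : Submodule F (Fin 3 → F), W ≠ ⊥ ∧ IsTotallySingularFor (hermForm 3 F q) W ∧
      H = subspaceStabilizer W ⊓ (GU 3 F q ⊓ specialLinear (Fin 3) F)) ∨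
    (∃ W : Submodule F (Fin 3 → F), W ≠ ⊥ ∧ IsNondegenerateOn (hermForm 3 F q) W ∧
      2 * Module.finrank F W < 3 ∧
      H = subspaceStabilizer W ⊓ (GU 3 F q ⊓ specialLinear (Fin 3) F)) ∨
    (q ≠ 5 ∧ ∃ D : Fin 3 → Submodule F (Fin 3 → F), IsNondegenerateMDecomposition (hermForm 3 F q) 1 D ∧
      H = decompositionStabilizer D ⊓ (GU 3 F q ⊓ specialLinear (Fin 3) F)) ∨
    (q ≠ 3 ∧ q ≠ 5 ∧ ∃ K : Subalgebra F (Matrix (Fin 3) (Fin 3) F), IsFieldSubalgebra 3 K ∧
      IsAdjointClosedFor (hermForm 3 F q) K ∧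
      H = subalgebraNormalizer K ⊓ (GU 3 F q ⊓ specialLinear (Fin 3) F)) ∨
    (∃ (F₀ : Subfield F) (r : ℕ) (P : GL (Fin 3) F), r.Prime ∧ Odd r ∧
      Fintype.card F = Nat.card F₀ ^ r ∧ IsFormRationalStructure (hermForm 3 F q) F₀ 1 P ∧
      H = subfieldSubgroup F₀ P ⊓ (GU 3 F q ⊓ specialLinear (Fin 3) F)) ∨
    (Odd q ∧ 7 ≤ q ∧ ∃ (F₀ : Subfield F) (P : GL (Fin 3) F), Fintype.card F = Nat.card F₀ ^ 2 ∧
      IsFormRationalStructure (hermForm 3 F q) F₀ 1 P ∧
      H = subfieldSubgroup F₀ P ⊓ (GU 3 F q ⊓ specialLinear (Fin 3) F)) ∨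
    (∃ (p : ℕ) (R : Subgroup (GL (Fin 3) F)), p.Prime ∧ q = p ∧ p % 3 = 2 ∧ 11 ≤ p ∧
      IsSymplecticTypeGroup 3 R ∧ ActsAbsolutelyIrreducibly (matrixSet R) ∧
      R ≤ similarityGroup (hermForm 3 F q) ∧
      Nat.card R = 27 ∧ Nat.card (Subgroup.center R) = 3 ∧
      H = subgroupNormalizer R ⊓ (GU 3 F q ⊓ specialLinear (Fin 3) F)) ∨
    InUnitaryResidualClass H := by
  classical
  obtain ⟨σ, hσ⟩ := exists_sigma hF
  obtain ⟨p, hchar⟩ := CharP.exists F
  have hp : p.Prime :=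
    (CharP.char_is_prime_or_zero F p).resolve_right (CharP.char_ne_zero_of_finite F p)
  have hfact : Fact p.Prime := ⟨hp⟩
  have hn : (3 : ℕ).Prime := by norm_num
  have hn2 : 2 ≤ 3 := by norm_num
  have hodd : Odd 3 := by decide
  have hn3 : 3 ≤ 3 := le_refl 3
  have hHG : H ≤ GU 3 F q ⊓ specialLinear (Fin 3) F := hH.1.le
  have hHGU : H ≤ GU 3 F q := hHG.trans inf_le_left
  have hHSL : H ≤ specialLinear (Fin 3) F := hHG.trans inf_le_right
  have hZc : ∀ z ∈ scalars (Fin 3) F, ∀ g : GL (Fin 3) F, z * g = g * z :=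
    fun z hz g => scalars_comm hz g
  -- the subfield branch, with the exceptions removed
  have hsubf : ∀ N : Subgroup (GL (Fin 3) F), (∀ h ∈ H, ∀ x ∈ N, h * x * h⁻¹ ∈ N) → N ≤ GU 3 F q →
      ActsAbsolutelyIrreducibly (matrixSet N) → ∀ F₀ : Subfield F, F₀ ≠ ⊤ →
      RealisableOver F₀ (matrixSet N) →
      (∃ (F₀ : Subfield F) (r : ℕ) (P : GL (Fin 3) F), r.Prime ∧ Odd r ∧
        Fintype.card F = Nat.card F₀ ^ r ∧ IsFormRationalStructure (hermForm 3 F q) F₀ 1 P ∧
        H = subfieldSubgroup F₀ P ⊓ (GU 3 F q ⊓ specialLinear (Fin 3) F)) ∨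
      (Odd q ∧ 7 ≤ q ∧ ∃ (F₀ : Subfield F) (P : GL (Fin 3) F), Fintype.card F = Nat.card F₀ ^ 2 ∧
        IsFormRationalStructure (hermForm 3 F q) F₀ 1 P ∧
        H = subfieldSubgroup F₀ P ⊓ (GU 3 F q ⊓ specialLinear (Fin 3) F)) := by
    intro N hNn hNGU habs F₀ hF₀ hreal
    rcases unitary_subfield_branch hσ hF hn3 hodd H N hH hNn hNGU habs F₀ hF₀ hreal with h5 | h6
    · exact Or.inl h5
    · obtain ⟨hqodd, F₁, P, hcard, hform, hHeq⟩ := h6
      right
      refine ⟨hqodd, ?_, F₁, P, hcard, hform, hHeq⟩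
      by_contra hlt
      have hq35 : q = 3 ∨ q = 5 := by
        obtain ⟨k, hk⟩ := hqodd
        omega
      exact hsubfield hq35 F₁ P hcard hform hHeq
  by_cases hirr : ActsIrreducibly (matrixSet H)
  swap
  · rcases hσ.reducible_cases hodd H hHGU hirr with
      ⟨W, hW0, hW1, hts, hle⟩ | ⟨W, hW0, hW1, hnd, hdim, hle⟩
    · left
      exact ⟨W, hW0, hts, eq_inf_of_isMaximalIn_gen hH hle (hσ.notSU_subspace hF hn2 W hW0 hW1)⟩
    · right; left
      exact ⟨W, hW0, hnd, hdim,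
        eq_inf_of_isMaximalIn_gen hH hle (hσ.notSU_subspace hF hn2 W hW0 hW1)⟩
  have hHZ : ¬ H ≤ scalars (Fin 3) F := not_le_scalars_of_irreducible hn2 H hirr
  obtain ⟨N, hNH, hNn, hNZ, hNmin⟩ := exists_minimal_normal (scalars (Fin 3) F) H hHZ
  have hNGU : N ≤ GU 3 F q := hNH.trans hHGU
  have hNSL : N ≤ specialLinear (Fin 3) F := hNH.trans hHSL
  by_cases hNab : ∀ a ∈ N, ∀ b ∈ N, a * b = b * a
  · rcases abelian_normal_cases_sep hn H N hirr hNn hNab with h | ⟨K, hKdef, h | h⟩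
    · exact absurd h hNZ
    · obtain ⟨D, hD, hHD, hKD, hsep⟩ := h
      right; right; left
      have hDnd := hσ.decomp_orthogonal hodd H hirr hHGU (K : Set (Matrix (Fin 3) (Fin 3) F))
        (fun k hk => hσ.double_centralizer_adj N hNGU (K : Set (Matrix (Fin 3) (Fin 3) F)) hKdef k hk)
        D hD hHD hKD hsep
      have hHeq := eq_inf_of_isMaximalIn_gen hH hHD (Cfsg.Agent.Helper33.su3_notSU_decomp hσ hF hq D hDnd)
      refine ⟨?_, D, hDnd, hHeq⟩
      rintro rfl
      exact su3_five_frame_false hF H hH D hDnd hHeq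
    · obtain ⟨hK, hHK⟩ := h
      right; right; right; left
      have hadj : IsAdjointClosedFor (hermForm 3 F q) K := by
        intro k hk
        exact ⟨(k.map σ)ᵀ,
          hσ.double_centralizer_adj N hNGU (K : Set (Matrix (Fin 3) (Fin 3) F)) hKdef k hk,
          fun u v => hσ.herm_adj k u v⟩
      have hHeq := eq_inf_of_isMaximalIn_gen hH hHK (hσ.notSU_fieldNormalizer hF hn3 K hK.inv
        (not_all_scalar_of_finrank K (by rw [hK.finrank_eq]; exact hn2)))
      refine ⟨?_, ?_, K, hK, hadj, hHeq⟩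
      · intro h3
        exact hfield (Or.inl h3) K hK hadj hHeq
      · intro h5
        exact hfield (Or.inr h5) K hK hadj hHeq
  rcases clifford_dichotomy hn H N hirr hNn with h | ⟨hab, -⟩ | habs
  · exact absurd h hNZ
  · exact absurd hab hNab
  have hCN : ⁅N, N⁆ ≤ N := by
    rw [Subgroup.commutator_le]
    intro a ha b hb
    rw [commutatorElement_def]
    exact N.mul_mem (N.mul_mem (N.mul_mem ha hb) (N.inv_mem ha)) (N.inv_mem hb)
  rcases hNmin ⁅N, N⁆ hCN (commutator_normalized H N hNn) with hC | hC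
  · have hab : ∀ a ∈ N, ∀ b ∈ N, a * b * a⁻¹ * b⁻¹ ∈ scalars (Fin 3) F := by
      intro a ha b hb
      have := Subgroup.commutator_mem_commutator ha hb
      rw [commutatorElement_def] at this
      exact hC this
    rcases Cfsg.Agent.Helper33.su3_extra_unitary (p := p) hσ hF hq H N hNGU hNSL hNn hNZ hNmin hab habs with
      ⟨F₀, hF₀, hreal⟩ | ⟨hsymp, hcard, hcent, hnot, a, hqa, hdvd, hmin⟩
    · rcases hsubf N hNn hNGU habs F₀ hF₀ hreal with h5 | h6
      · right; right; right; right; left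
        exact h5
      · right; right; right; right; right; left
        exact h6
    · right; right; right; right; right; right; left
      have hHeq := eq_inf_of_isMaximalIn_gen hH (le_subgroupNormalizer H N hNn) hnot
      obtain ⟨hqp, hp3, hp5⟩ := su3_arith hp hq hqa hdvd hmin
      have hcard' : Nat.card N = 27 := by rw [hcard]; norm_num
      rcases hp5 with hp5 | hp11
      · exfalso
        exact hextra (hqp.trans hp5) N hNGU hNSL hcard' hHeq
      · exact ⟨p, N, hp, hqp, hp3, hp11, hsymp, habs,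
          hNGU.trans IsSigma.GU_le_similarity, hcard', hcent, hHeq⟩
  · have hperf : ⁅N, N⁆ = N := hC
    have hirrN : ActsIrreducibly (matrixSet N) := habs.1
    have hcentN : ∀ c : GL (Fin 3) F, (∀ s ∈ N, c * s = s * c) → c ∈ scalars (Fin 3) F := by
      intro c hc
      obtain ⟨a, ha⟩ := habs.2 (c : Matrix (Fin 3) (Fin 3) F) (by
        rintro _ ⟨s, hs, rfl⟩
        rw [← Units.val_mul, ← Units.val_mul, hc s hs])
      exact (scalar_mem_scalars_iff c).mpr ⟨a, ha⟩
    have hdich : ∀ S : Subgroup (GL (Fin 3) F), S ≤ N → (∀ x ∈ N, ∀ s ∈ S, x * s * x⁻¹ ∈ S) →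
        S ≤ scalars (Fin 3) F ∨ (∀ a ∈ S, ∀ b ∈ S, a * b = b * a) ∨
          (∀ c : GL (Fin 3) F, (∀ s ∈ S, c * s = s * c) → c ∈ scalars (Fin 3) F) := by
      intro S _ hSn
      rcases clifford_dichotomy hn N S hirrN hSn with h | ⟨h, -⟩ | h
      · exact Or.inl h
      · exact Or.inr (Or.inl h)
      · right; right
        intro c hc
        obtain ⟨a, ha⟩ := h.2 (c : Matrix (Fin 3) (Fin 3) F) (by
          rintro _ ⟨s, hs, rfl⟩
          rw [← Units.val_mul, ← Units.val_mul, hc s hs])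
        exact (scalar_mem_scalars_iff c).mpr ⟨a, ha⟩
    have hsimple := simple_of_minimal (scalars (Fin 3) F) H N hZc hNn hNZ hNmin hperf hdich
    by_cases hsub : ∃ F₀ : Subfield F, F₀ ≠ ⊤ ∧ RealisableOver F₀ (matrixSet N)
    · obtain ⟨F₀, hF₀, hreal⟩ := hsub
      rcases hsubf N hNn hNGU habs F₀ hF₀ hreal with h5 | h6
      · right; right; right; right; left
        exact h5
      · right; right; right; right; right; left
        exact h6
    have hcore : IsResidualCore H N :=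
      { le := hNH
        normal := hNn
        perfect := hperf
        simple := isSimpleGroup_quot (scalars (Fin 3) F) N hNZ hsimple
        nonabelian := not_commutative_quot (scalars (Fin 3) F) N hNZ hperf
        centralizer_scalar := fun h _ hh =>
          mem_of_centralizes_mod (scalars (Fin 3) F) N hZc hperf hcentN h hh
        absIrred := habs
        no_subfield := fun F₀ hF₀ hreal => hsub ⟨F₀, hF₀, hreal⟩ }
    right; right; right; right; right; right; right
    refine ⟨N, hcore, ?_, ?_⟩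
    · rintro ⟨Q, hQ, hfix⟩
      exact hsub (hσ.realisable_of_fixes_quad hF N hNGU habs Q hQ hfix)
    · rintro ⟨f, hf, -⟩
      exact not_symplectic_of_odd hodd f hf


/-- The field-normaliser exception, from the abstract description of the normaliser. -/
theorem su3_field_false_of [Fintype F] (q : ℕ) (hq : q = 3 ∨ q = 5) (hF : Fintype.card F = q ^ 2)
    (H : Subgroup (GL (Fin 3) F))
    (hH : IsMaximalIn (GU 3 F q ⊓ specialLinear (Fin 3) F) H)
    (hcase : ∃ x : GL (Fin 3) F, x ∈ H ∧ orderOf x = 7 ∧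
      (∀ g ∈ H, g * x * g⁻¹ ∈ Subgroup.zpowers x) ∧ Nat.card ↥H ≤ 3 * (q ^ 2 - q + 1)) :
    False := by
  obtain ⟨x, hxH, hox, hnorm, hcard⟩ := hcase
  rcases hq with rfl | rfl
  · exact su3_three_sylow_false hF H hH x hxH hox hnorm (by norm_num at hcard; exact hcard)
  · exact su3_five_sylow_false hF H hH x hxH hox hnorm (by norm_num at hcard; exact hcard)

end Cfsg.Agent.Helper64.SU3
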