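-- helper64: abstract Sylow argument for the non-maximality of the normaliser of a Sylow
-- 7-subgroup (cyclic of order 7) in SU_3(3) and SU_3(5).
import Mathlib

set_option autoImplicit false

namespace Cfsg.Agent.Helper64.SU3

open scoped Pointwise

variable {Γ : Type*} [Group Γ]

theorem su3_mem_normalizer_zpowers (a b : Γ) (h1 : a * b * a⁻¹ ∈ Subgroup.zpowers b)
    (h2 : a⁻¹ * b * a ∈ Subgroup.zpowers b) : a ∈ Subgroup.normalizer (Subgroup.zpowers b : Set Γ) := by
  rw [Subgroup.mem_normalizer_iff]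
  intro n
  constructor
  · intro hn
    obtain ⟨k, rfl⟩ := Subgroup.mem_zpowers_iff.mp hn
    rw [← conj_zpow]
    exact Subgroup.zpow_mem _ h1 k
  · intro hn
    obtain ⟨k, hk⟩ := Subgroup.mem_zpowers_iff.mp hn
    have e : n = (a⁻¹ * b * a) ^ k := by
      have e1 : (a⁻¹ * b * a) ^ k = a⁻¹ * b ^ k * a := by
        have := conj_zpow (a := a⁻¹) (b := b) (i := k)
        rw [inv_inv] at this
        exact this
      rw [e1, hk]
      group
    rw [e]
    exact Subgroup.zpow_mem _ h2 k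

/-- If `H` is maximal in `G`, normalises a subgroup `⟨x⟩` of order 7 and has order at most `B`,
while `G` (with Sylow 7-subgroups of order 7) has a subgroup `L` not containing `G` but containing
`x0` of order 7, a non-commuting `y0` normalising `⟨x0⟩`, a central `c0` with `x0 * c0` of order
`m > B / 4`, and an element `t0` not normalising `⟨x0⟩`, we get a contradiction. -/
theorem su3_sylow_contra [Finite Γ] (G H L : Subgroup Γ) (x x0 y0 t0 c0 : Γ) (B m : ℕ)
    (hlt : H < G) (hmax : ∀ M : Subgroup Γ, H ≤ M → M ≤ G → M = H ∨ M = G)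
    (hxH : x ∈ H) (hx : orderOf x = 7)
    (hnorm : ∀ g ∈ H, g * x * g⁻¹ ∈ Subgroup.zpowers x)
    (hcard : Nat.card H ≤ B) (h49 : ¬ 49 ∣ Nat.card G)
    (hx0G : x0 ∈ G) (hy0G : y0 ∈ G) (ht0G : t0 ∈ G) (hc0G : c0 ∈ G)
    (hx0 : orderOf x0 = 7) (hyx : y0 * x0 * y0⁻¹ ∈ Subgroup.zpowers x0)
    (hyx' : y0⁻¹ * x0 * y0 ∈ Subgroup.zpowers x0) (hyc : y0 * x0 ≠ x0 * y0)
    (hc0 : ∀ g : Γ, c0 * g = g * c0) (hm : orderOf (x0 * c0) = m) (hB : B < 4 * m)
    (htx : t0 * x0 * t0⁻¹ ∉ Subgroup.zpowers x0)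
    (hx0L : x0 ∈ L) (hy0L : y0 ∈ L) (ht0L : t0 ∈ L) (hc0L : c0 ∈ L) (hGL : ¬ G ≤ L) : False := by
  classical
  have hHG : H ≤ G := hlt.le
  have hxG : x ∈ G := hHG hxH
  haveI : Fact (Nat.Prime 7) := ⟨by norm_num⟩
  let xG : G := ⟨x, hxG⟩
  let x0G' : G := ⟨x0, hx0G⟩
  have hoxG : orderOf xG = 7 := by rw [Subgroup.orderOf_mk, hx]
  have hox0G : orderOf x0G' = 7 := by rw [Subgroup.orderOf_mk, hx0]
  have hne : Nat.card G ≠ 0 := Nat.card_pos.ne'
  have hfac : (Nat.card G).factorization 7 = 1 := by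
    have h1 : 7 ∣ Nat.card G := by
      have := orderOf_dvd_natCard xG
      rwa [hoxG] at this
    have hle : 1 ≤ (Nat.card G).factorization 7 :=
      (Nat.Prime.dvd_iff_one_le_factorization (by norm_num) hne).mp h1
    have hnot : ¬ 2 ≤ (Nat.card G).factorization 7 := by
      intro h2
      apply h49
      have := (Nat.Prime.pow_dvd_iff_le_factorization (by norm_num : Nat.Prime 7) hne).mpr h2
      simpa using this
    omega
  have hcP : Nat.card (Subgroup.zpowers xG) = 7 ^ (Nat.card G).factorization 7 := by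
    rw [Nat.card_zpowers, hoxG, hfac, pow_one]
  have hcP0 : Nat.card (Subgroup.zpowers x0G') = 7 ^ (Nat.card G).factorization 7 := by
    rw [Nat.card_zpowers, hox0G, hfac, pow_one]
  let P : Sylow 7 G := Sylow.ofCard (Subgroup.zpowers xG) hcP
  let P0 : Sylow 7 G := Sylow.ofCard (Subgroup.zpowers x0G') hcP0
  obtain ⟨g, hg⟩ := MulAction.exists_smul_eq G P P0
  have hgx : g * xG * g⁻¹ ∈ Subgroup.zpowers x0G' := by
    have h1 : xG ∈ (P : Subgroup G) := Subgroup.mem_zpowers xG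
    have h2 : MulAut.conj g • xG ∈ MulAut.conj g • (P : Subgroup G) :=
      Subgroup.smul_mem_pointwise_smul _ _ _ h1
    have h3 : ((g • P : Sylow 7 G) : Subgroup G) = MulAut.conj g • (P : Subgroup G) :=
      Sylow.coe_subgroup_smul
    rw [← h3, hg] at h2
    exact h2
  set γ : Γ := (g : Γ) with hγ
  have hγG : γ ∈ G := g.2
  set x' : Γ := γ * x * γ⁻¹ with hx'
  have hx'mem : x' ∈ Subgroup.zpowers x0 := by
    obtain ⟨k, hk⟩ := Subgroup.mem_zpowers_iff.mp hgx
    have := congrArg (Subtype.val : G → Γ) hk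
    rw [Subgroup.mem_zpowers_iff]
    refine ⟨k, ?_⟩
    simpa using this
  have hox' : orderOf x' = 7 := by
    have hsc : SemiconjBy γ x x' := by
      unfold SemiconjBy
      rw [hx']
      group
    rw [← hsc.orderOf_eq, hx]
  have hzeq : Subgroup.zpowers x' = Subgroup.zpowers x0 := by
    apply Subgroup.eq_of_le_of_card_ge ((Subgroup.zpowers_le).mpr hx'mem)
    rw [Nat.card_zpowers, Nat.card_zpowers, hox', hx0]
  let c : MulAut Γ := MulAut.conj γ
  have hcG : c • G = G := Subgroup.conj_smul_eq_self_of_mem hγG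
  have hcG' : c⁻¹ • G = G := by
    conv_lhs => rw [← hcG]
    exact inv_smul_smul c G
  set H' : Subgroup Γ := c • H with hH'
  have hH'G : H' ≤ G := by
    rw [← hcG]
    exact Subgroup.pointwise_smul_le_pointwise_smul_iff.mpr hHG
  have hmax' : ∀ M : Subgroup Γ, H' ≤ M → M ≤ G → M = H' ∨ M = G := by
    intro M h1 h2
    have h1' : H ≤ c⁻¹ • M := Subgroup.pointwise_smul_subset_iff.mp h1
    have h2' : c⁻¹ • M ≤ G := by
      rw [← hcG']
      exact Subgroup.pointwise_smul_le_pointwise_smul_iff.mpr h2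
    rcases hmax _ h1' h2' with h | h
    · left
      rw [hH', ← h, smul_inv_smul]
    · right
      have : c • (c⁻¹ • M) = c • G := by rw [h]
      rwa [smul_inv_smul, hcG] at this
  have hmemH' : ∀ h' ∈ H', ∃ h ∈ H, h' = γ * h * γ⁻¹ := by
    intro h' hh'
    obtain ⟨h, hh, rfl⟩ := Subgroup.mem_pointwise_smul_iff_inv_smul_mem.mp hh' |> fun hh =>
      (⟨c⁻¹ • h', hh, by simp⟩ : ∃ h ∈ H, c • h = h')
    exact ⟨h, hh, rfl⟩
  have hcardH' : Nat.card H' = Nat.card H := by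
    rw [hH']
    exact (Nat.card_congr (Subgroup.equivSMul c H).toEquiv).symm
  let N0 : Subgroup Γ := Subgroup.normalizer (Subgroup.zpowers x0 : Set Γ) ⊓ G
  have hH'N0 : H' ≤ N0 := by
    intro h' hh'
    refine ⟨?_, hH'G hh'⟩
    obtain ⟨h, hh, rfl⟩ := hmemH' h' hh'
    rw [← hzeq]
    apply su3_mem_normalizer_zpowers
    · obtain ⟨k, hk⟩ := Subgroup.mem_zpowers_iff.mp (hnorm h hh)
      rw [Subgroup.mem_zpowers_iff]
      refine ⟨k, ?_⟩
      rw [hx', conj_zpow, hk]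
      group
    · have hinv := hnorm h⁻¹ (H.inv_mem hh)
      rw [inv_inv] at hinv
      obtain ⟨k, hk⟩ := Subgroup.mem_zpowers_iff.mp hinv
      rw [Subgroup.mem_zpowers_iff]
      refine ⟨k, ?_⟩
      rw [hx', conj_zpow, hk]
      group
  have ht0N : t0 ∉ Subgroup.normalizer (Subgroup.zpowers x0 : Set Γ) := by
    intro ht
    exact htx ((Subgroup.mem_normalizer_iff.mp ht x0).mp (Subgroup.mem_zpowers x0))
  have hN0G : N0 ≤ G := inf_le_right
  have hN0 : N0 = H' := by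
    rcases hmax' N0 hH'N0 hN0G with h | h
    · exact h
    · exfalso
      have : t0 ∈ N0 := by rw [h]; exact ht0G
      exact ht0N this.1
  have hx0N : x0 ∈ H' := by
    rw [← hN0]
    exact ⟨Subgroup.le_normalizer (Subgroup.mem_zpowers x0), hx0G⟩
  have hy0N : y0 ∈ H' := by
    rw [← hN0]
    exact ⟨su3_mem_normalizer_zpowers y0 x0 hyx hyx', hy0G⟩
  have hc0N : c0 ∈ H' := by
    rw [← hN0]
    refine ⟨?_, hc0G⟩
    apply su3_mem_normalizer_zpowers
    · rw [hc0 x0, mul_inv_cancel_right]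
      exact Subgroup.mem_zpowers x0
    · have h1 : c0⁻¹ * x0 * c0 = x0 := by
        rw [mul_assoc, ← hc0 x0, inv_mul_cancel_left]
      rw [h1]
      exact Subgroup.mem_zpowers x0
  -- the subgroup M₀ = H' ⊓ L
  let M₀ : Subgroup Γ := H' ⊓ L
  have hM₀H' : M₀ ≤ H' := inf_le_left
  have hzM : x0 * c0 ∈ M₀ := ⟨H'.mul_mem hx0N hc0N, L.mul_mem hx0L hc0L⟩
  have hx0M : x0 ∈ M₀ := ⟨hx0N, hx0L⟩
  have hy0M : y0 ∈ M₀ := ⟨hy0N, hy0L⟩
  have hmdvd : m ∣ Nat.card M₀ := by
    have := orderOf_dvd_natCard (⟨x0 * c0, hzM⟩ : M₀)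
    rwa [Subgroup.orderOf_mk, hm] at this
  have hdvd : Nat.card M₀ ∣ Nat.card H' := Subgroup.card_dvd_of_le hM₀H'
  have hH'pos : 0 < Nat.card H' := Nat.card_pos
  have hM₀pos : 0 < Nat.card M₀ := Nat.card_pos
  by_cases hMeq : M₀ = H'
  · have hH'L : H' ≤ L ⊓ G := le_inf (hMeq ▸ (inf_le_right : M₀ ≤ L)) hH'G
    rcases hmax' (L ⊓ G) hH'L inf_le_right with h | h
    · have : t0 ∈ L ⊓ G := ⟨ht0L, ht0G⟩
      rw [h, ← hN0] at this
      exact ht0N this.1
    · apply hGL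
      rw [← h]
      exact inf_le_left
  · -- M₀ is a proper subgroup of H', of order m, hence cyclic
    have hlt' : Nat.card M₀ < Nat.card H' := by
      rcases Nat.lt_or_ge (Nat.card M₀) (Nat.card H') with h | h
      · exact h
      · exact absurd (Subgroup.eq_of_le_of_card_ge hM₀H' h) hMeq
    obtain ⟨k, hk⟩ := hdvd
    have hk2 : 2 ≤ k := by
      rcases k with _ | _ | k
      · omega
      · omega
      · omega
    have hle : 2 * Nat.card M₀ ≤ B := by
      calc 2 * Nat.card M₀ ≤ k * Nat.card M₀ := Nat.mul_le_mul_right _ hk2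
        _ = Nat.card H' := by rw [hk, mul_comm]
        _ ≤ B := by rw [hcardH']; exact hcard
    obtain ⟨j, hj⟩ := hmdvd
    have hj1 : j = 1 := by
      rcases j with _ | _ | j
      · omega
      · rfl
      · exfalso
        have : 2 * m ≤ Nat.card M₀ := by
          rw [hj]
          nlinarith
        omega
    rw [hj1, mul_one] at hj
    have hcyc : IsCyclic M₀ := by
      apply isCyclic_of_orderOf_eq_card (⟨x0 * c0, hzM⟩ : M₀)
      rw [Subgroup.orderOf_mk, hm, hj]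
    obtain ⟨gen, hgen⟩ := hcyc.exists_generator
    obtain ⟨a, ha⟩ := Subgroup.mem_zpowers_iff.mp (hgen (⟨y0, hy0M⟩ : M₀))
    obtain ⟨b, hb⟩ := Subgroup.mem_zpowers_iff.mp (hgen (⟨x0, hx0M⟩ : M₀))
    have hcomm : (⟨y0, hy0M⟩ : M₀) * ⟨x0, hx0M⟩ = ⟨x0, hx0M⟩ * ⟨y0, hy0M⟩ := by
      rw [← ha, ← hb, ← zpow_add, ← zpow_add, add_comm]
    exact hyc (congrArg Subtype.val hcomm)

end Cfsg.Agent.Helper64.SU3
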