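-- helper64: abstract finite-field lemmas for the field-extension subgroup of SU_5(2).
import Mathlib

set_option autoImplicit false

namespace Cfsg.Agent.Helper64.SU5

/-- In a finite cyclic group, the solutions of `v ^ n = 1` lie in the subgroup generated by an
element of order `n`. -/
theorem su5_mem_zpowers_of_pow {C : Type*} [Group C] [Finite C] [IsCyclic C] (n : ℕ) (hn : 0 < n)
    (u v : C) (hu : orderOf u = n) (hv : v ^ n = 1) : v ∈ Subgroup.zpowers u := by
  classical
  haveI := Fintype.ofFinite C
  have h1 := IsCyclic.card_pow_eq_one_le (α := C) hn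
  let T : Finset C := Finset.univ.filter (fun a => a ∈ Subgroup.zpowers u)
  have hT : T.card = n := by
    rw [← hu, ← Nat.card_zpowers, Nat.card_eq_fintype_card, Fintype.card_subtype]
  have hTS : T ⊆ Finset.univ.filter (fun a : C => a ^ n = 1) := by
    intro a ha
    simp only [Finset.mem_filter, Finset.mem_univ, true_and, T] at ha ⊢
    obtain ⟨k, rfl⟩ := Subgroup.mem_zpowers_iff.mp ha
    rw [← zpow_natCast, ← zpow_mul, mul_comm, zpow_mul, zpow_natCast, ← hu, pow_orderOf_eq_one,
      one_zpow]
  have hEq := Finset.eq_of_subset_of_card_le hTS (by rw [hT]; exact h1)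
  have hv' : v ∈ Finset.univ.filter (fun a : C => a ^ n = 1) := by simp [hv]
  rw [← hEq] at hv'
  simpa [T] using hv'

/-- In the field with 1024 elements, a multiplicatively closed additive subgroup containing `1`
and an element of order 11 is everything. -/
theorem su5_key {K : Type*} [Field K] [Finite K] (hcard : Nat.card K = 1024) (u : Kˣ)
    (hu : orderOf u = 11) (A : AddSubgroup K) (h1 : (1 : K) ∈ A)
    (hmul : ∀ a ∈ A, ∀ b ∈ A, a * b ∈ A) (huA : (u : K) ∈ A) : A = ⊤ := by
  classical
  have hpow : ∀ a ∈ A, ∀ n : ℕ, a ^ n ∈ A := by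
    intro a ha n
    induction n with
    | zero => simpa using h1
    | succ n ih =>
      rw [pow_succ]
      exact hmul _ ih _ ha
  have hcardU : Nat.card Kˣ = 1023 := by rw [Nat.card_units, hcard]
  let S : Subgroup Kˣ :=
    { carrier := {v | (v : K) ∈ A}
      mul_mem' := fun {a b} ha hb => by
        show ((a * b : Kˣ) : K) ∈ A
        rw [Units.val_mul]
        exact hmul _ ha _ hb
      one_mem' := by
        show ((1 : Kˣ) : K) ∈ A
        rw [Units.val_one]
        exact h1
      inv_mem' := fun {a} ha => by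
        show ((a⁻¹ : Kˣ) : K) ∈ A
        have h2 : a ^ 1023 = 1 := by
          rw [← hcardU]
          exact pow_card_eq_one'
        have h : a⁻¹ = a ^ 1022 := by
          rw [inv_eq_iff_mul_eq_one, ← pow_succ']
          exact h2
        rw [h, Units.val_pow_eq_pow_val]
        exact hpow _ ha _ }
  have hmemS : ∀ v : Kˣ, v ∈ S ↔ (v : K) ∈ A := fun v => Iff.rfl
  have hS1 : Nat.card S + 1 = Nat.card A := by
    have e1 : Nat.card S = (Units.val '' (S : Set Kˣ)).ncard := by
      rw [Set.ncard_image_of_injective _ Units.val_injective]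
      rfl
    have e2 : Units.val '' (S : Set Kˣ) = (A : Set K) \ {0} := by
      ext a
      constructor
      · rintro ⟨v, hv, rfl⟩
        exact ⟨hv, v.ne_zero⟩
      · rintro ⟨ha, ha0⟩
        exact ⟨Units.mk0 a ha0, ha, rfl⟩
    rw [e1, e2, Set.ncard_diff_singleton_add_one (A.zero_mem) (Set.toFinite _)]
    rfl
  have h11 : 11 ∣ Nat.card S := by
    have h := orderOf_dvd_natCard (⟨u, huA⟩ : S)
    rw [← Subgroup.orderOf_coe] at h
    have h' : orderOf u ∣ Nat.card S := h
    rwa [hu] at h'
  have hdvd : Nat.card A ∣ 2 ^ 10 := by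
    have := AddSubgroup.card_addSubgroup_dvd_card A
    rw [hcard] at this
    exact this
  obtain ⟨j, hj, hjA⟩ := (Nat.dvd_prime_pow Nat.prime_two).mp hdvd
  have hSpos : 0 < Nat.card S := Nat.card_pos
  have hj10 : j = 10 := by
    rw [hjA] at hS1
    obtain ⟨m, hm⟩ := h11
    interval_cases j <;> omega
  subst hj10
  apply AddSubgroup.eq_top_of_card_eq
  rw [hjA, hcard]
  norm_num

/-- In a field containing the finite field `F`, the solutions of `s ^ |F| = s` are the elements
of `F`. -/
theorem su5_scalar_of_pow {F K : Type*} [Field F] [Fintype F] [Field K] [Algebra F K] (s : K)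
    (hs : s ^ Fintype.card F = s) : ∃ a : F, s = algebraMap F K a := by
  classical
  set p : Polynomial F := Polynomial.X ^ Fintype.card F - Polynomial.X with hp
  have hp0 : p ≠ 0 := FiniteField.X_pow_card_sub_X_ne_zero F Fintype.one_lt_card
  have hle := Polynomial.ncard_rootSet_le p K
  have hdeg : p.natDegree = Fintype.card F :=
    FiniteField.X_pow_card_sub_X_natDegree_eq F Fintype.one_lt_card
  have hsub : Set.range (algebraMap F K) ⊆ p.rootSet K := by
    rintro _ ⟨a, rfl⟩
    rw [Polynomial.mem_rootSet]
    refine ⟨hp0, ?_⟩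
    rw [hp, Polynomial.aeval_algebraMap_apply]
    simp [FiniteField.pow_card]
  have hcardr : (Set.range (algebraMap F K)).ncard = Fintype.card F := by
    rw [← Set.image_univ, Set.ncard_image_of_injective _ (algebraMap F K).injective,
      Set.ncard_univ, Nat.card_eq_fintype_card]
  have hEq : Set.range (algebraMap F K) = p.rootSet K :=
    Set.eq_of_subset_of_ncard_le hsub (by rw [hcardr, ← hdeg]; exact hle)
      (Polynomial.rootSet_finite p K)
  have hsr : s ∈ p.rootSet K := by
    rw [Polynomial.mem_rootSet]
    refine ⟨hp0, ?_⟩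
    rw [hp]
    simp [hs]
  rw [← hEq] at hsr
  obtain ⟨a, ha⟩ := hsr
  exact ⟨a, ha.symm⟩

end Cfsg.Agent.Helper64.SU5
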