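-- helper64: transfer of the explicit matrices generating L_2(11) inside SU_5(2) to an arbitrary
-- field with four elements.
import Cfsg.Agent.Helper64.SU5Data
import Cfsg.Agent.Helper97.UForm

set_option autoImplicit false
open Cfsg Cfsg.Geo Matrix

namespace Cfsg.Agent.Helper64.SU5

open Cfsg.Agent.Helper98 Cfsg.Agent.Helper97

variable {F : Type*} [Field F]

section transfer

variable (ψ : F4 →+* F)

theorem su5_map_mul (A B : Matrix (Fin 5) (Fin 5) F4) : (A * B).map ψ = A.map ψ * B.map ψ :=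
  Matrix.map_mul

theorem su5_map_one : (1 : Matrix (Fin 5) (Fin 5) F4).map ψ = 1 :=
  Matrix.map_one ψ (map_zero ψ) (map_one ψ)

theorem su5_map_pow (A : Matrix (Fin 5) (Fin 5) F4) (n : ℕ) : (A ^ n).map ψ = (A.map ψ) ^ n := by
  induction n with
  | zero => rw [pow_zero, pow_zero, su5_map_one]
  | succ n ih => rw [pow_succ, pow_succ, su5_map_mul, ih]

theorem su5_map_inj {A B : Matrix (Fin 5) (Fin 5) F4} (h : A.map ψ = B.map ψ) : A = B :=
  Matrix.map_injective ψ.injective h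

/-- the element of `GL` attached to a matrix over `F4` with a given inverse. -/
def su5GL (A B : Matrix (Fin 5) (Fin 5) F4) (h : B * A = 1) : GL (Fin 5) F :=
  ⟨A.map ψ, B.map ψ, by rw [← su5_map_mul, mul_eq_one_comm.mpr h, su5_map_one],
    by rw [← su5_map_mul, h, su5_map_one]⟩

theorem su5GL_val (A B : Matrix (Fin 5) (Fin 5) F4) (h : B * A = 1) :
    ((su5GL ψ A B h : GL (Fin 5) F) : Matrix (Fin 5) (Fin 5) F) = A.map ψ := rfl

theorem su5GL_pow (A B : Matrix (Fin 5) (Fin 5) F4) (h : B * A = 1) (n : ℕ) (hn : A ^ n = 1) :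
    su5GL ψ A B h ^ n = 1 := by
  apply Units.ext
  rw [Units.val_pow_eq_pow_val, su5GL_val, ← su5_map_pow, hn, su5_map_one, Units.val_one]

theorem su5GL_ne_one (A B : Matrix (Fin 5) (Fin 5) F4) (h : B * A = 1) (hA : A ≠ 1) :
    su5GL ψ A B h ≠ 1 := by
  intro h1
  have h2 := congrArg Units.val h1
  rw [su5GL_val, Units.val_one, ← su5_map_one ψ] at h2
  exact hA (su5_map_inj ψ h2)

theorem su5GL_mem_GU {σ : F ≃+* F} (hσ : IsSigma 2 σ) (A B : Matrix (Fin 5) (Fin 5) F4)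
    (h : B * A = 1) (hu : A.transpose * sq4 A = 1) : su5GL ψ A B h ∈ GU 5 F 2 := by
  have e1 : (A.map ψ).map σ = (sq4 A).map ψ := by
    ext i j
    simp only [Matrix.map_apply, sq4, hσ.pow, map_mul, pow_two]
  have key : (A.map ψ)ᵀ * (A.map ψ).map σ = 1 := by
    rw [e1, ← Matrix.transpose_map, ← su5_map_mul, hu, su5_map_one]
  intro a b
  have := hσ.isSesq.similar_of_gram (A.map ψ) 1 (by rw [hσ.gram_herm, mul_one, one_smul]; exact key) a b
  rw [one_mul] at this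
  exact this

end transfer

theorem su5_mem_SL_of_pow [Fintype F] (hF : Fintype.card F = 2 ^ 2) (g : GL (Fin 5) F) (n : ℕ)
    (hn : Nat.Coprime n 3) (hg : g ^ n = 1) : g ∈ specialLinear (Fin 5) F := by
  classical
  rw [specialLinear, MonoidHom.mem_ker]
  set d : Fˣ := Matrix.GeneralLinearGroup.det g with hd
  have h1 : d ^ n = 1 := by rw [hd, ← map_pow, hg, map_one]
  have h3 : d ^ 3 = 1 := by
    have := pow_card_eq_one (x := d)
    rw [Fintype.card_units, hF] at this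
    simpa using this
  have h4 : orderOf d ∣ Nat.gcd n 3 :=
    Nat.dvd_gcd (orderOf_dvd_of_pow_eq_one h1) (orderOf_dvd_of_pow_eq_one h3)
  rw [Nat.Coprime] at hn
  rw [hn, Nat.dvd_one] at h4
  exact orderOf_eq_one_iff.mp h4

/-- the stabiliser in `GL` of a set of vectors. -/
def su5Stab (S : Set (Fin 5 → F)) : Subgroup (GL (Fin 5) F) where
  carrier := {g | ∀ v, v ∈ S ↔ (g : Matrix (Fin 5) (Fin 5) F) *ᵥ v ∈ S}
  mul_mem' := by
    intro a b ha hb v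
    rw [Units.val_mul, ← Matrix.mulVec_mulVec, ← ha, ← hb]
  one_mem' := by
    intro v
    simp
  inv_mem' := by
    intro a ha v
    rw [ha (((a⁻¹ : GL (Fin 5) F) : Matrix (Fin 5) (Fin 5) F) *ᵥ v), Matrix.mulVec_mulVec,
      ← Units.val_mul, mul_inv_cancel, Units.val_one, Matrix.one_mulVec]

theorem su5Stab_of_pow (S : Set (Fin 5 → F)) (g : GL (Fin 5) F) (n : ℕ) (hn : 0 < n)
    (hg : g ^ n = 1) (hS : ∀ v ∈ S, (g : Matrix (Fin 5) (Fin 5) F) *ᵥ v ∈ S) :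
    g ∈ su5Stab S := by
  have hk : ∀ k : ℕ, ∀ v ∈ S, ((g ^ k : GL (Fin 5) F) : Matrix (Fin 5) (Fin 5) F) *ᵥ v ∈ S := by
    intro k
    induction k with
    | zero =>
      intro v hv
      simpa using hv
    | succ k ih =>
      intro v hv
      rw [pow_succ', Units.val_mul, ← Matrix.mulVec_mulVec]
      exact hS _ (ih v hv)
  intro v
  constructor
  · exact hS v
  · intro h
    have h1 := hk (n - 1) _ h
    rw [Matrix.mulVec_mulVec, ← Units.val_mul, ← pow_succ, Nat.sub_add_cancel hn, hg, Units.val_one,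
      Matrix.one_mulVec] at h1
    exact h1

/-- the image of the 165 vectors. -/
def su5Sig (ψ : F4 →+* F) : Set (Fin 5 → F) := {v | ∃ i, i < 165 ∧ v = fun j => ψ (sig i j)}

theorem su5GL_maps (ψ : F4 →+* F) (A B : Matrix (Fin 5) (Fin 5) F4) (h : B * A = 1) (pL : List ℕ)
    (hp : ∀ i < 165, pL.getD i 0 < 165 ∧ Matrix.mulVec A (sig i) = sig (pL.getD i 0)) :
    ∀ v ∈ su5Sig ψ, ((su5GL ψ A B h : GL (Fin 5) F) : Matrix (Fin 5) (Fin 5) F) *ᵥ v ∈ su5Sig ψ := by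
  rintro v ⟨i, hi, rfl⟩
  obtain ⟨h1, h2⟩ := hp i hi
  refine ⟨pL.getD i 0, h1, ?_⟩
  funext j
  rw [← h2]
  exact (RingHom.map_mulVec ψ A (sig i) j).symm

theorem su5_g_not_mem (ψ : F4 →+* F) : su5GL ψ g4 g4p4 g4_mul_3 ∉ su5Stab (su5Sig ψ) := by
  intro hg
  have h0 : (fun j => ψ (sig 0 j)) ∈ su5Sig ψ := ⟨0, by norm_num, rfl⟩
  obtain ⟨j, hj, hjeq⟩ := (hg _).mp h0
  apply g4_sig j hj
  funext k
  apply ψ.injective
  exact (RingHom.map_mulVec ψ g4 (sig 0) k).trans (congrFun hjeq k)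

/-- Explicit elements of `SU_5(2)`: `x` of order 11, `y` of order 5 normalising `⟨x⟩`, `t` not
normalising `⟨x⟩`, all inside a subgroup `L` not containing `SU_5(2)`. -/
theorem su5_explicit [Fintype F] (hF : Fintype.card F = 2 ^ 2) :
    ∃ (x y t : GL (Fin 5) F) (L : Subgroup (GL (Fin 5) F)),
      x ∈ GU 5 F 2 ⊓ specialLinear (Fin 5) F ∧ y ∈ GU 5 F 2 ⊓ specialLinear (Fin 5) F ∧
      t ∈ GU 5 F 2 ⊓ specialLinear (Fin 5) F ∧ orderOf x = 11 ∧ orderOf y = 5 ∧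
      y * x * y⁻¹ = x ^ 4 ∧ ¬ Commute (t * x * t⁻¹) x ∧ x ∈ L ∧ y ∈ L ∧ t ∈ L ∧
      ¬ (GU 5 F 2 ⊓ specialLinear (Fin 5) F ≤ L) := by
  classical
  obtain ⟨σ, hσ⟩ := exists_sigma hF
  have hc : Fintype.card F4 = Fintype.card F := by rw [hF]; exact F4.card_eq
  let ψ : F4 →+* F := (FiniteField.ringEquivOfCardEq hc).toRingHom
  set x := su5GL ψ x4 x4p10 x4_mul_5 with hx
  set y := su5GL ψ y4 y4p4 y4_mul_3 with hy
  set t := su5GL ψ t4 t4 t4_mul with ht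
  set g := su5GL ψ g4 g4p4 g4_mul_3 with hg
  have hx11 : x ^ 11 = 1 := su5GL_pow ψ _ _ _ 11 x4_pow11
  have hy5 : y ^ 5 = 1 := su5GL_pow ψ _ _ _ 5 y4_pow5
  have ht2 : t ^ 2 = 1 := su5GL_pow ψ _ _ _ 2 t4_pow2
  have hg5 : g ^ 5 = 1 := su5GL_pow ψ _ _ _ 5 g4_pow5
  haveI : Fact (Nat.Prime 11) := ⟨by norm_num⟩
  haveI : Fact (Nat.Prime 5) := ⟨by norm_num⟩
  refine ⟨x, y, t, su5Stab (su5Sig ψ),
    ⟨su5GL_mem_GU ψ hσ _ _ _ x4_unitary, su5_mem_SL_of_pow hF x 11 (by norm_num) hx11⟩,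
    ⟨su5GL_mem_GU ψ hσ _ _ _ y4_unitary, su5_mem_SL_of_pow hF y 5 (by norm_num) hy5⟩,
    ⟨su5GL_mem_GU ψ hσ _ _ _ t4_unitary, su5_mem_SL_of_pow hF t 2 (by norm_num) ht2⟩,
    orderOf_eq_prime hx11 (su5GL_ne_one ψ _ _ _ x4_ne_one),
    orderOf_eq_prime hy5 (su5GL_ne_one ψ _ _ _ y4_ne_one), ?_, ?_,
    su5Stab_of_pow _ x 11 (by norm_num) hx11 (su5GL_maps ψ _ _ _ pxL x4_sig),
    su5Stab_of_pow _ y 5 (by norm_num) hy5 (su5GL_maps ψ _ _ _ pyL y4_sig),
    su5Stab_of_pow _ t 2 (by norm_num) ht2 (su5GL_maps ψ _ _ _ ptL t4_sig), ?_⟩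
  · rw [mul_inv_eq_iff_eq_mul]
    apply Units.ext
    rw [Units.val_mul, Units.val_mul, Units.val_pow_eq_pow_val]
    show y4.map ψ * x4.map ψ = (x4.map ψ) ^ 4 * y4.map ψ
    rw [← su5_map_pow, ← su5_map_mul, ← su5_map_mul, x4_pow4, yx4]
  · have hti : t⁻¹ = t := by
      rw [inv_eq_iff_mul_eq_one, ← pow_two]
      exact ht2
    rw [hti]
    intro hcomm
    have h1 := congrArg Units.val hcomm.eq
    simp only [Units.val_mul] at h1
    change (t4.map ψ * x4.map ψ * t4.map ψ) * x4.map ψ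
      = x4.map ψ * (t4.map ψ * x4.map ψ * t4.map ψ) at h1
    rw [← su5_map_mul, ← su5_map_mul, ← su5_map_mul, ← su5_map_mul, u4_eq'] at h1
    exact u4_not_comm (su5_map_inj ψ h1)
  · intro hle
    exact su5_g_not_mem ψ (hle ⟨su5GL_mem_GU ψ hσ _ _ _ g4_unitary,
      su5_mem_SL_of_pow hF g 5 (by norm_num) hg5⟩)

end Cfsg.Agent.Helper64.SU5
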