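-- helper64: the field-extension subgroup N(K) ∩ SU_5(2) has order at most 55 and normalises a
-- subgroup of order 11.
import Cfsg.Agent.Helper64.SU5Abs
import Cfsg.Agent.Helper64.SU5Explicit
import Cfsg.Agent.Helper97.UAbelian
import Cfsg.Agent.Helper98.FieldSub
import Cfsg.Agent.Helper5.UnitCard

set_option autoImplicit false
open Cfsg Cfsg.Geo Matrix

namespace Cfsg.Agent.Helper64.SU5

open Cfsg.Agent.Helper97 Cfsg.Agent.Helper98

variable {F : Type*} [Field F] [Fintype F]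

/-- Adjoint-closed subalgebras are closed under the conjugate transpose. -/
theorem su5_adj_mem {σ : F ≃+* F} (hσ : IsSigma 2 σ)
    {K : Subalgebra F (Matrix (Fin 5) (Fin 5) F)}
    (hadj : IsAdjointClosedFor (hermForm 5 F 2) K) : ∀ k ∈ K, (k.map σ)ᵀ ∈ K := by
  intro k hk
  obtain ⟨k', hk', h⟩ := hadj k hk
  have hS := hσ.isSesq (n := 5)
  have e : (k.map σ)ᵀ = k' := by
    apply Cfsg.Agent.Helper98.matrix_ext_mulVec
    intro v
    by_contra hne
    have hne' : (k.map σ)ᵀ *ᵥ v - k' *ᵥ v ≠ 0 := sub_ne_zero.mpr hne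
    obtain ⟨⟨x, hx⟩, -⟩ := hσ.isUnitaryForm.nondegenerate _ hne'
    apply hx
    have h1 : hermForm 5 F 2 x ((k.map σ)ᵀ *ᵥ v) = hermForm 5 F 2 x (k' *ᵥ v) := by
      rw [← hσ.herm_adj, h]
    have h2 : hermForm 5 F 2 x ((k.map σ)ᵀ *ᵥ v - k' *ᵥ v)
        = hermForm 5 F 2 x ((k.map σ)ᵀ *ᵥ v) - hermForm 5 F 2 x (k' *ᵥ v) := by
      rw [sub_eq_add_neg, hS.add_right, ← neg_one_smul F (k' *ᵥ v), hS.smul_right, map_neg,
        map_one]
      ring
    rw [h2, h1, sub_self]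
  rw [e]
  exact hk'

theorem su5_cardK (hF : Fintype.card F = 2 ^ 2) (K : Subalgebra F (Matrix (Fin 5) (Fin 5) F))
    (hK : IsFieldSubalgebra 5 K) : Nat.card ↥K = 1024 := by
  rw [Module.natCard_eq_pow_finrank (K := F) (V := ↥K), hK.finrank_eq, Nat.card_eq_fintype_card, hF]
  norm_num

/-- the inclusion of the units of a subalgebra of matrices into `GL`. -/
def su5Incl (K : Subalgebra F (Matrix (Fin 5) (Fin 5) F)) : (↥K)ˣ →* GL (Fin 5) F :=
  Units.map (K.val : ↥K →ₐ[F] Matrix (Fin 5) (Fin 5) F).toRingHom.toMonoidHom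

theorem su5Incl_val (K : Subalgebra F (Matrix (Fin 5) (Fin 5) F)) (u : (↥K)ˣ) :
    ((su5Incl K u : GL (Fin 5) F) : Matrix (Fin 5) (Fin 5) F)
      = ((u : ↥K) : Matrix (Fin 5) (Fin 5) F) := rfl

theorem su5Incl_injective (K : Subalgebra F (Matrix (Fin 5) (Fin 5) F)) :
    Function.Injective (su5Incl K) := by
  intro a b hab
  apply Units.ext
  apply Subtype.ext
  have := congrArg (fun g : GL (Fin 5) F => (g : Matrix (Fin 5) (Fin 5) F)) hab
  simpa only [su5Incl_val] using this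

theorem su5_adj_pow {σ : F ≃+* F} (X : Matrix (Fin 5) (Fin 5) F) (n : ℕ) :
    ((X ^ n).map σ)ᵀ = ((X.map σ)ᵀ) ^ n := by
  induction n with
  | zero =>
    rw [pow_zero, pow_zero, Matrix.map_one σ (map_zero σ) (map_one σ), Matrix.transpose_one]
  | succ n ih => rw [pow_succ, IsSigma.adj_mul, ih, ← pow_succ']

/-- An element of order 11 of the field `K` is unitary. -/
theorem su5_unitary {σ : F ≃+* F} (hσ : IsSigma 2 σ) (hF : Fintype.card F = 2 ^ 2)
    (K : Subalgebra F (Matrix (Fin 5) (Fin 5) F)) (hK : IsFieldSubalgebra 5 K)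
    (hadj : ∀ k ∈ K, (k.map σ)ᵀ ∈ K) (u : (↥K)ˣ) (hu : orderOf u = 11) :
    ((u : ↥K) : Matrix (Fin 5) (Fin 5) F)
      * (((u : ↥K) : Matrix (Fin 5) (Fin 5) F).map σ)ᵀ = 1 := by
  classical
  letI := (IsFS.of hK).field
  obtain ⟨X, hX⟩ : ∃ X : Matrix (Fin 5) (Fin 5) F, X = ((u : ↥K) : Matrix (Fin 5) (Fin 5) F) :=
    ⟨_, rfl⟩
  rw [← hX]
  have hXK : X ∈ K := by rw [hX]; exact (u : ↥K).2
  have hX11 : X ^ 11 = 1 := by
    have h1 : u ^ 11 = 1 := by rw [← hu]; exact pow_orderOf_eq_one u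
    have h2 := congrArg (fun v : (↥K)ˣ => ((v : ↥K) : Matrix (Fin 5) (Fin 5) F)) h1
    simp only [Units.val_pow_eq_pow_val, Subalgebra.coe_pow, Units.val_one, Subalgebra.coe_one] at h2
    rw [hX]
    exact h2
  obtain ⟨Xd, hXd⟩ : ∃ Xd : Matrix (Fin 5) (Fin 5) F, Xd = (X.map σ)ᵀ := ⟨_, rfl⟩
  rw [← hXd]
  have hXdK : Xd ∈ K := by rw [hXd]; exact hadj X hXK
  have hcomm : Commute X Xd := hK.comm X hXK Xd hXdK
  have hXd11 : Xd ^ 11 = 1 := by
    rw [hXd, ← su5_adj_pow, hX11, Matrix.map_one σ (map_zero σ) (map_one σ), Matrix.transpose_one]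
  have hWK : X * Xd ∈ K := K.mul_mem hXK hXdK
  have hWfix : ((X * Xd).map σ)ᵀ = X * Xd := by
    rw [IsSigma.adj_mul, ← hXd]
    have : (Xd.map σ)ᵀ = X := by rw [hXd]; exact hσ.adj_adj X
    rw [this]
  have hW11 : (X * Xd) ^ 11 = 1 := by rw [hcomm.mul_pow, hX11, hXd11, one_mul]
  by_contra hne
  let wK : ↥K := ⟨X * Xd, hWK⟩
  have hwK11 : wK ^ 11 = 1 := Subtype.ext (by
    rw [Subalgebra.coe_pow, Subalgebra.coe_one]
    exact hW11)
  let w : (↥K)ˣ := Units.ofPowEqOne wK 11 hwK11 (by norm_num)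
  have hw11 : w ^ 11 = 1 := Units.pow_ofPowEqOne hwK11 (by norm_num)
  have hw1 : w ≠ 1 := by
    intro h
    apply hne
    have h2 := congrArg (fun v : (↥K)ˣ => ((v : ↥K) : Matrix (Fin 5) (Fin 5) F)) h
    exact h2
  haveI : Fact (Nat.Prime 11) := ⟨by norm_num⟩
  have how : orderOf w = 11 := orderOf_eq_prime hw11 hw1
  let A : AddSubgroup ↥K :=
    { carrier := {k | ((k : Matrix (Fin 5) (Fin 5) F).map σ)ᵀ = (k : Matrix (Fin 5) (Fin 5) F)}
      add_mem' := by
        intro a b ha hb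
        show (((a + b : ↥K) : Matrix (Fin 5) (Fin 5) F).map σ)ᵀ = ((a + b : ↥K) : Matrix (Fin 5) (Fin 5) F)
        have ha' : ((a : Matrix (Fin 5) (Fin 5) F).map σ)ᵀ = (a : Matrix (Fin 5) (Fin 5) F) := ha
        have hb' : ((b : Matrix (Fin 5) (Fin 5) F).map σ)ᵀ = (b : Matrix (Fin 5) (Fin 5) F) := hb
        rw [Subalgebra.coe_add]
        ext i j
        have h1 := congrFun (congrFun ha' i) j
        have h2 := congrFun (congrFun hb' i) j
        simp only [Matrix.transpose_apply, Matrix.map_apply, Matrix.add_apply, map_add] at h1 h2 ⊢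
        rw [h1, h2]
      zero_mem' := by
        show (((0 : ↥K) : Matrix (Fin 5) (Fin 5) F).map σ)ᵀ = ((0 : ↥K) : Matrix (Fin 5) (Fin 5) F)
        rw [Subalgebra.coe_zero, Matrix.map_zero σ (map_zero σ), Matrix.transpose_zero]
      neg_mem' := by
        intro a ha
        show (((-a : ↥K) : Matrix (Fin 5) (Fin 5) F).map σ)ᵀ = ((-a : ↥K) : Matrix (Fin 5) (Fin 5) F)
        have ha' : ((a : Matrix (Fin 5) (Fin 5) F).map σ)ᵀ = (a : Matrix (Fin 5) (Fin 5) F) := ha
        rw [Subalgebra.coe_neg]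
        ext i j
        have := congrFun (congrFun ha' i) j
        simp only [Matrix.transpose_apply, Matrix.map_apply, Matrix.neg_apply, map_neg] at this ⊢
        rw [this] }
  have hA1 : (1 : ↥K) ∈ A := by
    show (((1 : ↥K) : Matrix (Fin 5) (Fin 5) F).map σ)ᵀ = ((1 : ↥K) : Matrix (Fin 5) (Fin 5) F)
    rw [Subalgebra.coe_one, Matrix.map_one σ (map_zero σ) (map_one σ), Matrix.transpose_one]
  have hAmul : ∀ a ∈ A, ∀ b ∈ A, a * b ∈ A := by
    intro a ha b hb
    have ha' : ((a : Matrix (Fin 5) (Fin 5) F).map σ)ᵀ = (a : Matrix (Fin 5) (Fin 5) F) := ha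
    have hb' : ((b : Matrix (Fin 5) (Fin 5) F).map σ)ᵀ = (b : Matrix (Fin 5) (Fin 5) F) := hb
    show (((a * b : ↥K) : Matrix (Fin 5) (Fin 5) F).map σ)ᵀ = ((a * b : ↥K) : Matrix (Fin 5) (Fin 5) F)
    rw [Subalgebra.coe_mul, IsSigma.adj_mul, ha', hb']
    exact hK.comm _ b.2 _ a.2
  have hwA : ((w : (↥K)ˣ) : ↥K) ∈ A := hWfix
  have hAtop := su5_key (su5_cardK hF K hK) w how A hA1 hAmul hwA
  obtain ⟨d, hd⟩ := hσ.exists_ne
  have hdA : algebraMap F ↥K d ∈ A := by rw [hAtop]; trivial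
  have hdA' : (((algebraMap F ↥K d : ↥K) : Matrix (Fin 5) (Fin 5) F).map σ)ᵀ
      = ((algebraMap F ↥K d : ↥K) : Matrix (Fin 5) (Fin 5) F) := hdA
  have h00 := congrFun (congrFun hdA' 0) 0
  rw [Subalgebra.coe_algebraMap] at h00
  simp only [Matrix.transpose_apply, Matrix.map_apply, Matrix.algebraMap_matrix_apply, if_true,
    Algebra.algebraMap_self, RingHom.id_apply] at h00
  exact hd h00

/-- An element of `GL` lying in `K` whose 11-th power is one lies in the subgroup generated by an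
element of order 11 of `K`. -/
theorem su5_mem_zpowers_incl (hF : Fintype.card F = 2 ^ 2)
    (K : Subalgebra F (Matrix (Fin 5) (Fin 5) F)) (hK : IsFieldSubalgebra 5 K)
    (u : (↥K)ˣ) (hu : orderOf u = 11) (Y : GL (Fin 5) F)
    (hYK : (Y : Matrix (Fin 5) (Fin 5) F) ∈ K) (hY : Y ^ 11 = 1) :
    Y ∈ Subgroup.zpowers (su5Incl K u) := by
  classical
  letI := (IsFS.of hK).field
  haveI : Finite ↥K := Nat.finite_of_card_ne_zero (by rw [su5_cardK hF K hK]; norm_num)
  let yK : ↥K := ⟨(Y : Matrix (Fin 5) (Fin 5) F), hYK⟩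
  have hyK11 : yK ^ 11 = 1 := Subtype.ext (by
    rw [Subalgebra.coe_pow, Subalgebra.coe_one]
    have h2 := congrArg (fun g : GL (Fin 5) F => (g : Matrix (Fin 5) (Fin 5) F)) hY
    simpa only [Units.val_pow_eq_pow_val, Units.val_one] using h2)
  let y : (↥K)ˣ := Units.ofPowEqOne yK 11 hyK11 (by norm_num)
  have hy11 : y ^ 11 = 1 := Units.pow_ofPowEqOne hyK11 (by norm_num)
  have hmem := su5_mem_zpowers_of_pow 11 (by norm_num) u y hu hy11
  obtain ⟨k, hk⟩ := Subgroup.mem_zpowers_iff.mp hmem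
  rw [Subgroup.mem_zpowers_iff]
  refine ⟨k, ?_⟩
  rw [← map_zpow, hk]
  apply Units.ext
  rfl

/-- A matrix commuting with the field `K` of degree 5 lies in `K`. -/
theorem su5_mem_of_commute (hF : Fintype.card F = 2 ^ 2)
    (K : Subalgebra F (Matrix (Fin 5) (Fin 5) F)) (hK : IsFieldSubalgebra 5 K)
    (c : Matrix (Fin 5) (Fin 5) F) (hc : ∀ k ∈ K, c * k = k * c) : c ∈ K := by
  classical
  have hFS := IsFS.of hK
  let e₀ : Fin 5 → F := Pi.single 0 1
  have he₀ : e₀ ≠ 0 := by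
    intro h
    have := congrFun h 0
    simp [e₀] at this
  let φ : ↥K → (Fin 5 → F) := fun k => (k : Matrix (Fin 5) (Fin 5) F) *ᵥ e₀
  have hinj : Function.Injective φ := by
    intro a b hab
    by_contra hne
    have h1 : ((a : Matrix (Fin 5) (Fin 5) F) - (b : Matrix (Fin 5) (Fin 5) F)) *ᵥ e₀ = 0 := by
      rw [Matrix.sub_mulVec]
      exact sub_eq_zero.mpr hab
    have h2 : (a : Matrix (Fin 5) (Fin 5) F) - (b : Matrix (Fin 5) (Fin 5) F) ≠ 0 := by
      intro h
      exact hne (Subtype.ext (sub_eq_zero.mp h))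
    exact he₀ (hFS.mulVec_eq_zero (K.sub_mem a.2 b.2) h2 h1)
  have hcardV : Nat.card (Fin 5 → F) = 1024 := by
    rw [Nat.card_eq_fintype_card, Fintype.card_fun, Fintype.card_fin, hF]
    norm_num
  have hbij : Function.Bijective φ :=
    hinj.bijective_of_nat_card_le (by rw [hcardV, su5_cardK hF K hK])
  obtain ⟨k₀, hk₀⟩ := hbij.2 (c *ᵥ e₀)
  have hk₀' : (k₀ : Matrix (Fin 5) (Fin 5) F) *ᵥ e₀ = c *ᵥ e₀ := hk₀
  have hEq : c = (k₀ : Matrix (Fin 5) (Fin 5) F) := by
    apply Cfsg.Agent.Helper98.matrix_ext_mulVec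
    intro v
    obtain ⟨k, hk⟩ := hbij.2 v
    have hk' : (k : Matrix (Fin 5) (Fin 5) F) *ᵥ e₀ = v := hk
    rw [← hk', Matrix.mulVec_mulVec, Matrix.mulVec_mulVec, hc _ k.2, ← Matrix.mulVec_mulVec,
      ← hk₀', Matrix.mulVec_mulVec, hK.comm _ k.2 _ k₀.2]
  rw [hEq]
  exact k₀.2

theorem su5_card_GU (hF : Fintype.card F = 2 ^ 2) : Nat.card (GU 5 F 2) = 41057280 := by
  rw [Cfsg.Agent.Helper5.card_GU hF 5]
  simp [Finset.prod_range_succ]
  decide

/-- The centraliser in `SU_5(2)` of an element of order 11 of `K` is generated by it. -/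
theorem su5_centralizer (hF : Fintype.card F = 2 ^ 2)
    (K : Subalgebra F (Matrix (Fin 5) (Fin 5) F)) (hK : IsFieldSubalgebra 5 K)
    (u : (↥K)ˣ) (hu : orderOf u = 11) (c : GL (Fin 5) F)
    (hcG : c ∈ GU 5 F 2 ⊓ specialLinear (Fin 5) F)
    (hcx : c * su5Incl K u = su5Incl K u * c) : c ∈ Subgroup.zpowers (su5Incl K u) := by
  classical
  letI := (IsFS.of hK).field
  haveI : Finite ↥K := Nat.finite_of_card_ne_zero (by rw [su5_cardK hF K hK]; norm_num)
  obtain ⟨C, hC⟩ : ∃ C : Matrix (Fin 5) (Fin 5) F, C = (c : Matrix (Fin 5) (Fin 5) F) := ⟨_, rfl⟩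
  have hcxm : C * ((u : ↥K) : Matrix (Fin 5) (Fin 5) F)
      = ((u : ↥K) : Matrix (Fin 5) (Fin 5) F) * C := by
    have := congrArg (fun g : GL (Fin 5) F => (g : Matrix (Fin 5) (Fin 5) F)) hcx
    rw [hC]
    simpa only [Units.val_mul, su5Incl_val] using this
  -- Step 1: `c` commutes with `K`
  let A : AddSubgroup ↥K :=
    { carrier := {k | C * (k : Matrix (Fin 5) (Fin 5) F) = (k : Matrix (Fin 5) (Fin 5) F) * C}
      add_mem' := by
        intro a b ha hb
        have ha' : C * (a : Matrix (Fin 5) (Fin 5) F) = (a : Matrix (Fin 5) (Fin 5) F) * C := ha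
        have hb' : C * (b : Matrix (Fin 5) (Fin 5) F) = (b : Matrix (Fin 5) (Fin 5) F) * C := hb
        show C * ((a + b : ↥K) : Matrix (Fin 5) (Fin 5) F)
          = ((a + b : ↥K) : Matrix (Fin 5) (Fin 5) F) * C
        rw [Subalgebra.coe_add, mul_add, add_mul, ha', hb']
      zero_mem' := by
        show C * ((0 : ↥K) : Matrix (Fin 5) (Fin 5) F) = ((0 : ↥K) : Matrix (Fin 5) (Fin 5) F) * C
        rw [Subalgebra.coe_zero, mul_zero, zero_mul]
      neg_mem' := by
        intro a ha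
        have ha' : C * (a : Matrix (Fin 5) (Fin 5) F) = (a : Matrix (Fin 5) (Fin 5) F) * C := ha
        show C * ((-a : ↥K) : Matrix (Fin 5) (Fin 5) F) = ((-a : ↥K) : Matrix (Fin 5) (Fin 5) F) * C
        rw [Subalgebra.coe_neg, mul_neg, neg_mul, ha'] }
  have hA1 : (1 : ↥K) ∈ A := by
    show C * ((1 : ↥K) : Matrix (Fin 5) (Fin 5) F) = ((1 : ↥K) : Matrix (Fin 5) (Fin 5) F) * C
    rw [Subalgebra.coe_one, mul_one, one_mul]
  have hAmul : ∀ a ∈ A, ∀ b ∈ A, a * b ∈ A := by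
    intro a ha b hb
    have ha' : C * (a : Matrix (Fin 5) (Fin 5) F) = (a : Matrix (Fin 5) (Fin 5) F) * C := ha
    have hb' : C * (b : Matrix (Fin 5) (Fin 5) F) = (b : Matrix (Fin 5) (Fin 5) F) * C := hb
    show C * ((a * b : ↥K) : Matrix (Fin 5) (Fin 5) F)
      = ((a * b : ↥K) : Matrix (Fin 5) (Fin 5) F) * C
    rw [Subalgebra.coe_mul, ← mul_assoc, ha', mul_assoc, hb', mul_assoc]
  have huA : ((u : (↥K)ˣ) : ↥K) ∈ A := hcxm
  have hAtop := su5_key (su5_cardK hF K hK) u hu A hA1 hAmul huA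
  have hcK : ∀ k ∈ K, C * k = k * C := by
    intro k hk
    have : (⟨k, hk⟩ : ↥K) ∈ A := by rw [hAtop]; trivial
    exact this
  -- Step 2: `c` lies in `K`
  have hcmem : C ∈ K := su5_mem_of_commute hF K hK _ hcK
  -- Step 3: orders
  have hc0 : C ≠ 0 := by rw [hC]; exact c.ne_zero
  obtain ⟨y, hyK, hcy⟩ := hK.inv _ hcmem hc0
  have hyc : y * C = 1 := by
    rw [← hK.comm _ hcmem _ hyK]
    exact hcy
  let cK : (↥K)ˣ := ⟨⟨C, hcmem⟩, ⟨y, hyK⟩, Subtype.ext hcy, Subtype.ext hyc⟩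
  have hcKc : su5Incl K cK = c := Units.ext (by rw [su5Incl_val]; exact hC)
  have hcU : Nat.card (↥K)ˣ = 1023 := by rw [Nat.card_units, su5_cardK hF K hK]
  have h1023 : c ^ 1023 = 1 := by
    rw [← hcKc, ← map_pow]
    have : cK ^ 1023 = 1 := by
      rw [← hcU]
      exact pow_card_eq_one'
    rw [this, map_one]
  have hGU : c ^ 41057280 = 1 := by
    have h := pow_card_eq_one' (G := ↥(GU 5 F 2)) (x := ⟨c, (Subgroup.mem_inf.mp hcG).1⟩)
    rw [su5_card_GU hF] at h
    have h2 := congrArg (Subtype.val) h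
    simpa using h2
  have h33 : c ^ 33 = 1 := by
    have h := orderOf_dvd_of_pow_eq_one h1023
    have h' := orderOf_dvd_of_pow_eq_one hGU
    have hg := Nat.dvd_gcd h h'
    have e : Nat.gcd 1023 41057280 = 33 := by norm_num
    rw [e] at hg
    exact orderOf_dvd_iff_pow_eq_one.mp hg
  have hC33 : (C ^ 11) ^ 3 = 1 := by
    rw [← pow_mul, hC]
    have := congrArg (fun g : GL (Fin 5) F => (g : Matrix (Fin 5) (Fin 5) F)) h33
    simpa only [Units.val_pow_eq_pow_val, Units.val_one] using this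
  -- `c ^ 11` is a scalar
  let sK : ↥K := ⟨C ^ 11, K.pow_mem hcmem 11⟩
  have hs4 : sK ^ Fintype.card F = sK := by
    rw [hF]
    apply Subtype.ext
    rw [Subalgebra.coe_pow]
    show (C ^ 11) ^ (2 ^ 2) = C ^ 11
    calc (C ^ 11) ^ (2 ^ 2) = (C ^ 11) ^ 3 * C ^ 11 := by
          rw [← pow_succ]
          norm_num
      _ = C ^ 11 := by rw [hC33, one_mul]
  obtain ⟨a, ha⟩ := su5_scalar_of_pow (F := F) (K := ↥K) sK hs4
  have ha' : C ^ 11 = a • (1 : Matrix (Fin 5) (Fin 5) F) := by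
    have h := congrArg (Subtype.val) ha
    rw [Subalgebra.coe_algebraMap, Algebra.algebraMap_eq_smul_one] at h
    exact h
  have hdet : C.det = 1 := by
    have h : c ∈ specialLinear (Fin 5) F := (Subgroup.mem_inf.mp hcG).2
    rw [specialLinear, MonoidHom.mem_ker] at h
    have h2 := congrArg Units.val h
    rw [hC]
    simpa using h2
  have ha5 : a ^ 5 = 1 := by
    have h := congrArg Matrix.det ha'
    rw [Matrix.det_pow, hdet, one_pow, Matrix.det_smul, Matrix.det_one, mul_one, Fintype.card_fin] at h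
    exact h.symm
  have ha0 : a ≠ 0 := by
    rintro rfl
    simp at ha5
  have ha3 : a ^ 3 = 1 := by
    have h := FiniteField.pow_card_sub_one_eq_one a ha0
    rw [hF] at h
    simpa using h
  have ha2 : a ^ 2 = 1 := by
    have h : a ^ 5 = a ^ 3 * a ^ 2 := by ring
    rw [h, ha3, one_mul] at ha5
    exact ha5
  have ha1 : a = 1 := by
    have h : a ^ 3 = a ^ 2 * a := by ring
    rw [h, ha2, one_mul] at ha3
    exact ha3
  have hc11 : c ^ 11 = 1 := by
    apply Units.ext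
    rw [Units.val_pow_eq_pow_val, ← hC, ha', ha1, one_smul, Units.val_one]
  exact su5_mem_zpowers_incl hF K hK u hu c (hC ▸ hcmem) hc11

/-- A counting lemma: if the elements of `H` take at most 5 values under `f`, with fibres inside
cosets of a subgroup of order 11, then `|H| ≤ 55`. -/
theorem su5_card_le {G β : Type*} [Group G] [Finite G] (H : Subgroup G) (x : G)
    (hx : orderOf x = 11) (f : H → β) (R : Finset β) (hR : R.card ≤ 5) (hf : ∀ h, f h ∈ R)
    (hfib : ∀ h1 h2 : H, f h1 = f h2 → (h2 : G)⁻¹ * (h1 : G) ∈ Subgroup.zpowers x) :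
    Nat.card H ≤ 55 := by
  classical
  haveI := Fintype.ofFinite G
  haveI := Fintype.ofFinite H
  let T : Finset G := Finset.univ.filter (fun a => a ∈ Subgroup.zpowers x)
  have hT : T.card = 11 := by
    rw [← hx, ← Nat.card_zpowers, Nat.card_eq_fintype_card, Fintype.card_subtype]
  have h1 := Finset.card_le_mul_card_image (f := f) (Finset.univ : Finset H) 11 (by
    intro b hb
    obtain ⟨h2, -, rfl⟩ := Finset.mem_image.mp hb
    rw [← hT]
    apply Finset.card_le_card_of_injOn (fun h : H => (h2 : G)⁻¹ * (h : G))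
    · intro h hh
      simp only [Finset.coe_filter, Finset.mem_univ, true_and, Set.mem_setOf_eq] at hh
      simp only [T, Finset.coe_filter, Finset.mem_univ, true_and, Set.mem_setOf_eq]
      exact hfib h h2 hh
    · intro a _ b _ hab
      exact Subtype.ext (mul_left_cancel hab))
  have h2 : (Finset.univ.image f).card ≤ R.card := Finset.card_le_card (by
    intro b hb
    obtain ⟨h, -, rfl⟩ := Finset.mem_image.mp hb
    exact hf h)
  rw [Nat.card_eq_fintype_card, ← Finset.card_univ]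
  calc (Finset.univ : Finset H).card ≤ 11 * (Finset.univ.image f).card := h1
    _ ≤ 11 * 5 := Nat.mul_le_mul_left _ (h2.trans hR)
    _ = 55 := by norm_num

/-- The field-extension subgroup of `SU_5(2)`: it contains an element `x` of order 11 whose
cyclic subgroup it normalises, and it has order at most 55. -/
theorem su5_field_case (hF : Fintype.card F = 2 ^ 2)
    (K : Subalgebra F (Matrix (Fin 5) (Fin 5) F)) (hK : IsFieldSubalgebra 5 K)
    (hadj : IsAdjointClosedFor (hermForm 5 F 2) K) :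
    ∃ x : GL (Fin 5) F, x ∈ subalgebraNormalizer K ⊓ (GU 5 F 2 ⊓ specialLinear (Fin 5) F) ∧
      orderOf x = 11 ∧
      (∀ g ∈ subalgebraNormalizer K ⊓ (GU 5 F 2 ⊓ specialLinear (Fin 5) F),
        g * x * g⁻¹ ∈ Subgroup.zpowers x) ∧
      Nat.card ↥(subalgebraNormalizer K ⊓ (GU 5 F 2 ⊓ specialLinear (Fin 5) F)) ≤ 55 := by
  classical
  obtain ⟨σ, hσ⟩ := exists_sigma hF
  have hadj' := su5_adj_mem hσ hadj
  letI := (IsFS.of hK).field
  haveI : Finite ↥K := Nat.finite_of_card_ne_zero (by rw [su5_cardK hF K hK]; norm_num)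
  have hcU : Nat.card (↥K)ˣ = 1023 := by rw [Nat.card_units, su5_cardK hF K hK]
  haveI : Fact (Nat.Prime 11) := ⟨by norm_num⟩
  obtain ⟨u, hu⟩ := exists_prime_orderOf_dvd_card' (G := (↥K)ˣ) 11 (by rw [hcU]; norm_num)
  obtain ⟨x, hx⟩ : ∃ x : GL (Fin 5) F, x = su5Incl K u := ⟨_, rfl⟩
  have hox : orderOf x = 11 := by
    rw [hx, orderOf_injective (su5Incl K) (su5Incl_injective K) u, hu]
  have hx11 : x ^ 11 = 1 := by
    rw [← hox]
    exact pow_orderOf_eq_one x
  have hxval : (x : Matrix (Fin 5) (Fin 5) F) = ((u : ↥K) : Matrix (Fin 5) (Fin 5) F) := by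
    rw [hx, su5Incl_val]
  have hxK : (x : Matrix (Fin 5) (Fin 5) F) ∈ K := by
    rw [hxval]
    exact (u : ↥K).2
  have hxN : x ∈ subalgebraNormalizer K :=
    Cfsg.Agent.Helper98.mem_normalizer_of_commute K x (fun k hk => hK.comm _ hxK k hk)
  have hxGU : x ∈ GU 5 F 2 := by
    have h1 := su5_unitary hσ hF K hK hadj' u hu
    rw [← hxval] at h1
    have h2 : ((x : Matrix (Fin 5) (Fin 5) F).map σ) * (x : Matrix (Fin 5) (Fin 5) F)ᵀ = 1 := by
      have h := congrArg Matrix.transpose h1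
      rw [Matrix.transpose_mul, Matrix.transpose_transpose, Matrix.transpose_one] at h
      exact h
    have h3 : (x : Matrix (Fin 5) (Fin 5) F)ᵀ * ((x : Matrix (Fin 5) (Fin 5) F).map σ) = 1 :=
      mul_eq_one_comm.mp h2
    intro a b
    have h4 := hσ.isSesq.similar_of_gram (x : Matrix (Fin 5) (Fin 5) F) 1
      (by rw [hσ.gram_herm, mul_one, one_smul]; exact h3) a b
    rw [one_mul] at h4
    exact h4
  have hxSL : x ∈ specialLinear (Fin 5) F := su5_mem_SL_of_pow hF x 11 (by norm_num) hx11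
  have hconjK : ∀ g ∈ subalgebraNormalizer K,
      ((g * x * g⁻¹ : GL (Fin 5) F) : Matrix (Fin 5) (Fin 5) F) ∈ K := by
    intro g hg
    rw [Units.val_mul, Units.val_mul]
    exact (hg _).mp hxK
  have hconj11 : ∀ g : GL (Fin 5) F, (g * x * g⁻¹) ^ 11 = 1 := by
    intro g
    rw [conj_pow, hx11, mul_one, mul_inv_cancel]
  refine ⟨x, Subgroup.mem_inf.mpr ⟨hxN, Subgroup.mem_inf.mpr ⟨hxGU, hxSL⟩⟩, hox, ?_, ?_⟩
  · intro g hg
    rw [hx]
    rw [hx] at hconjK hconj11
    exact su5_mem_zpowers_incl hF K hK u hu _ (hconjK g (Subgroup.mem_inf.mp hg).1) (hconj11 g)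
  · let p : Polynomial F := (x : Matrix (Fin 5) (Fin 5) F).charpoly
    let p' : Polynomial ↥K := p.map (algebraMap F ↥K)
    have hp'0 : p' ≠ 0 := ((Matrix.charpoly_monic _).map _).ne_zero
    let R : Finset ↥K := p'.roots.toFinset
    have hR : R.card ≤ 5 := by
      calc R.card ≤ Multiset.card p'.roots := Multiset.toFinset_card_le _
        _ ≤ p'.natDegree := Polynomial.card_roots' _
        _ ≤ p.natDegree := Polynomial.natDegree_map_le
        _ = 5 := by rw [Matrix.charpoly_natDegree_eq_dim, Fintype.card_fin]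
    let f : ↥(subalgebraNormalizer K ⊓ (GU 5 F 2 ⊓ specialLinear (Fin 5) F)) → ↥K := fun h =>
      ⟨(((h : GL (Fin 5) F) * x * (h : GL (Fin 5) F)⁻¹ : GL (Fin 5) F) :
        Matrix (Fin 5) (Fin 5) F), hconjK _ (Subgroup.mem_inf.mp h.2).1⟩
    refine su5_card_le _ x hox f R hR ?_ ?_
    · intro h
      show f h ∈ p'.roots.toFinset
      rw [Multiset.mem_toFinset, Polynomial.mem_roots hp'0, Polynomial.IsRoot.def,
        Polynomial.eval_map, ← Polynomial.aeval_def]
      apply Subtype.ext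
      have h1 := Polynomial.aeval_algHom_apply K.val (f h) p
      have hcp : (((h : GL (Fin 5) F) * x * (h : GL (Fin 5) F)⁻¹ : GL (Fin 5) F) :
          Matrix (Fin 5) (Fin 5) F).charpoly = p := by
        rw [Units.val_mul, Units.val_mul, Matrix.coe_units_inv]
        exact Matrix.charpoly_units_conj _ _
      have h2 : Polynomial.aeval (((h : GL (Fin 5) F) * x * (h : GL (Fin 5) F)⁻¹ : GL (Fin 5) F) :
          Matrix (Fin 5) (Fin 5) F) p = 0 := by
        rw [← hcp]
        exact Matrix.aeval_self_charpoly _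
      exact h1.symm.trans h2
    · intro h1 h2 h12
      have hEq : (h1 : GL (Fin 5) F) * x * (h1 : GL (Fin 5) F)⁻¹
          = (h2 : GL (Fin 5) F) * x * (h2 : GL (Fin 5) F)⁻¹ := by
        apply Units.ext
        exact congrArg Subtype.val h12
      rw [hx]
      apply su5_centralizer hF K hK u hu
      · exact (Subgroup.mem_inf.mp (Subgroup.mul_mem _ (Subgroup.inv_mem _ h2.2) h1.2)).2
      · rw [← hx]
        calc (h2 : GL (Fin 5) F)⁻¹ * (h1 : GL (Fin 5) F) * x
            = (h2 : GL (Fin 5) F)⁻¹ * ((h1 : GL (Fin 5) F) * x * (h1 : GL (Fin 5) F)⁻¹)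
              * (h1 : GL (Fin 5) F) := by group
          _ = (h2 : GL (Fin 5) F)⁻¹ * ((h2 : GL (Fin 5) F) * x * (h2 : GL (Fin 5) F)⁻¹)
              * (h1 : GL (Fin 5) F) := by rw [hEq]
          _ = x * ((h2 : GL (Fin 5) F)⁻¹ * (h1 : GL (Fin 5) F)) := by group

end Cfsg.Agent.Helper64.SU5
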