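-- helper64: abstract Sylow argument used for the non-maximality of the normaliser of a
-- Sylow 11-subgroup in SU_5(2).
import Mathlib

set_option autoImplicit false

namespace Cfsg.Agent.Helper64.SU5

open scoped Pointwise

variable {Γ : Type*} [Group Γ]

theorem su5_mem_normalizer_zpowers (a b : Γ) (h1 : a * b * a⁻¹ ∈ Subgroup.zpowers b)
    (h2 : a⁻¹ * b * a ∈ Subgroup.zpowers b) : a ∈ Subgroup.normalizer (Subgroup.zpowers b : Set Γ) := by
  rw [Subgroup.mem_normalizer_iff]
  intro n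
  constructor
  · intro hn
    obtain ⟨k, rfl⟩ := Subgroup.mem_zpowers_iff.mp hn
    rw [← conj_zpow]
    exact Subgroup.zpow_mem _ h1 k
  · intro hn
    obtain ⟨k, hk⟩ := Subgroup.mem_zpowers_iff.mp hn
    have e : n = (a⁻¹ * b * a) ^ k := by
      have e1 : (a⁻¹ * b * a) ^ k = a⁻¹ * b ^ k * a := by
        have := conj_zpow (a := a⁻¹) (b := b) (i := k)
        rw [inv_inv] at this
        exact this
      rw [e1, hk]
      group
    rw [e]
    exact Subgroup.zpow_mem _ h2 k

theorem su5_card_ge_55 [Finite Γ] (M : Subgroup Γ) (a b : Γ) (ha : a ∈ M) (hb : b ∈ M)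
    (hoa : orderOf a = 11) (hob : orderOf b = 5) : 55 ≤ Nat.card M := by
  have h11 : 11 ∣ Nat.card M := by
    have := orderOf_dvd_natCard (⟨a, ha⟩ : M)
    rwa [Subgroup.orderOf_mk, hoa] at this
  have h5 : 5 ∣ Nat.card M := by
    have := orderOf_dvd_natCard (⟨b, hb⟩ : M)
    rwa [Subgroup.orderOf_mk, hob] at this
  have h55 : 55 ∣ Nat.card M :=
    (Nat.Coprime.mul_dvd_of_dvd_of_dvd (by norm_num : Nat.Coprime 11 5) h11 h5)
  exact Nat.le_of_dvd Nat.card_pos h55

/-- If `H` is maximal in `G`, normalises a subgroup of order 11 and has order at most 55, while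
`G` (with Sylow 11-subgroups of order 11) has a proper subgroup `L ⊓ G` containing `⟨x0, y0⟩` of
order 55 and an element `t0` not normalising `⟨x0⟩`, we get a contradiction. -/
theorem su5_sylow_contra [Finite Γ] (G H L : Subgroup Γ) (x x0 y0 t0 : Γ)
    (hlt : H < G) (hmax : ∀ M : Subgroup Γ, H ≤ M → M ≤ G → M = H ∨ M = G)
    (hxH : x ∈ H) (hx : orderOf x = 11)
    (hnorm : ∀ g ∈ H, g * x * g⁻¹ ∈ Subgroup.zpowers x)
    (hcard : Nat.card H ≤ 55) (h121 : ¬ 121 ∣ Nat.card G)
    (hx0G : x0 ∈ G) (hy0G : y0 ∈ G) (ht0G : t0 ∈ G)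
    (hx0 : orderOf x0 = 11) (hy0 : orderOf y0 = 5) (hyx : y0 * x0 * y0⁻¹ = x0 ^ 4)
    (htx : ¬ Commute (t0 * x0 * t0⁻¹) x0)
    (hx0L : x0 ∈ L) (hy0L : y0 ∈ L) (ht0L : t0 ∈ L) (hGL : ¬ G ≤ L) : False := by
  classical
  have hHG : H ≤ G := hlt.le
  have hxG : x ∈ G := hHG hxH
  haveI : Fact (Nat.Prime 11) := ⟨by norm_num⟩
  -- Sylow 11-subgroups of G have order 11
  let xG : G := ⟨x, hxG⟩
  let x0G' : G := ⟨x0, hx0G⟩
  have hoxG : orderOf xG = 11 := by rw [Subgroup.orderOf_mk, hx]
  have hox0G : orderOf x0G' = 11 := by rw [Subgroup.orderOf_mk, hx0]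
  have hne : Nat.card G ≠ 0 := Nat.card_pos.ne'
  have hfac : (Nat.card G).factorization 11 = 1 := by
    have h1 : 11 ∣ Nat.card G := by
      have := orderOf_dvd_natCard xG
      rwa [hoxG] at this
    have hle : 1 ≤ (Nat.card G).factorization 11 :=
      (Nat.Prime.dvd_iff_one_le_factorization (by norm_num) hne).mp h1
    have hnot : ¬ 2 ≤ (Nat.card G).factorization 11 := by
      intro h2
      apply h121
      have := (Nat.Prime.pow_dvd_iff_le_factorization (by norm_num : Nat.Prime 11) hne).mpr h2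
      simpa using this
    omega
  have hcP : Nat.card (Subgroup.zpowers xG) = 11 ^ (Nat.card G).factorization 11 := by
    rw [Nat.card_zpowers, hoxG, hfac, pow_one]
  have hcP0 : Nat.card (Subgroup.zpowers x0G') = 11 ^ (Nat.card G).factorization 11 := by
    rw [Nat.card_zpowers, hox0G, hfac, pow_one]
  let P : Sylow 11 G := Sylow.ofCard (Subgroup.zpowers xG) hcP
  let P0 : Sylow 11 G := Sylow.ofCard (Subgroup.zpowers x0G') hcP0
  obtain ⟨g, hg⟩ := MulAction.exists_smul_eq G P P0
  have hgx : g * xG * g⁻¹ ∈ Subgroup.zpowers x0G' := by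
    have h1 : xG ∈ (P : Subgroup G) := Subgroup.mem_zpowers xG
    have h2 : MulAut.conj g • xG ∈ MulAut.conj g • (P : Subgroup G) :=
      Subgroup.smul_mem_pointwise_smul _ _ _ h1
    have h3 : ((g • P : Sylow 11 G) : Subgroup G) = MulAut.conj g • (P : Subgroup G) :=
      Sylow.coe_subgroup_smul
    rw [← h3, hg] at h2
    exact h2
  -- the conjugate x' of x
  set γ : Γ := (g : Γ) with hγ
  have hγG : γ ∈ G := g.2
  set x' : Γ := γ * x * γ⁻¹ with hx'
  have hx'mem : x' ∈ Subgroup.zpowers x0 := by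
    obtain ⟨k, hk⟩ := Subgroup.mem_zpowers_iff.mp hgx
    have := congrArg (Subtype.val : G → Γ) hk
    rw [Subgroup.mem_zpowers_iff]
    refine ⟨k, ?_⟩
    simpa using this
  have hox' : orderOf x' = 11 := by
    have hsc : SemiconjBy γ x x' := by
      unfold SemiconjBy
      rw [hx']
      group
    rw [← hsc.orderOf_eq, hx]
  have hzeq : Subgroup.zpowers x' = Subgroup.zpowers x0 := by
    apply Subgroup.eq_of_le_of_card_ge ((Subgroup.zpowers_le).mpr hx'mem)
    rw [Nat.card_zpowers, Nat.card_zpowers, hox', hx0]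
  -- the conjugate H' of H
  let c : MulAut Γ := MulAut.conj γ
  have hcG : c • G = G := Subgroup.conj_smul_eq_self_of_mem hγG
  have hcG' : c⁻¹ • G = G := by
    conv_lhs => rw [← hcG]
    exact inv_smul_smul c G
  set H' : Subgroup Γ := c • H with hH'
  have hH'G : H' ≤ G := by
    rw [← hcG]
    exact Subgroup.pointwise_smul_le_pointwise_smul_iff.mpr hHG
  have hmax' : ∀ M : Subgroup Γ, H' ≤ M → M ≤ G → M = H' ∨ M = G := by
    intro M h1 h2
    have h1' : H ≤ c⁻¹ • M := Subgroup.pointwise_smul_subset_iff.mp h1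
    have h2' : c⁻¹ • M ≤ G := by
      rw [← hcG']
      exact Subgroup.pointwise_smul_le_pointwise_smul_iff.mpr h2
    rcases hmax _ h1' h2' with h | h
    · left
      rw [hH', ← h, smul_inv_smul]
    · right
      have : c • (c⁻¹ • M) = c • G := by rw [h]
      rwa [smul_inv_smul, hcG] at this
  have hmemH' : ∀ h' ∈ H', ∃ h ∈ H, h' = γ * h * γ⁻¹ := by
    intro h' hh'
    obtain ⟨h, hh, rfl⟩ := Subgroup.mem_pointwise_smul_iff_inv_smul_mem.mp hh' |> fun hh =>
      (⟨c⁻¹ • h', hh, by simp⟩ : ∃ h ∈ H, c • h = h')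
    exact ⟨h, hh, rfl⟩
  have hcardH' : Nat.card H' = Nat.card H := by
    rw [hH']
    exact (Nat.card_congr (Subgroup.equivSMul c H).toEquiv).symm
  -- H' normalises zpowers x0
  let N0 : Subgroup Γ := Subgroup.normalizer (Subgroup.zpowers x0 : Set Γ) ⊓ G
  have hH'N0 : H' ≤ N0 := by
    intro h' hh'
    refine ⟨?_, hH'G hh'⟩
    obtain ⟨h, hh, rfl⟩ := hmemH' h' hh'
    rw [← hzeq]
    apply su5_mem_normalizer_zpowers
    · obtain ⟨k, hk⟩ := Subgroup.mem_zpowers_iff.mp (hnorm h hh)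
      rw [Subgroup.mem_zpowers_iff]
      refine ⟨k, ?_⟩
      rw [hx', conj_zpow, hk]
      group
    · have hinv := hnorm h⁻¹ (H.inv_mem hh)
      rw [inv_inv] at hinv
      obtain ⟨k, hk⟩ := Subgroup.mem_zpowers_iff.mp hinv
      rw [Subgroup.mem_zpowers_iff]
      refine ⟨k, ?_⟩
      rw [hx', conj_zpow, hk]
      group
  have ht0N : t0 ∉ Subgroup.normalizer (Subgroup.zpowers x0 : Set Γ) := by
    intro ht
    have h1 : t0 * x0 * t0⁻¹ ∈ Subgroup.zpowers x0 :=
      (Subgroup.mem_normalizer_iff.mp ht x0).mp (Subgroup.mem_zpowers x0)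
    obtain ⟨k, hk⟩ := Subgroup.mem_zpowers_iff.mp h1
    apply htx
    rw [← hk]
    exact (Commute.refl x0).zpow_left k
  have hN0G : N0 ≤ G := inf_le_right
  have hN0 : N0 = H' := by
    rcases hmax' N0 hH'N0 hN0G with h | h
    · exact h
    · exfalso
      have : t0 ∈ N0 := by rw [h]; exact ht0G
      exact ht0N this.1
  have hx0N : x0 ∈ H' := by
    rw [← hN0]
    exact ⟨Subgroup.le_normalizer (Subgroup.mem_zpowers x0), hx0G⟩
  have hy0N : y0 ∈ H' := by
    rw [← hN0]
    refine ⟨?_, hy0G⟩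
    apply su5_mem_normalizer_zpowers
    · rw [hyx]
      exact Subgroup.pow_mem _ (Subgroup.mem_zpowers x0) 4
    · set w := y0⁻¹ * x0 * y0 with hw
      have hw11 : w ^ 11 = 1 := by
        have e : w ^ 11 = y0⁻¹ * x0 ^ 11 * y0 := by
          have := conj_pow (a := y0⁻¹) (b := x0) (i := 11)
          rw [inv_inv] at this
          exact this
        rw [e, ← hx0, pow_orderOf_eq_one]
        group
      have hw4 : w ^ 4 = x0 := by
        have e : w ^ 4 = y0⁻¹ * x0 ^ 4 * y0 := by
          have := conj_pow (a := y0⁻¹) (b := x0) (i := 4)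
          rw [inv_inv] at this
          exact this
        rw [e, ← hyx]
        group
      have hw3 : w = x0 ^ 3 := by
        calc w = w ^ 11 * w := by rw [hw11, one_mul]
          _ = (w ^ 4) ^ 3 := by rw [← pow_mul, ← pow_succ]
          _ = x0 ^ 3 := by rw [hw4]
      rw [hw3]
      exact Subgroup.pow_mem _ (Subgroup.mem_zpowers x0) 3
  have hc55 : Nat.card H' = 55 := by
    have := su5_card_ge_55 H' x0 y0 hx0N hy0N hx0 hy0
    omega
  -- the closure of x0, y0 is H'
  let M : Subgroup Γ := Subgroup.closure {x0, y0}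
  have hMH' : M ≤ H' := by
    rw [Subgroup.closure_le]
    rintro z (rfl | rfl)
    · exact hx0N
    · exact hy0N
  have hML : M ≤ L := by
    rw [Subgroup.closure_le]
    rintro z (rfl | rfl)
    · exact hx0L
    · exact hy0L
  have hMeq : M = H' := by
    apply Subgroup.eq_of_le_of_card_ge hMH'
    rw [hc55]
    exact su5_card_ge_55 M x0 y0 (Subgroup.subset_closure (by simp)) (Subgroup.subset_closure (by simp))
      hx0 hy0
  have hH'L : H' ≤ L ⊓ G := le_inf (hMeq ▸ hML) hH'G
  rcases hmax' (L ⊓ G) hH'L inf_le_right with h | h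
  · have : t0 ∈ L ⊓ G := ⟨ht0L, ht0G⟩
    rw [h, ← hN0] at this
    exact ht0N this.1
  · apply hGL
    rw [← h]
    exact inf_le_left

end Cfsg.Agent.Helper64.SU5
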