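-- helper64: the normaliser of a degree-5 field in SU_5(2) is not maximal (it lies in L_2(11));
-- class-7 arithmetic in dimension five.
import Cfsg.Agent.Helper64.SU5Sylow
import Cfsg.Agent.Helper64.SU5Field
import Cfsg.Agent.Helper97.PrimeDim

set_option autoImplicit false
open Cfsg Cfsg.Geo Matrix

namespace Cfsg.Agent.Helper64.SU5

variable {F : Type*} [Field F] [Fintype F]

theorem su5_h121 (hF : Fintype.card F = 2 ^ 2) :
    ¬ 121 ∣ Nat.card ↥(GU 5 F 2 ⊓ specialLinear (Fin 5) F) := by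
  intro h
  have h1 : Nat.card ↥(GU 5 F 2 ⊓ specialLinear (Fin 5) F) ∣ Nat.card ↥(GU 5 F 2) :=
    Subgroup.card_dvd_of_le inf_le_left
  rw [su5_card_GU hF] at h1
  have h2 : 121 ∣ 41057280 := h.trans h1
  revert h2
  decide

/-- In `SU_5(2)` the normaliser of an adjoint-closed field of degree 5 is not maximal. -/
theorem su5_not_field_case_two (hF : Fintype.card F = 2 ^ 2) (H : Subgroup (GL (Fin 5) F))
    (hH : IsMaximalIn (GU 5 F 2 ⊓ specialLinear (Fin 5) F) H)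
    (K : Subalgebra F (Matrix (Fin 5) (Fin 5) F)) (hK : IsFieldSubalgebra 5 K)
    (hadj : IsAdjointClosedFor (hermForm 5 F 2) K)
    (hHeq : H = subalgebraNormalizer K ⊓ (GU 5 F 2 ⊓ specialLinear (Fin 5) F)) : False := by
  obtain ⟨x, hxH, hox, hnorm, hcard⟩ := su5_field_case hF K hK hadj
  obtain ⟨x0, y0, t0, L, hx0G, hy0G, ht0G, hox0, hoy0, hyx, htx, hx0L, hy0L, ht0L, hGL⟩ :=
    su5_explicit hF
  rw [← hHeq] at hxH hnorm hcard
  exact su5_sylow_contra (GU 5 F 2 ⊓ specialLinear (Fin 5) F) H L x x0 y0 t0 hH.1 hH.2 hxH hox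
    hnorm hcard (su5_h121 hF) hx0G hy0G ht0G hox0 hoy0 hyx htx hx0L hy0L ht0L hGL

theorem su5_unum_five (r a : ℕ) (hr : r < 5) (ha : 0 < a) (h1 : r ^ (2 * a) % 5 = 1)
    (hmin : ∀ d, 0 < d → d < 2 * a → r ^ d % 5 ≠ 1) :
    (a = 1 ∧ r = 4) ∨ (a = 2 ∧ (r = 2 ∨ r = 3)) := by
  have hr0 : r ≠ 0 := by
    rintro rfl
    rw [zero_pow (by omega)] at h1
    norm_num at h1
  have hele : a ≤ 2 := by
    by_contra hgt
    have h2 := hmin 4 (by norm_num) (by omega)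
    interval_cases r <;> simp_all
  interval_cases a <;> interval_cases r <;>
    first
    | decide
    | (exfalso; revert h1; decide)
    | (exfalso; apply hmin 1 <;> decide)
    | (exfalso; apply hmin 2 <;> decide)

/-- The class-7 arithmetic in dimension five. -/
theorem su5_unum_five_q {p a q : ℕ} (hp : p.Prime) (hF : Fintype.card F = q ^ 2)
    (hqa : q = p ^ a) (hdvd : 5 ∣ p ^ (2 * a) - 1)
    (hmin : ∀ d : ℕ, 0 < d → d < 2 * a → ¬ 5 ∣ p ^ d - 1) :
    (q = p ∧ p % 5 = 4) ∨ (q = p ^ 2 ∧ (p % 5 = 2 ∨ p % 5 = 3)) := by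
  have hq2 := Cfsg.Agent.Helper97.two_le_of_card hF
  have ha : 0 < a := by
    rcases Nat.eq_zero_or_pos a with h | h
    · rw [h, pow_zero] at hqa
      omega
    · exact h
  have h1 := (Cfsg.Agent.Helper97.dvd_pow_sub_one_iff (n := 5) (by norm_num) hp.pos).mp hdvd
  have h2 : ∀ d, 0 < d → d < 2 * a → (p % 5) ^ d % 5 ≠ 1 := fun d hd0 hd h =>
    hmin d hd0 hd ((Cfsg.Agent.Helper97.dvd_pow_sub_one_iff (n := 5) (by norm_num) hp.pos).mpr h)
  rcases su5_unum_five (p % 5) a (Nat.mod_lt _ (by norm_num)) ha h1 h2 with ⟨rfl, hr⟩ | ⟨rfl, hr⟩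
  · left
    exact ⟨by rw [hqa, pow_one], hr⟩
  · right
    exact ⟨hqa, hr⟩

end Cfsg.Agent.Helper64.SU5
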