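-- helper64: the 126 "root lines" of the Mitchell group modulo 2, as a set of vectors in GF(4)^6,
-- and its invariance under a unitary transvection (kernel-checked over the concrete field F4).
import Cfsg.Agent.Helper98.F4

set_option autoImplicit false

namespace Cfsg.Agent.Helper64.SU6

open Cfsg.Agent.Helper98

variable {F : Type*} [Field F] [DecidableEq F]

/-- The weight of a vector of length six. -/
def su6Wt (v : Fin 6 → F) : ℕ :=
  (if v 0 = 0 then 0 else 1) + (if v 1 = 0 then 0 else 1) + (if v 2 = 0 then 0 else 1) +
  (if v 3 = 0 then 0 else 1) + (if v 4 = 0 then 0 else 1) + (if v 5 = 0 then 0 else 1)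

/-- A "root": a vector of weight two, or a vector of full support with coordinate product one. -/
def su6Root (v : Fin 6 → F) : Prop :=
  su6Wt v = 2 ∨ (su6Wt v = 6 ∧ v 0 * v 1 * v 2 * v 3 * v 4 * v 5 = 1)

instance su6Root_dec (v : Fin 6 → F) : Decidable (su6Root v) := by
  unfold su6Root
  infer_instance

set_option maxRecDepth 100000 in
/-- The transvection in the all-ones vector preserves the roots (over the concrete field). -/
theorem su6_tv_root4 : ∀ a b c d e f : F4, su6Root ![a, b, c, d, e, f] →
    su6Root ![a + (a + b + c + d + e + f), b + (a + b + c + d + e + f),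
      c + (a + b + c + d + e + f), d + (a + b + c + d + e + f),
      e + (a + b + c + d + e + f), f + (a + b + c + d + e + f)] := by
  decide

theorem su6_not_root4 : ¬ su6Root ![(0 : F4), 1, 1, 1, 1, 0] := by
  decide

theorem su6_root4_example : su6Root ![(1 : F4), 0, 0, 0, 1, 0] := by
  decide

end Cfsg.Agent.Helper64.SU6
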