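-- helper64: in SU_6(2) the stabiliser of an orthogonal frame of six non-degenerate lines is not
-- maximal: it preserves the 126 root lines of the Mitchell group modulo 2 (inside 3.U_4(3).2).
import Cfsg.Agent.Helper64.SU6Root
import Cfsg.Agent.Helper97.UForm

set_option autoImplicit false
open Cfsg Cfsg.Geo Matrix

namespace Cfsg.Agent.Helper64.SU6

open Cfsg.Agent.Helper98 Cfsg.Agent.Helper97

variable {F : Type*} [Field F]

section roots

variable [DecidableEq F]

theorem su6Wt_eq_sum (v : Fin 6 → F) : su6Wt v = ∑ i, if v i = 0 then 0 else 1 := by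
  rw [Fin.sum_univ_six]
  rfl

theorem su6_prod_eq (v : Fin 6 → F) : v 0 * v 1 * v 2 * v 3 * v 4 * v 5 = ∏ i, v i := by
  rw [Fin.prod_univ_six]

/-- Transfer of the root predicate along a homomorphism from the concrete field. -/
theorem su6Root_map (ψ : F4 →+* F) (u : Fin 6 → F4) : su6Root (fun i => ψ (u i)) ↔ su6Root u := by
  have hw : su6Wt (fun i => ψ (u i)) = su6Wt u := by
    simp only [su6Wt, map_eq_zero]
  unfold su6Root
  rw [hw, ← map_mul, ← map_mul, ← map_mul, ← map_mul, ← map_mul, map_eq_one_iff ψ ψ.injective]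

theorem su6_vec_eta {α : Type*} (u : Fin 6 → α) : u = ![u 0, u 1, u 2, u 3, u 4, u 5] := by
  funext i
  fin_cases i <;> rfl

/-- The transvection in the all-ones vector preserves the roots. -/
theorem su6_tv_root (ψ : F4 →+* F) (hψ : Function.Surjective ψ) (y : Fin 6 → F)
    (hy : su6Root y) : su6Root (fun i => y i + ∑ j, y j) := by
  choose u hu using fun i => hψ (y i)
  have hy' : y = fun i => ψ (u i) := by
    funext i
    exact (hu i).symm
  rw [hy'] at hy ⊢
  rw [su6Root_map] at hy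
  rw [su6_vec_eta u] at hy
  have h1 := su6_tv_root4 (u 0) (u 1) (u 2) (u 3) (u 4) (u 5) hy
  rw [← su6Root_map ψ] at h1
  convert h1 using 1
  funext i
  rw [Fin.sum_univ_six, ← map_add, ← map_add, ← map_add, ← map_add, ← map_add, ← map_add]
  fin_cases i <;> rfl

/-- Monomial matrices of determinant one preserve the roots in characteristic two. -/
theorem su6_monomial_root (h2 : (2 : F) = 0) (M : Matrix (Fin 6) (Fin 6) F)
    (π : Equiv.Perm (Fin 6)) (d : Fin 6 → F) (hd : ∀ i, d i ≠ 0)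
    (hM : ∀ i, M *ᵥ Pi.single i 1 = d i • Pi.single (π i) 1) (hdet : M.det = 1)
    (x : Fin 6 → F) (hx : su6Root x) : su6Root (M *ᵥ x) := by
  have hent : ∀ j i, M j i = if j = π i then d i else 0 := by
    intro j i
    have h1 := congrFun (hM i) j
    rw [Matrix.mulVec_single_one] at h1
    rw [Matrix.col_apply] at h1
    rw [h1, Pi.smul_apply, Pi.single_apply, smul_eq_mul]
    split_ifs <;> simp
  have hval : ∀ i, (M *ᵥ x) (π i) = d i * x i := by
    intro i
    rw [Matrix.mulVec, dotProduct, Finset.sum_eq_single i]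
    · rw [hent, if_pos rfl]
    · intro b _ hb
      rw [hent, if_neg (fun h => hb (π.injective h).symm), zero_mul]
    · intro h
      exact absurd (Finset.mem_univ i) h
  have hprod : ∏ i, d i = 1 := by
    have h1 : M.submatrix π id = Matrix.diagonal d := by
      ext i k
      rw [Matrix.submatrix_apply, id, hent, Matrix.diagonal_apply]
      by_cases hik : i = k
      · subst hik
        rw [if_pos rfl, if_pos rfl]
      · rw [if_neg (fun h => hik (π.injective h)), if_neg hik]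
    have h3 := Matrix.det_permute π M
    rw [h1, Matrix.det_diagonal, hdet, mul_one] at h3
    rw [h3]
    rcases Int.units_eq_one_or (Equiv.Perm.sign π) with h | h
    · rw [h]
      simp
    · rw [h]
      have : (-1 : F) = 1 := by
        rw [neg_eq_iff_add_eq_zero, one_add_one_eq_two, h2]
      simpa using this
  have hw : su6Wt (M *ᵥ x) = su6Wt x := by
    rw [su6Wt_eq_sum, su6Wt_eq_sum, ← Equiv.sum_comp π]
    refine Finset.sum_congr rfl fun i _ => ?_
    rw [hval]
    simp only [mul_eq_zero, hd i, false_or]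
  have hp : ∏ i, (M *ᵥ x) i = ∏ i, x i := by
    rw [← Equiv.prod_comp π]
    simp only [hval]
    rw [Finset.prod_mul_distrib, hprod, one_mul]
  unfold su6Root at hx ⊢
  rw [hw, su6_prod_eq, hp, ← su6_prod_eq]
  exact hx

end roots

/-- The stabiliser in `GL` of a set of vectors. -/
def su6Stab (S : Set (Fin 6 → F)) : Subgroup (GL (Fin 6) F) where
  carrier := {g | ∀ v, v ∈ S ↔ (g : Matrix (Fin 6) (Fin 6) F) *ᵥ v ∈ S}
  mul_mem' := by
    intro a b ha hb v
    rw [Units.val_mul, ← Matrix.mulVec_mulVec, ← ha, ← hb]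
  one_mem' := by
    intro v
    simp
  inv_mem' := by
    intro a ha v
    rw [ha (((a⁻¹ : GL (Fin 6) F) : Matrix (Fin 6) (Fin 6) F) *ᵥ v), Matrix.mulVec_mulVec,
      ← Units.val_mul, mul_inv_cancel, Units.val_one, Matrix.one_mulVec]

theorem su6_inv_mulVec (g : GL (Fin 6) F) (v : Fin 6 → F) :
    ((g⁻¹ : GL (Fin 6) F) : Matrix (Fin 6) (Fin 6) F) *ᵥ ((g : Matrix (Fin 6) (Fin 6) F) *ᵥ v) = v := by
  rw [Matrix.mulVec_mulVec, ← Units.val_mul, inv_mul_cancel, Units.val_one, Matrix.one_mulVec]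

theorem su6_mulVec_inv (g : GL (Fin 6) F) (v : Fin 6 → F) :
    (g : Matrix (Fin 6) (Fin 6) F) *ᵥ (((g⁻¹ : GL (Fin 6) F) : Matrix (Fin 6) (Fin 6) F) *ᵥ v) = v := by
  rw [Matrix.mulVec_mulVec, ← Units.val_mul, mul_inv_cancel, Units.val_one, Matrix.one_mulVec]

theorem su6_conj_mem_SL (g t : GL (Fin 6) F) (ht : t ∈ specialLinear (Fin 6) F) :
    g * t * g⁻¹ ∈ specialLinear (Fin 6) F := by
  rw [specialLinear, MonoidHom.mem_ker] at ht ⊢
  rw [map_mul, map_mul, ht, mul_one, map_inv, mul_inv_cancel]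

section main

variable [Fintype F]

theorem su6_char_two (hF : Fintype.card F = 2 ^ 2) : (2 : F) = 0 := by
  have hc : Fintype.card F4 = Fintype.card F := by rw [hF]; exact F4.card_eq
  let ψ : F4 →+* F := (FiniteField.ringEquivOfCardEq hc).toRingHom
  have h : (1 + 1 : F4) = 0 := by decide
  have h1 := congrArg ψ h
  rw [map_add, map_one, map_zero, one_add_one_eq_two] at h1
  exact h1

/-- Over the field with four elements a non-isotropic vector has norm one. -/
theorem su6_norm (hF : Fintype.card F = 2 ^ 2) (w : Fin 6 → F)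
    (hw : hermForm 6 F 2 w w ≠ 0) : hermForm 6 F 2 w w = 1 := by
  classical
  have h2 := su6_char_two hF
  have hcube : ∀ x : F, x * x ^ 2 = ((if x = 0 then 0 else 1 : ℕ) : F) := by
    intro x
    split_ifs with hx
    · rw [hx]
      simp
    · have h1 := FiniteField.pow_card_sub_one_eq_one x hx
      rw [hF] at h1
      rw [← pow_succ']
      simpa using h1
  have h1 : hermForm 6 F 2 w w = ((∑ i, if w i = 0 then 0 else 1 : ℕ) : F) := by
    unfold hermForm
    rw [Nat.cast_sum]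
    exact Finset.sum_congr rfl fun i _ => hcube (w i)
  rw [h1] at hw ⊢
  generalize (∑ i, if w i = 0 then 0 else 1 : ℕ) = n at hw ⊢
  rcases Nat.even_or_odd n with ⟨k, hk⟩ | ⟨k, hk⟩
  · exfalso
    apply hw
    rw [hk, Nat.cast_add, ← two_mul, h2, zero_mul]
  · rw [hk, Nat.cast_add, Nat.cast_mul, Nat.cast_ofNat, h2, zero_mul, zero_add, Nat.cast_one]

/-- In `SU_6(2)` a maximal subgroup does not stabilise an orthogonal frame of six non-degenerate
lines. -/
theorem su6_two_frame_false (hF : Fintype.card F = 2 ^ 2) (H : Subgroup (GL (Fin 6) F))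
    (hH : IsMaximalIn (GU 6 F 2 ⊓ specialLinear (Fin 6) F) H)
    (D : Fin 6 → Submodule F (Fin 6 → F))
    (hD : IsNondegenerateMDecomposition (hermForm 6 F 2) 1 D)
    (hle : H ≤ decompositionStabilizer D) : False := by
  classical
  obtain ⟨σ, hσ⟩ := exists_sigma hF
  have h2 := su6_char_two hF
  have hneg : ∀ b : F, -b = b := fun b => by
    rw [neg_eq_iff_add_eq_zero, ← two_mul, h2, zero_mul]
  have hc : Fintype.card F4 = Fintype.card F := by rw [hF]; exact F4.card_eq
  let ψ : F4 →+* F := (FiniteField.ringEquivOfCardEq hc).toRingHom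
  have hψ : Function.Surjective ψ := (FiniteField.ringEquivOfCardEq hc).surjective
  -- frame vectors
  have hex : ∀ i, ∃ w : Fin 6 → F, w ∈ D i ∧ w ≠ 0 ∧ ∀ x ∈ D i, ∃ c : F, c • w = x := by
    intro i
    obtain ⟨v, hv0, hv⟩ := finrank_eq_one_iff'.mp (hD.decomp.finrank_eq i)
    refine ⟨v, v.2, fun h => hv0 (Subtype.ext h), fun x hx => ?_⟩
    obtain ⟨c, hc⟩ := hv ⟨x, hx⟩
    exact ⟨c, congrArg Subtype.val hc⟩
  choose w hwD hw0 hwspan using hex
  have hnorm : ∀ i, hermForm 6 F 2 (w i) (w i) = 1 := by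
    intro i
    apply su6_norm hF
    obtain ⟨⟨x, hx, hfx⟩, -⟩ := hD.nondegenerate i (w i) (hwD i) (hw0 i)
    obtain ⟨c, rfl⟩ := hwspan i x hx
    intro h0
    apply hfx
    rw [hσ.herm_eq] at h0 ⊢
    simp only [Pi.smul_apply, smul_eq_mul, mul_assoc, ← Finset.mul_sum, h0, mul_zero]
  have horth : ∀ i j, i ≠ j → hermForm 6 F 2 (w i) (w j) = 0 := fun i j hij =>
    hD.orthogonal i j hij (w i) (hwD i) (w j) (hwD j)
  -- the matrix of the frame
  set g0 : Matrix (Fin 6) (Fin 6) F := Matrix.of (fun k i => w i k) with hg0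
  have key : g0ᵀ * g0.map σ = 1 := by
    ext i j
    rw [Matrix.mul_apply]
    have h1 : ∑ k, g0ᵀ i k * (g0.map σ) k j = hermForm 6 F 2 (w i) (w j) := by
      rw [hσ.herm_eq]
      rfl
    rw [h1, Matrix.one_apply]
    split_ifs with hij
    · subst hij
      exact hnorm i
    · exact horth i j hij
  have key' : (g0.map σ)ᵀ * g0 = 1 := by
    have h1 := congrArg Matrix.transpose key
    rwa [Matrix.transpose_mul, Matrix.transpose_transpose, Matrix.transpose_one] at h1
  let g : GL (Fin 6) F := ⟨g0, (g0.map σ)ᵀ, mul_eq_one_comm.mp key', key'⟩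
  have hgGU : g ∈ GU 6 F 2 := by
    intro a b
    have h1 := hσ.isSesq.similar_of_gram g0 1
      (by rw [hσ.gram_herm, mul_one, one_smul]; exact key) a b
    rw [one_mul] at h1
    exact h1
  have hge : ∀ i, (g : Matrix (Fin 6) (Fin 6) F) *ᵥ Pi.single i 1 = w i := by
    intro i
    rw [Matrix.mulVec_single_one]
    rfl
  -- elements of the frame stabiliser act monomially
  have hmono : ∀ h : GL (Fin 6) F, h ∈ decompositionStabilizer D →
      h ∈ specialLinear (Fin 6) F → ∀ x, su6Root x →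
      su6Root (((g⁻¹ * h * g : GL (Fin 6) F) : Matrix (Fin 6) (Fin 6) F) *ᵥ x) := by
    intro h hh hhS x hx
    obtain ⟨π, hπ⟩ := hh
    have hex : ∀ i, ∃ c : F, c • w (π i) = (h : Matrix (Fin 6) (Fin 6) F) *ᵥ w i := by
      intro i
      have h1 : (h : Matrix (Fin 6) (Fin 6) F) *ᵥ w i ∈ D (π i) := by
        rw [← hπ i]
        exact Submodule.mem_map_of_mem (hwD i)
      exact hwspan (π i) _ h1
    choose d hd using hex
    have hd0 : ∀ i, d i ≠ 0 := by
      intro i h0
      have h1 := hd i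
      rw [h0, zero_smul] at h1
      have h3 := su6_inv_mulVec h (w i)
      rw [← h1, Matrix.mulVec_zero] at h3
      exact hw0 i h3.symm
    refine su6_monomial_root h2 _ π d hd0 ?_ ?_ x hx
    · intro i
      rw [Units.val_mul, Units.val_mul, ← Matrix.mulVec_mulVec, ← Matrix.mulVec_mulVec, hge,
        ← hd i, Matrix.mulVec_smul, ← hge (π i), su6_inv_mulVec]
    · have h3 : (h : Matrix (Fin 6) (Fin 6) F).det = 1 := by
        have h1 := hhS
        rw [specialLinear, MonoidHom.mem_ker] at h1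
        simpa using congrArg Units.val h1
      rw [Units.val_mul, Units.val_mul, Matrix.det_mul, Matrix.det_mul, h3, mul_one,
        ← Matrix.det_mul, ← Units.val_mul, inv_mul_cancel, Units.val_one, Matrix.det_one]
  set S : Set (Fin 6 → F) :=
    {v | su6Root (((g⁻¹ : GL (Fin 6) F) : Matrix (Fin 6) (Fin 6) F) *ᵥ v)} with hS
  have key1 : ∀ h ∈ H, ∀ v ∈ S, (h : Matrix (Fin 6) (Fin 6) F) *ᵥ v ∈ S := by
    intro h hh v hv
    have h3 := hmono h (hle hh) (hH.1.le hh).2 _ hv
    rw [Units.val_mul, Units.val_mul, ← Matrix.mulVec_mulVec, ← Matrix.mulVec_mulVec,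
      su6_mulVec_inv] at h3
    exact h3
  have hHL : H ≤ su6Stab S ⊓ (GU 6 F 2 ⊓ specialLinear (Fin 6) F) := by
    intro h hh
    refine ⟨fun v => ⟨key1 h hh v, fun hv => ?_⟩, hH.1.le hh⟩
    have h1 := key1 h⁻¹ (H.inv_mem hh) _ hv
    rwa [su6_inv_mulVec] at h1
  -- the transvection in the all-ones vector
  have hu1 : hermForm 6 F 2 (fun _ => (1 : F)) (fun _ => 1) = 0 := by
    simp only [hermForm, one_pow, mul_one, Finset.sum_const, Finset.card_univ, Fintype.card_fin,
      nsmul_eq_mul]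
    have h6 : ((6 : ℕ) : F) = 2 * 3 := by norm_num
    rw [h6, h2, zero_mul]
  obtain ⟨t, htG, htv, htinv⟩ := hσ.exists_utv (fun _ => (1 : F)) hu1 1
    (by rw [map_one, hneg])
  have hsum : ∀ v : Fin 6 → F, hermForm 6 F 2 v (fun _ => 1) = ∑ j, v j := by
    intro v
    simp [hermForm]
  have htv' : ∀ v, (t : Matrix (Fin 6) (Fin 6) F) *ᵥ v = fun i => v i + ∑ j, v j := by
    intro v
    rw [htv, hsum, one_mul]
    funext i
    simp
  have htinv' : ∀ v, ((t⁻¹ : GL (Fin 6) F) : Matrix (Fin 6) (Fin 6) F) *ᵥ v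
      = fun i => v i + ∑ j, v j := by
    intro v
    rw [htinv, hsum, one_mul]
    funext i
    simp only [Pi.sub_apply, Pi.smul_apply, smul_eq_mul, mul_one]
    rw [sub_eq_add_neg, hneg]
  set t1 : GL (Fin 6) F := g * t * g⁻¹ with ht1
  have ht1G : t1 ∈ GU 6 F 2 ⊓ specialLinear (Fin 6) F :=
    ⟨(GU 6 F 2).mul_mem ((GU 6 F 2).mul_mem hgGU htG.1) ((GU 6 F 2).inv_mem hgGU),
      su6_conj_mem_SL g t htG.2⟩
  have ht1v : ∀ v, ((g⁻¹ : GL (Fin 6) F) : Matrix (Fin 6) (Fin 6) F) *ᵥ
      ((t1 : Matrix (Fin 6) (Fin 6) F) *ᵥ v)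
      = (t : Matrix (Fin 6) (Fin 6) F) *ᵥ
        (((g⁻¹ : GL (Fin 6) F) : Matrix (Fin 6) (Fin 6) F) *ᵥ v) := by
    intro v
    rw [ht1, Units.val_mul, Units.val_mul, ← Matrix.mulVec_mulVec, ← Matrix.mulVec_mulVec,
      su6_inv_mulVec]
  have ht1S : t1 ∈ su6Stab S := by
    intro v
    show su6Root _ ↔ su6Root _
    rw [ht1v]
    constructor
    · intro h
      rw [htv']
      exact su6_tv_root ψ hψ _ h
    · intro h
      have h3 := su6_tv_root ψ hψ _ h
      rw [← htinv', su6_inv_mulVec] at h3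
      exact h3
  rcases hH.2 _ hHL inf_le_right with hL | hL
  · -- the transvection would lie in the frame stabiliser
    have ht1H : t1 ∈ H := by
      rw [← hL]
      exact ⟨ht1S, ht1G⟩
    obtain ⟨π, hπ⟩ := hle ht1H
    have h3 : (t1 : Matrix (Fin 6) (Fin 6) F) *ᵥ w 0 ∈ D (π 0) := by
      rw [← hπ 0]
      exact Submodule.mem_map_of_mem (hwD 0)
    obtain ⟨c, hc⟩ := hwspan (π 0) _ h3
    have h4 : ((g⁻¹ : GL (Fin 6) F) : Matrix (Fin 6) (Fin 6) F) *ᵥ (c • w (π 0))
        = ((g⁻¹ : GL (Fin 6) F) : Matrix (Fin 6) (Fin 6) F) *ᵥ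
          ((t1 : Matrix (Fin 6) (Fin 6) F) *ᵥ w 0) := by
      rw [hc]
    rw [Matrix.mulVec_smul, ← hge (π 0), su6_inv_mulVec, ht1v, ← hge 0, su6_inv_mulVec, htv'] at h4
    have hs : ∑ j, (Pi.single (0 : Fin 6) (1 : F) : Fin 6 → F) j = 1 := by simp
    by_cases hp : π 0 = 1
    · have h5 := congrFun h4 2
      rw [hs, hp] at h5
      simp at h5
    · have h5 := congrFun h4 1
      rw [hs] at h5
      simp [Pi.single_apply, Ne.symm hp] at h5
  · -- a transvection of SU_6(2) moving a root to a non-root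
    have hu2 : hermForm 6 F 2 (fun i => ψ ((![1, 1, 1, 1, 0, 0] : Fin 6 → F4) i))
        (fun i => ψ ((![1, 1, 1, 1, 0, 0] : Fin 6 → F4) i)) = 0 := by
      simp only [hermForm, Fin.sum_univ_six]
      simp only [Matrix.cons_val_zero, Matrix.cons_val_one, Matrix.cons_val, map_one, map_zero]
      have h4 : (1 : F) + 1 + 1 + 1 = 2 * 2 := by norm_num
      simp [h4, h2]
    obtain ⟨t', ht'G, ht'v, -⟩ := hσ.exists_utv _ hu2 1 (by rw [map_one, hneg])
    set t2 : GL (Fin 6) F := g * t' * g⁻¹ with ht2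
    have ht2G : t2 ∈ GU 6 F 2 ⊓ specialLinear (Fin 6) F :=
      ⟨(GU 6 F 2).mul_mem ((GU 6 F 2).mul_mem hgGU ht'G.1) ((GU 6 F 2).inv_mem hgGU),
        su6_conj_mem_SL g t' ht'G.2⟩
    have ht2L : t2 ∈ su6Stab S ⊓ (GU 6 F 2 ⊓ specialLinear (Fin 6) F) := by
      rw [hL]
      exact ht2G
    set x0 : Fin 6 → F := fun i => ψ ((![1, 0, 0, 0, 1, 0] : Fin 6 → F4) i) with hx0
    have hx0r : su6Root x0 := (su6Root_map ψ _).mpr su6_root4_example
    have hv : (g : Matrix (Fin 6) (Fin 6) F) *ᵥ x0 ∈ S := by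
      show su6Root _
      rw [su6_inv_mulVec]
      exact hx0r
    have h3 := (ht2L.1 _).mp hv
    change su6Root _ at h3
    rw [ht2, Units.val_mul, Units.val_mul, ← Matrix.mulVec_mulVec, ← Matrix.mulVec_mulVec,
      su6_inv_mulVec, su6_inv_mulVec, ht'v] at h3
    have h5 : hermForm 6 F 2 x0 (fun i => ψ ((![1, 1, 1, 1, 0, 0] : Fin 6 → F4) i)) = 1 := by
      simp [hermForm, Fin.sum_univ_six, hx0]
    have h4 : x0 + (1 * hermForm 6 F 2 x0 (fun i => ψ ((![1, 1, 1, 1, 0, 0] : Fin 6 → F4) i))) •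
        (fun i => ψ ((![1, 1, 1, 1, 0, 0] : Fin 6 → F4) i))
        = fun i => ψ ((![0, 1, 1, 1, 1, 0] : Fin 6 → F4) i) := by
      rw [h5, one_mul, one_smul]
      funext i
      fin_cases i <;> simp [hx0, one_add_one_eq_two, h2]
    rw [h4, su6Root_map] at h3
    exact su6_not_root4 h3

end main

end Cfsg.Agent.Helper64.SU6
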