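-- helper64: an adjoint-closed field subalgebra of degree 3 of M_6(GF(4)) meets SU_6(2) in scalars.
import Cfsg.Agent.Helper64.SU6Frame
import Cfsg.Agent.Helper64.SU5Abs
import Cfsg.Agent.Helper97.UAbelian
import Cfsg.Agent.Helper98.FieldSub

set_option autoImplicit false
open Cfsg Cfsg.Geo Matrix

namespace Cfsg.Agent.Helper64.SU6

open Cfsg.Agent.Helper97 Cfsg.Agent.Helper98

variable {F : Type*} [Field F] [Fintype F]

/-- Adjoint-closed subalgebras are closed under the conjugate transpose. -/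
theorem su6_adj_mem {σ : F ≃+* F} (hσ : IsSigma 2 σ)
    {K : Subalgebra F (Matrix (Fin 6) (Fin 6) F)}
    (hadj : IsAdjointClosedFor (hermForm 6 F 2) K) : ∀ k ∈ K, (k.map σ)ᵀ ∈ K := by
  intro k hk
  obtain ⟨k', hk', h⟩ := hadj k hk
  have hS := hσ.isSesq (n := 6)
  have e : (k.map σ)ᵀ = k' := by
    apply Cfsg.Agent.Helper98.matrix_ext_mulVec
    intro v
    by_contra hne
    have hne' : (k.map σ)ᵀ *ᵥ v - k' *ᵥ v ≠ 0 := sub_ne_zero.mpr hne
    obtain ⟨⟨x, hx⟩, -⟩ := hσ.isUnitaryForm.nondegenerate _ hne'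
    apply hx
    have h1 : hermForm 6 F 2 x ((k.map σ)ᵀ *ᵥ v) = hermForm 6 F 2 x (k' *ᵥ v) := by
      rw [← hσ.herm_adj, h]
    have h2 : hermForm 6 F 2 x ((k.map σ)ᵀ *ᵥ v - k' *ᵥ v)
        = hermForm 6 F 2 x ((k.map σ)ᵀ *ᵥ v) - hermForm 6 F 2 x (k' *ᵥ v) := by
      rw [sub_eq_add_neg, hS.add_right, ← neg_one_smul F (k' *ᵥ v), hS.smul_right, map_neg,
        map_one]
      ring
    rw [h2, h1, sub_self]
  rw [e]
  exact hk'

theorem su6_cardK (hF : Fintype.card F = 2 ^ 2) (K : Subalgebra F (Matrix (Fin 6) (Fin 6) F))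
    (hK : IsFieldSubalgebra 3 K) : Nat.card ↥K = 64 := by
  rw [Module.natCard_eq_pow_finrank (K := F) (V := ↥K), hK.finrank_eq, Nat.card_eq_fintype_card, hF]
  norm_num

/-- A unitary element of an adjoint-closed field of degree three over `GF(4)` has order dividing
nine. -/
theorem su6_pow_nine {σ : F ≃+* F} (hσ : IsSigma 2 σ) (hF : Fintype.card F = 2 ^ 2)
    (K : Subalgebra F (Matrix (Fin 6) (Fin 6) F)) (hK : IsFieldSubalgebra 3 K)
    (hadj : ∀ k ∈ K, (k.map σ)ᵀ ∈ K) (X : Matrix (Fin 6) (Fin 6) F) (hX : X ∈ K)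
    (hu : (X.map σ)ᵀ * X = 1) : X ^ 9 = 1 := by
  classical
  letI := (IsFS.of hK).field
  haveI : Finite ↥K := Nat.finite_of_card_ne_zero (by rw [su6_cardK hF K hK]; norm_num)
  have h2 : (2 : F) = 0 := su6_char_two hF
  have hdbl : ∀ M : Matrix (Fin 6) (Fin 6) F, M + M = 0 := by
    intro M
    rw [← two_smul F M, h2, zero_smul]
  have hsq : ∀ A B : Matrix (Fin 6) (Fin 6) F, A * B = B * A → (A + B) ^ 2 = A ^ 2 + B ^ 2 := by
    intro A B hAB
    rw [pow_two, pow_two, pow_two, add_mul, mul_add, mul_add, ← hAB]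
    rw [add_assoc, ← add_assoc (A * B), hdbl, zero_add]
  let ρ : ↥K →ₐ[F] ↥K :=
    { toFun := fun k => ⟨((k.1.map σ)ᵀ) ^ 2, K.pow_mem (hadj k.1 k.2) 2⟩
      map_one' := by
        apply Subtype.ext
        show (((1 : ↥K) : Matrix (Fin 6) (Fin 6) F).map σ)ᵀ ^ 2 = ((1 : ↥K) : Matrix (Fin 6) (Fin 6) F)
        rw [Subalgebra.coe_one, Matrix.map_one σ (map_zero σ) (map_one σ), Matrix.transpose_one,
          one_pow]
      map_mul' := by
        intro a b
        apply Subtype.ext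
        show (((a * b : ↥K) : Matrix (Fin 6) (Fin 6) F).map σ)ᵀ ^ 2
          = ((a : Matrix (Fin 6) (Fin 6) F).map σ)ᵀ ^ 2 * ((b : Matrix (Fin 6) (Fin 6) F).map σ)ᵀ ^ 2
        rw [Subalgebra.coe_mul, IsSigma.adj_mul]
        have hc : Commute ((b : Matrix (Fin 6) (Fin 6) F).map σ)ᵀ
            ((a : Matrix (Fin 6) (Fin 6) F).map σ)ᵀ :=
          hK.comm _ (hadj b.1 b.2) _ (hadj a.1 a.2)
        rw [hc.mul_pow]
        exact (hc.pow_pow 2 2).eq
      map_zero' := by
        apply Subtype.ext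
        show (((0 : ↥K) : Matrix (Fin 6) (Fin 6) F).map σ)ᵀ ^ 2 = ((0 : ↥K) : Matrix (Fin 6) (Fin 6) F)
        rw [Subalgebra.coe_zero, Matrix.map_zero σ (map_zero σ), Matrix.transpose_zero]
        exact zero_pow (by norm_num)
      map_add' := by
        intro a b
        apply Subtype.ext
        show (((a + b : ↥K) : Matrix (Fin 6) (Fin 6) F).map σ)ᵀ ^ 2
          = ((a : Matrix (Fin 6) (Fin 6) F).map σ)ᵀ ^ 2 + ((b : Matrix (Fin 6) (Fin 6) F).map σ)ᵀ ^ 2
        have e : (((a + b : ↥K) : Matrix (Fin 6) (Fin 6) F).map σ)ᵀ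
            = ((a : Matrix (Fin 6) (Fin 6) F).map σ)ᵀ + ((b : Matrix (Fin 6) (Fin 6) F).map σ)ᵀ := by
          rw [Subalgebra.coe_add]
          ext i j
          simp only [Matrix.transpose_apply, Matrix.map_apply, Matrix.add_apply, map_add]
        rw [e]
        exact hsq _ _ (hK.comm _ (hadj a.1 a.2) _ (hadj b.1 b.2))
      commutes' := by
        intro c
        apply Subtype.ext
        show (((algebraMap F ↥K c : ↥K) : Matrix (Fin 6) (Fin 6) F).map σ)ᵀ ^ 2
          = ((algebraMap F ↥K c : ↥K) : Matrix (Fin 6) (Fin 6) F)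
        rw [Subalgebra.coe_algebraMap, Algebra.algebraMap_eq_smul_one]
        have e : ((c • (1 : Matrix (Fin 6) (Fin 6) F)).map σ)ᵀ = σ c • (1 : Matrix (Fin 6) (Fin 6) F) := by
          ext i j
          simp only [Matrix.transpose_apply, Matrix.map_apply, Matrix.smul_apply, Matrix.one_apply,
            smul_eq_mul]
          by_cases hij : i = j
          · subst hij
            simp
          · rw [if_neg hij, if_neg (Ne.symm hij)]
            simp
        rw [e, pow_two, Matrix.smul_mul, Matrix.one_mul, smul_smul, hσ.pow]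
        have h4 : c ^ 2 * c ^ 2 = c := by
          have := FiniteField.pow_card c
          rw [hF] at this
          rw [← pow_add]
          exact this
        rw [h4] }
  obtain ⟨n, hn⟩ := (FiniteField.bijective_frobeniusAlgHom_pow F ↥K).2 ρ
  have hn3 : n.1 < 3 := lt_of_lt_of_eq n.2 hK.finrank_eq
  have hρ : ∀ k : ↥K, ρ k = k ^ (Fintype.card F ^ n.1) := by
    intro k
    have h1 := congrArg (fun f : ↥K →ₐ[F] ↥K => f k) hn
    simp only [AlgHom.coe_pow, FiniteField.coe_frobeniusAlgHom, pow_iterate] at h1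
    exact h1.symm
  let xK : ↥K := ⟨X, hX⟩
  have h3 := congrArg Subtype.val (hρ xK)
  rw [Subalgebra.coe_pow, hF] at h3
  change ((X.map σ)ᵀ) ^ 2 = X ^ ((2 ^ 2) ^ n.1) at h3
  have hcomm : Commute ((X.map σ)ᵀ) X := hK.comm _ (hadj X hX) _ hX
  have h4 : X ^ ((2 ^ 2) ^ n.1) * X ^ 2 = 1 := by
    rw [← h3, ← hcomm.mul_pow, hu, one_pow]
  have hx0 : xK ≠ 0 := by
    intro h0
    have h5 : X = 0 := congrArg Subtype.val h0
    rw [h5, mul_zero] at hu
    exact zero_ne_one hu
  have h63 : X ^ 63 = 1 := by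
    haveI := Fintype.ofFinite ↥K
    have hc : Fintype.card ↥K = 64 := by
      rw [← Nat.card_eq_fintype_card]
      exact su6_cardK hF K hK
    have h5 := FiniteField.pow_card_sub_one_eq_one xK hx0
    rw [hc] at h5
    have h6 := congrArg Subtype.val h5
    rw [Subalgebra.coe_pow, Subalgebra.coe_one] at h6
    exact h6
  rw [← pow_add] at h4
  obtain ⟨m, hm⟩ : ∃ m, m = n.1 := ⟨_, rfl⟩
  rw [← hm] at h4 hn3
  interval_cases m
  · -- X ^ 3 = 1
    have h5 : X ^ 3 = 1 := by simpa using h4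
    calc X ^ 9 = (X ^ 3) ^ 3 := by rw [← pow_mul]
      _ = 1 := by rw [h5, one_pow]
  · have h5 : X ^ 6 = 1 := by simpa using h4
    have h6 : X ^ 3 = 1 := by
      calc X ^ 3 = (X ^ 6) ^ 10 * X ^ 3 := by rw [h5, one_pow, one_mul]
        _ = X ^ 63 := by rw [← pow_mul, ← pow_add]
        _ = 1 := h63
    calc X ^ 9 = (X ^ 3) ^ 3 := by rw [← pow_mul]
      _ = 1 := by rw [h6, one_pow]
  · have h5 : X ^ 18 = 1 := by simpa using h4
    calc X ^ 9 = (X ^ 18) ^ 3 * X ^ 9 := by rw [h5, one_pow, one_mul]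
      _ = X ^ 63 := by rw [← pow_mul, ← pow_add]
      _ = 1 := h63

/-- In a field with four elements a cube is `0` or `1`. -/
theorem su6_cube (hF : Fintype.card F = 2 ^ 2) (c : F) : c ^ 3 = 0 ∨ c ^ 3 = 1 := by
  by_cases hc : c = 0
  · left
    rw [hc]
    exact zero_pow (by norm_num)
  · right
    have h := FiniteField.pow_card_sub_one_eq_one c hc
    rw [hF] at h
    simpa using h

/-- The determinant of an element `X` of a cubic field subalgebra with `X ^ 3 = a`, `a` not a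
cube. -/
theorem su6_det_of_cube (hF : Fintype.card F = 2 ^ 2)
    (K : Subalgebra F (Matrix (Fin 6) (Fin 6) F)) (hK : IsFieldSubalgebra 3 K)
    (X : Matrix (Fin 6) (Fin 6) F) (hX : X ∈ K) (a : F)
    (ha : X ^ 3 = a • (1 : Matrix (Fin 6) (Fin 6) F)) (ha0 : a ≠ 0) (ha1 : a ≠ 1) :
    X.det = a ^ 2 := by
  classical
  have hFS := IsFS.of hK
  have h2 : (2 : F) = 0 := su6_char_two hF
  have hneg : ∀ b : F, -b = b := fun b => by
    rw [neg_eq_iff_add_eq_zero, ← two_mul, h2, zero_mul]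
  have h00 : ∀ c d : F, c • (1 : Matrix (Fin 6) (Fin 6) F) = d • 1 → c = d := by
    intro c d h
    have h1 := congrFun (congrFun h 0) 0
    simpa using h1
  -- `X` is not a scalar
  have hns : ∀ c : F, X ≠ c • (1 : Matrix (Fin 6) (Fin 6) F) := by
    intro c hc
    rw [hc, smul_pow, one_pow] at ha
    have h1 := h00 _ _ ha
    rcases su6_cube hF c with h | h
    · exact ha0 (by rw [← h1, h])
    · exact ha1 (by rw [← h1, h])
  -- `1, X, X ^ 2` are linearly independent
  have hind : ∀ c₀ c₁ c₂ : F,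
      c₀ • (1 : Matrix (Fin 6) (Fin 6) F) + c₁ • X + c₂ • X ^ 2 = 0 → c₀ = 0 ∧ c₁ = 0 ∧ c₂ = 0 := by
    intro c₀ c₁ c₂ h
    by_cases hc2 : c₂ = 0
    · rw [hc2, zero_smul, add_zero] at h
      by_cases hc1 : c₁ = 0
      · rw [hc1, zero_smul, add_zero] at h
        have h1 := h00 c₀ 0 (by rw [h, zero_smul])
        exact ⟨h1, hc1, hc2⟩
      · exfalso
        apply hns (-(c₁⁻¹ * c₀))
        have h1 : c₁ • X = -(c₀ • (1 : Matrix (Fin 6) (Fin 6) F)) := by
          rw [eq_neg_iff_add_eq_zero, add_comm]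
          exact h
        calc X = c₁⁻¹ • (c₁ • X) := by rw [smul_smul, inv_mul_cancel₀ hc1, one_smul]
          _ = -(c₁⁻¹ * c₀) • (1 : Matrix (Fin 6) (Fin 6) F) := by
            rw [h1, smul_neg, smul_smul, neg_smul]
    · exfalso
      -- X ^ 2 = α X + β
      obtain ⟨α, β, hαβ⟩ : ∃ α β : F, X ^ 2 = α • X + β • (1 : Matrix (Fin 6) (Fin 6) F) := by
        refine ⟨-(c₂⁻¹ * c₁), -(c₂⁻¹ * c₀), ?_⟩
        have h1 : c₂ • X ^ 2 = -(c₀ • (1 : Matrix (Fin 6) (Fin 6) F) + c₁ • X) := by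
          rw [eq_neg_iff_add_eq_zero, add_comm]
          exact h
        calc X ^ 2 = c₂⁻¹ • (c₂ • X ^ 2) := by rw [smul_smul, inv_mul_cancel₀ hc2, one_smul]
          _ = -(c₂⁻¹ * c₁) • X + -(c₂⁻¹ * c₀) • (1 : Matrix (Fin 6) (Fin 6) F) := by
            rw [h1, smul_neg, smul_add, smul_smul, smul_smul, neg_add, neg_smul, neg_smul, add_comm]
      have h3 : X ^ 3 = (α ^ 2 + β) • X + (α * β) • (1 : Matrix (Fin 6) (Fin 6) F) := by
        calc X ^ 3 = X * X ^ 2 := by rw [← pow_succ']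
          _ = α • X ^ 2 + β • X := by
            rw [hαβ, mul_add, Matrix.mul_smul, Matrix.mul_smul, mul_one, ← pow_two, ← hαβ]
          _ = (α ^ 2 + β) • X + (α * β) • (1 : Matrix (Fin 6) (Fin 6) F) := by
            rw [hαβ, smul_add, smul_smul, smul_smul, add_smul, pow_two]
            abel
      rw [ha] at h3
      by_cases hz : α ^ 2 + β = 0
      · rw [hz, zero_smul, zero_add] at h3
        have h4 := h00 _ _ h3
        have h5 : β = α ^ 2 := by
          have := eq_neg_of_add_eq_zero_right hz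
          rw [this, hneg]
        rw [h5, ← pow_succ'] at h4
        rcases su6_cube hF α with h | h
        · exact ha0 (by rw [h4, h])
        · exact ha1 (by rw [h4, h])
      · apply hns ((α ^ 2 + β)⁻¹ * (a - α * β))
        have h4 : (α ^ 2 + β) • X = (a - α * β) • (1 : Matrix (Fin 6) (Fin 6) F) := by
          rw [sub_smul, h3]
          abel
        calc X = (α ^ 2 + β)⁻¹ • ((α ^ 2 + β) • X) := by
              rw [smul_smul, inv_mul_cancel₀ hz, one_smul]
          _ = ((α ^ 2 + β)⁻¹ * (a - α * β)) • (1 : Matrix (Fin 6) (Fin 6) F) := by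
              rw [h4, smul_smul]
  -- two vectors
  let v : Fin 6 → F := Pi.single 0 1
  have hv0 : v ≠ 0 := by
    intro h
    have := congrFun h 0
    simp [v] at this
  haveI : Finite ↥K := Nat.finite_of_card_ne_zero (by rw [su6_cardK hF K hK]; norm_num)
  obtain ⟨w, hw⟩ : ∃ w : Fin 6 → F, ∀ k ∈ K, k *ᵥ v ≠ w := by
    by_contra hcon
    push_neg at hcon
    have hsurj : Function.Surjective (fun k : ↥K => (k : Matrix (Fin 6) (Fin 6) F) *ᵥ v) := by
      intro w
      obtain ⟨k, hk, hkw⟩ := hcon w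
      exact ⟨⟨k, hk⟩, hkw⟩
    have h1 := Nat.card_le_card_of_surjective _ hsurj
    rw [su6_cardK hF K hK, Nat.card_eq_fintype_card, Fintype.card_fun, Fintype.card_fin, hF] at h1
    norm_num at h1
  let col : Fin 6 → (Fin 6 → F) := ![v, X *ᵥ v, (X ^ 2) *ᵥ v, w, X *ᵥ w, (X ^ 2) *ᵥ w]
  let P : Matrix (Fin 6) (Fin 6) F := Matrix.of (fun i j => col j i)
  have hPc : ∀ c : Fin 6 → F, P *ᵥ c
      = (c 0 • (1 : Matrix (Fin 6) (Fin 6) F) + c 1 • X + c 2 • X ^ 2) *ᵥ v
        + (c 3 • (1 : Matrix (Fin 6) (Fin 6) F) + c 4 • X + c 5 • X ^ 2) *ᵥ w := by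
    intro c
    funext i
    have e : (P *ᵥ c) i = ∑ j, col j i * c j := rfl
    rw [e, Fin.sum_univ_six]
    simp only [Matrix.add_mulVec, Matrix.smul_mulVec, Matrix.one_mulVec, Pi.add_apply,
      Pi.smul_apply, smul_eq_mul]
    simp only [col, Matrix.cons_val_zero, Matrix.cons_val_one, Matrix.cons_val]
    ring
  have hdetP : P.det ≠ 0 := by
    intro h0
    obtain ⟨c, hc0, hPc0⟩ := Matrix.exists_mulVec_eq_zero_iff.mpr h0
    rw [hPc] at hPc0
    set p : Matrix (Fin 6) (Fin 6) F := c 0 • (1 : Matrix (Fin 6) (Fin 6) F) + c 1 • X + c 2 • X ^ 2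
      with hp
    set q : Matrix (Fin 6) (Fin 6) F := c 3 • (1 : Matrix (Fin 6) (Fin 6) F) + c 4 • X + c 5 • X ^ 2
      with hq
    have hmemK : ∀ c₀ c₁ c₂ : F, c₀ • (1 : Matrix (Fin 6) (Fin 6) F) + c₁ • X + c₂ • X ^ 2 ∈ K :=
      fun c₀ c₁ c₂ => K.add_mem (K.add_mem (K.smul_mem K.one_mem c₀) (K.smul_mem hX c₁))
        (K.smul_mem (K.pow_mem hX 2) c₂)
    have hpK : p ∈ K := hmemK _ _ _
    have hqK : q ∈ K := hmemK _ _ _
    have hq0 : q = 0 := by
      by_contra hne
      obtain ⟨q', hq'K, hqq'⟩ := hK.inv q hqK hne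
      have hq'q : q' * q = 1 := by
        rw [← hK.comm q hqK q' hq'K]
        exact hqq'
      apply hw (q' * p) (K.mul_mem hq'K hpK)
      have h1 : q *ᵥ w = p *ᵥ v := by
        have := eq_neg_of_add_eq_zero_right hPc0
        rw [this]
        funext i
        rw [Pi.neg_apply, hneg]
      calc (q' * p) *ᵥ v = q' *ᵥ (p *ᵥ v) := (Matrix.mulVec_mulVec v q' p).symm
        _ = q' *ᵥ (q *ᵥ w) := by rw [h1]
        _ = w := by rw [Matrix.mulVec_mulVec, hq'q, Matrix.one_mulVec]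
    have hp0 : p = 0 := by
      by_contra hne
      rw [hq0, Matrix.zero_mulVec, add_zero] at hPc0
      exact hv0 (hFS.mulVec_eq_zero hpK hne hPc0)
    obtain ⟨e0, e1, e2⟩ := hind _ _ _ hp0
    obtain ⟨e3, e4, e5⟩ := hind _ _ _ hq0
    apply hc0
    funext i
    fin_cases i
    · exact e0
    · exact e1
    · exact e2
    · exact e3
    · exact e4
    · exact e5
  -- the matrix of `X` in the basis `col`
  let π : Equiv.Perm (Fin 6) := ⟨![1, 2, 0, 4, 5, 3], ![2, 0, 1, 5, 3, 4], by decide, by decide⟩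
  let d : Fin 6 → F := ![1, 1, a, 1, 1, a]
  have hX3 : ∀ u : Fin 6 → F, X *ᵥ ((X ^ 2) *ᵥ u) = a • u := by
    intro u
    rw [Matrix.mulVec_mulVec, ← pow_succ', ha, Matrix.smul_mulVec, Matrix.one_mulVec]
  have hX2 : ∀ u : Fin 6 → F, X *ᵥ (X *ᵥ u) = (X ^ 2) *ᵥ u := by
    intro u
    rw [Matrix.mulVec_mulVec, ← pow_two]
  have hcol : ∀ j, X *ᵥ col j = d j • col (π j) := by
    intro j
    fin_cases j
    · show X *ᵥ v = (1 : F) • (X *ᵥ v)
      rw [one_smul]
    · show X *ᵥ (X *ᵥ v) = (1 : F) • ((X ^ 2) *ᵥ v)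
      rw [one_smul, hX2]
    · show X *ᵥ ((X ^ 2) *ᵥ v) = a • v
      exact hX3 v
    · show X *ᵥ w = (1 : F) • (X *ᵥ w)
      rw [one_smul]
    · show X *ᵥ (X *ᵥ w) = (1 : F) • ((X ^ 2) *ᵥ w)
      rw [one_smul, hX2]
    · show X *ᵥ ((X ^ 2) *ᵥ w) = a • w
      exact hX3 w
  let C : Matrix (Fin 6) (Fin 6) F := Matrix.of (fun i j => if i = π j then d j else 0)
  have hXP : X * P = P * C := by
    ext i j
    have e1 : (X * P) i j = (X *ᵥ col j) i := rfl
    have e2 : (P * C) i j = ∑ k, col k i * (if k = π j then d j else 0) := rfl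
    rw [e1, e2, hcol, Finset.sum_eq_single (π j)]
    · rw [if_pos rfl, Pi.smul_apply, smul_eq_mul, mul_comm]
    · intro b _ hb
      rw [if_neg hb, mul_zero]
    · intro h
      exact absurd (Finset.mem_univ _) h
  have hdetC : C.det = a ^ 2 := by
    have h1 : C.submatrix π id = Matrix.diagonal d := by
      ext i k
      rw [Matrix.submatrix_apply, id, Matrix.diagonal_apply]
      show (if π i = π k then d k else 0) = _
      by_cases hik : i = k
      · subst hik
        rw [if_pos rfl, if_pos rfl]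
      · rw [if_neg (fun h => hik (π.injective h)), if_neg hik]
    have h3 := Matrix.det_permute π C
    rw [h1, Matrix.det_diagonal] at h3
    have h4 : ∏ i, d i = a ^ 2 := by
      rw [Fin.prod_univ_six]
      simp only [d, Matrix.cons_val_zero, Matrix.cons_val_one, Matrix.cons_val]
      ring
    rw [h4] at h3
    rcases Int.units_eq_one_or (Equiv.Perm.sign π) with h | h
    · rw [h] at h3
      simpa using h3.symm
    · rw [h] at h3
      have h5 : (-1 : F) = 1 := by rw [hneg]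
      have h6 : a ^ 2 = -C.det := by simpa using h3
      rw [h6, hneg]
  have h5 : X.det * P.det = P.det * a ^ 2 := by
    rw [← Matrix.det_mul, hXP, Matrix.det_mul, hdetC]
  rw [mul_comm] at h5
  exact mul_left_cancel₀ hdetP h5

/-- An adjoint-closed field subalgebra of degree three of `M_6(GF(4))` meets `SU_6(2)` in
scalars. -/
theorem su6_two_field_scalar (hF : Fintype.card F = 2 ^ 2)
    (K : Subalgebra F (Matrix (Fin 6) (Fin 6) F)) (hK : IsFieldSubalgebra 3 K)
    (hadj : IsAdjointClosedFor (hermForm 6 F 2) K) (x : GL (Fin 6) F)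
    (hxK : (x : Matrix (Fin 6) (Fin 6) F) ∈ K) (hxU : x ∈ GU 6 F 2)
    (hxS : x ∈ specialLinear (Fin 6) F) : x ∈ scalars (Fin 6) F := by
  classical
  obtain ⟨σ, hσ⟩ := exists_sigma hF
  obtain ⟨X, hXdef⟩ : ∃ X : Matrix (Fin 6) (Fin 6) F, X = (x : Matrix (Fin 6) (Fin 6) F) :=
    ⟨_, rfl⟩
  rw [← hXdef] at hxK
  have hu : (X.map σ)ᵀ * X = 1 := by
    rw [hXdef, hσ.adj_GU x hxU, ← Units.val_mul, inv_mul_cancel, Units.val_one]
  have h9 : X ^ 9 = 1 := su6_pow_nine hσ hF K hK (su6_adj_mem hσ hadj) X hxK hu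
  letI := (IsFS.of hK).field
  have hscal : ∀ Y : Matrix (Fin 6) (Fin 6) F, Y ∈ K → Y ^ 4 = Y →
      ∃ a : F, Y = a • (1 : Matrix (Fin 6) (Fin 6) F) := by
    intro Y hY hY4
    let yK : ↥K := ⟨Y, hY⟩
    have hy4 : yK ^ Fintype.card F = yK := by
      rw [hF]
      apply Subtype.ext
      rw [Subalgebra.coe_pow]
      exact hY4
    obtain ⟨a, ha⟩ := Cfsg.Agent.Helper64.SU5.su5_scalar_of_pow (F := F) (K := ↥K) yK hy4
    refine ⟨a, ?_⟩
    have h := congrArg Subtype.val ha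
    rw [Subalgebra.coe_algebraMap, Algebra.algebraMap_eq_smul_one] at h
    exact h
  obtain ⟨a, ha⟩ := hscal (X ^ 3) (K.pow_mem hxK 3) (by
    calc (X ^ 3) ^ 4 = X ^ 9 * X ^ 3 := by rw [← pow_mul, ← pow_add]
      _ = X ^ 3 := by rw [h9, one_mul])
  have ha3 : a ^ 3 = 1 := by
    have h1 : (X ^ 3) ^ 3 = 1 := by rw [← pow_mul]; exact h9
    rw [ha, smul_pow, one_pow] at h1
    have h2 := congrFun (congrFun h1 0) 0
    simpa using h2
  have ha0 : a ≠ 0 := by
    intro h
    rw [h] at ha3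
    norm_num at ha3
  by_cases ha1 : a = 1
  · rw [ha1, one_smul] at ha
    obtain ⟨c, hc⟩ := hscal X hxK (by
      calc X ^ 4 = X ^ 3 * X := by rw [← pow_succ]
        _ = X := by rw [ha, one_mul])
    have hc0 : c ≠ 0 := by
      intro h
      rw [h, zero_smul] at hc
      rw [hc, mul_zero] at hu
      exact zero_ne_one hu
    rw [mem_scalars_iff]
    exact ⟨Units.mk0 c hc0, by rw [← hXdef, hc]; rfl⟩
  · exfalso
    have hdet := su6_det_of_cube hF K hK X hxK a ha ha0 ha1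
    have hdet1 : X.det = 1 := by
      have h1 := hxS
      rw [specialLinear, MonoidHom.mem_ker] at h1
      rw [hXdef]
      simpa using congrArg Units.val h1
    rw [hdet1] at hdet
    apply ha1
    have h : a ^ 3 = a ^ 2 * a := pow_succ a 2
    rw [← hdet, one_mul] at h
    rw [← h]
    exact ha3

end Cfsg.Agent.Helper64.SU6
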